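import Cfsg.Agent.Sp4E.Grp
import Cfsg.Agent.H2.Three

/-!
Relative versions (for a subgroup `P` of an ambient finite group).
-/

set_option autoImplicit false
set_option linter.style.haveILetI false
set_option linter.unusedSimpArgs false

namespace Cfsg.Agent.Sp4E.Grp

variable {G : Type*} [Group G]

theorem inv_coe {P : Subgroup G} {x : P} : Inv x ↔ Inv (x : G) := by
  simp only [Inv, ne_eq, Subtype.ext_iff, Subgroup.coe_mul, Subgroup.coe_one]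

theorem two_coe {P : Subgroup G} {x : P} : Two x ↔ Two (x : G) := by
  simp only [Two, Subtype.ext_iff, Subgroup.coe_pow, Subgroup.coe_one]

structure SE' (P M : Subgroup G) : Prop where
  le : M ≤ P
  se : ∀ g ∈ P, ∀ t ∈ M, Inv t → g * t * g⁻¹ ∈ M → g ∈ M
  cit : ∀ t ∈ P, ∀ x ∈ P, Inv t → Commute x t → Two x
  ne : M ≠ P
  ex : ∃ t ∈ M, Inv t

namespace SE'
variable {P M : Subgroup G} (h : SE' P M)
include h

theorem toSE : SE (M.subgroupOf P) where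
  se g t ht hi hg := h.se g g.2 t ht (inv_coe.mp hi) hg
  cit t x hi hc := two_coe.mpr (h.cit t t.2 x x.2 (inv_coe.mp hi) (congrArg Subtype.val hc.eq))
  ne_top e := h.ne (le_antisymm h.le (Subgroup.subgroupOf_eq_top.mp e))
  ex := by
    obtain ⟨t, ht, hi⟩ := h.ex
    exact ⟨⟨t, h.le ht⟩, ht, inv_coe.mpr hi⟩

variable [Finite G]

theorem exists_not_mem : ∃ n ∈ P, Inv n ∧ n ∉ M := by
  obtain ⟨n, h1, h2⟩ := h.toSE.exists_not_mem
  exact ⟨n, n.2, inv_coe.mp h1, h2⟩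

theorem trans {n t t' : G} (hP : n ∈ P) (hn : Inv n) (hm : n ∉ M) (ht : t ∈ M) (hi : Inv t) (ht' : t' ∈ M)
    (hi' : Inv t') : ∃ d ∈ M, n * d * n⁻¹ ∈ M ∧ d * t * d⁻¹ = t' := by
  obtain ⟨d, h1, h2, h3⟩ := h.toSE.trans (n := ⟨n, hP⟩) (t := ⟨t, h.le ht⟩) (t' := ⟨t', h.le ht'⟩)
    (inv_coe.mpr hn) hm ht (inv_coe.mpr hi) ht' (inv_coe.mpr hi')
  exact ⟨d, h1, h2, congrArg Subtype.val h3⟩

theorem inverts {n d : G} (hP : n ∈ P) (hn : Inv n) (hm : n ∉ M) (hd : d ∈ M) (hd' : n * d * n⁻¹ ∈ M) :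
    n * d * n⁻¹ = d⁻¹ :=
  congrArg Subtype.val (h.toSE.inverts (n := ⟨n, hP⟩) (d := ⟨d, h.le hd⟩) (inv_coe.mpr hn) hm hd hd')

theorem comm {n d d' : G} (hP : n ∈ P) (hn : Inv n) (hm : n ∉ M) (hd : d ∈ M) (hd1 : n * d * n⁻¹ ∈ M)
    (hd' : d' ∈ M) (hd2 : n * d' * n⁻¹ ∈ M) : d * d' = d' * d :=
  congrArg Subtype.val (h.toSE.comm (n := ⟨n, hP⟩) (d := ⟨d, h.le hd⟩) (d' := ⟨d', h.le hd'⟩) (inv_coe.mpr hn)
    hm hd hd1 hd' hd2)

theorem exists_sqrt {n d : G} (hP : n ∈ P) (hm : n ∉ M) (hd : d ∈ M) (hd1 : n * d * n⁻¹ ∈ M) :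
    ∃ k : ℕ, d ^ k * d ^ k = d := by
  obtain ⟨k, hk⟩ := h.toSE.exists_sqrt (n := ⟨n, hP⟩) (d := ⟨d, h.le hd⟩) hm hd hd1
  exact ⟨k, congrArg Subtype.val hk⟩

theorem odd_order {n d : G} (hP : n ∈ P) (hm : n ∉ M) (hd : d ∈ M) (hd1 : n * d * n⁻¹ ∈ M) :
    Odd (orderOf d) := by
  have := h.toSE.odd_order (n := ⟨n, hP⟩) (d := ⟨d, h.le hd⟩) hm hd hd1
  rwa [← Subgroup.orderOf_coe] at this

theorem decomp {S : Subgroup G} (hS : ∀ x ∈ M, Two x → x ∈ S) {n m : G} (hP : n ∈ P) (hn : Inv n) (hm : n ∉ M)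
    (hmM : m ∈ M) : ∃ d ∈ M, n * d * n⁻¹ ∈ M ∧ ∃ s ∈ S, m = d * s := by
  obtain ⟨d, h1, h2, s, h3, h4⟩ := h.toSE.decomp (S := S.subgroupOf P) (fun x hx h2 => hS x hx (two_coe.mp h2))
    (n := ⟨n, hP⟩) (m := ⟨m, h.le hmM⟩) (inv_coe.mpr hn) hm hmM
  exact ⟨d, h1, h2, s, h3, congrArg Subtype.val h4⟩

theorem bruhat {S : Subgroup G} (hSM : S ≤ M) (hS2 : ∀ x ∈ S, Two x) (hS : ∀ x ∈ M, Two x → x ∈ S)
    (h2 : ∃ t ∈ M, ∃ t' ∈ M, Inv t ∧ Inv t' ∧ t ≠ t') {n : G} (hP : n ∈ P) (hn : Inv n) (hm : n ∉ M) {g : G}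
    (hgP : g ∈ P) (hg : g ∉ M) : ∃ s ∈ S, ∃ m ∈ M, g = s * n * m := by
  obtain ⟨t, ht, t', ht', hi, hi', hne⟩ := h2
  obtain ⟨s, h1, m, h2, h3⟩ := h.toSE.bruhat (S := S.subgroupOf P) (fun x hx => hSM hx)
    (fun x hx => two_coe.mpr (hS2 x hx)) (fun x hx h2 => hS x hx (two_coe.mp h2))
    ⟨⟨t, h.le ht⟩, ht, ⟨t', h.le ht'⟩, ht', inv_coe.mpr hi, inv_coe.mpr hi', fun e => hne (congrArg Subtype.val e)⟩
    (n := ⟨n, hP⟩) (g := ⟨g, hgP⟩) (inv_coe.mpr hn) hm hg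
  exact ⟨s, h1, m, h2, congrArg Subtype.val h3⟩

end SE'

/-- `S` is a Sylow 2-subgroup of `P`. -/
structure IsSyl (P S : Subgroup G) : Prop where
  le : S ≤ P
  two : ∀ x ∈ S, Two x
  max : ∀ T : Subgroup G, T ≤ P → (∀ x ∈ T, Two x) → S ≤ T → T = S

theorem IsSyl.sylow {P S : Subgroup G} (h : IsSyl P S) : ∃ Q : Sylow 2 P, (Q : Subgroup P) = S.subgroupOf P := by
  refine ⟨⟨S.subgroupOf P, isPGroup_of_two fun x hx => two_coe.mpr (h.two x hx), fun {T} hT hle => ?_⟩, rfl⟩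
  have := h.max (T.map P.subtype) (Subgroup.map_subtype_le T) (by
    rintro _ ⟨x, hx, rfl⟩; exact two_coe.mp (two_of_isPGroup hT hx)) (by
    intro x hx; exact ⟨⟨x, h.le hx⟩, hle hx, rfl⟩)
  refine le_antisymm (fun x hx => ?_) hle
  show (x : G) ∈ S
  rw [← this]; exact ⟨x, hx, rfl⟩

theorem isSyl_of_sylow {P : Subgroup G} (Q : Sylow 2 P) : IsSyl P ((Q : Subgroup P).map P.subtype) where
  le := Subgroup.map_subtype_le _
  two := by rintro _ ⟨x, hx, rfl⟩; exact two_coe.mp (two_of_isPGroup Q.isPGroup' hx)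
  max T hT h2 hle := by
    have := Q.is_maximal' (Q := T.subgroupOf P) (isPGroup_of_two fun x hx => two_coe.mpr (h2 x hx))
      (fun x hx => hle ⟨x, hx, rfl⟩)
    rw [← this, Subgroup.map_subgroupOf_eq_of_le hT]

theorem exists_isSyl (P : Subgroup G) : ∃ S, IsSyl P S :=
  ⟨_, isSyl_of_sylow (Classical.choice (Sylow.nonempty : Nonempty (Sylow 2 P)))⟩

namespace IsSyl
variable [Finite G] {P S : Subgroup G} (h : IsSyl P S)
include h

theorem conj {T : Subgroup G} (hT : T ≤ P) (h2 : ∀ x ∈ T, Two x) : ∃ g ∈ P, ∀ x ∈ T, g * x * g⁻¹ ∈ S := by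
  obtain ⟨Q, hQ⟩ := h.sylow
  obtain ⟨R, hR⟩ := (isPGroup_of_two (S := T.subgroupOf P) fun x hx => two_coe.mpr (h2 x hx)).exists_le_sylow
  haveI : Fact (Nat.Prime 2) := ⟨Nat.prime_two⟩
  obtain ⟨g, hg⟩ := MulAction.exists_smul_eq P R Q
  refine ⟨g, g.2, fun x hx => ?_⟩
  have h1 : (⟨x, hT hx⟩ : P) ∈ R := hR hx
  have h3 : g * ⟨x, hT hx⟩ * g⁻¹ ∈ (Q : Subgroup P) := by
    rw [← hg, Sylow.coe_subgroup_smul]
    exact Subgroup.smul_mem_pointwise_smul _ _ _ h1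
  rw [hQ] at h3
  exact h3

theorem conj_elt {x : G} (hx : x ∈ P) (h2 : Two x) : ∃ g ∈ P, g * x * g⁻¹ ∈ S := by
  obtain ⟨g, hg, h3⟩ := h.conj (T := Subgroup.zpowers x) (by rwa [Subgroup.zpowers_le]) (by
    rintro _ ⟨j, rfl⟩
    obtain ⟨k, hk⟩ := h2
    exact ⟨k, by show (x ^ j) ^ 2 ^ k = 1; rw [← zpow_natCast, ← zpow_mul, mul_comm, zpow_mul, zpow_natCast, hk, one_zpow]⟩)
  exact ⟨g, hg, h3 x (Subgroup.mem_zpowers x)⟩

theorem odd_relIndex : Odd (S.relIndex P) := by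
  obtain ⟨Q, hQ⟩ := h.sylow
  haveI : Fact (Nat.Prime 2) := ⟨Nat.prime_two⟩
  have := Q.not_dvd_index
  rw [hQ] at this
  exact Nat.odd_iff.mpr (Nat.two_dvd_ne_zero.mp this)

theorem odd_card (hS : S = ⊥) : Odd (Nat.card P) := by
  have := h.odd_relIndex
  rwa [hS, Subgroup.relIndex_bot_left] at this

theorem thompson (hp : commutator P = ⊤) {A : Subgroup G} (hA : A ≤ S) (hi : A.relIndex S = 2) {t : G}
    (ht : t ∈ P) (h2 : t * t = 1) : ∃ g ∈ P, g⁻¹ * t * g ∈ A := by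
  obtain ⟨g, hg⟩ := H2.Three.thompson hp (A.subgroupOf P) h.odd_relIndex (by
    have := Subgroup.relIndex_mul_relIndex A S P hA h.le
    rw [hi] at this
    exact this.symm) ⟨t, ht⟩ (fun g => by
      have : (⟨t, ht⟩ : P) ^ 2 = 1 := Subtype.ext (by simpa [sq] using h2)
      rw [this]; simp)
  exact ⟨g, g.2, hg⟩

theorem eq_bot_of_cyclic (hp : commutator P = ⊤) {x : G} (hx : ∀ s ∈ S, s ∈ Subgroup.zpowers x) : S = ⊥ := by
  obtain ⟨Q, hQ⟩ := h.sylow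
  have hc : IsCyclic S := Subgroup.isCyclic_of_le (H' := Subgroup.zpowers x) hx
  have hc' : IsCyclic Q := by
    show IsCyclic (Q : Subgroup P)
    rw [hQ]
    exact isCyclic_of_surjective (Subgroup.subgroupOfEquivOfLe h.le).symm
      (Subgroup.subgroupOfEquivOfLe h.le).symm.surjective
  have := not_cyclic hp Q hc'
  rw [hQ] at this
  rw [eq_bot_iff]; intro s hs
  have h1 : (⟨s, h.le hs⟩ : P) ∈ S.subgroupOf P := hs
  rw [this] at h1
  exact congrArg Subtype.val (Subgroup.mem_bot.mp h1)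

theorem exists_central (hS : S ≠ ⊥) : ∃ z ∈ S, Inv z ∧ ∀ s ∈ S, Commute s z := by
  haveI : Fact (Nat.Prime 2) := ⟨Nat.prime_two⟩
  haveI : Nontrivial S := (Subgroup.nontrivial_iff_ne_bot S).mpr hS
  have hp : IsPGroup 2 S := isPGroup_of_two h.two
  haveI := hp.center_nontrivial
  obtain ⟨z, hz⟩ := exists_ne (1 : Subgroup.center S)
  have h1 : ((z : S) : G) ≠ 1 := fun e => hz (Subtype.ext (Subtype.ext e))
  obtain ⟨j, hj⟩ := (h.two _ (z : S).2).exists_inv h1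
  refine ⟨_, S.pow_mem (z : S).2 j, hj, fun s hs => Commute.pow_right ?_ j⟩
  exact congrArg Subtype.val (Subgroup.mem_center_iff.mp z.2 ⟨s, hs⟩)

theorem card_le {T : Subgroup G} (hT : T ≤ P) (h2 : ∀ x ∈ T, Two x) : Nat.card T ≤ Nat.card S := by
  obtain ⟨g, -, h3⟩ := h.conj hT h2
  refine Nat.card_le_card_of_injective (fun x : T => (⟨g * x * g⁻¹, h3 x x.2⟩ : S)) fun a b e => ?_
  have := congrArg Subtype.val e
  exact Subtype.ext (by simpa using this)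

end IsSyl

/-- If all conjugates of a non-trivial element lie in a subgroup of a simple group, it is everything. -/
theorem le_of_conj {P K : Subgroup G} (hs : IsSimpleGroup P) {z : G} (hz : z ∈ P) (h1 : z ≠ 1)
    (hK : ∀ g ∈ P, g * z * g⁻¹ ∈ K) : P ≤ K := by
  have hN := (Subgroup.normalClosure_normal (s := {(⟨z, hz⟩ : P)})).eq_bot_or_eq_top
  rcases hN with e | e
  · have : (⟨z, hz⟩ : P) ∈ Subgroup.normalClosure {(⟨z, hz⟩ : P)} := Subgroup.subset_normalClosure rfl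
    rw [e] at this
    exact absurd (congrArg Subtype.val (Subgroup.mem_bot.mp this)) h1
  · intro x hx
    have : (⟨x, hx⟩ : P) ∈ K.subgroupOf P := by
      have h2 : Subgroup.normalClosure {(⟨z, hz⟩ : P)} ≤ K.subgroupOf P := by
        rw [Subgroup.normalClosure, Subgroup.closure_le]
        intro y hy
        obtain ⟨a, ha, c, hc⟩ : ∃ a ∈ ({(⟨z, hz⟩ : P)} : Set P), ∃ c : P, c * a * c⁻¹ = y := by
          simpa [Group.mem_conjugatesOfSet_iff, isConj_iff] using hy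
        rw [Set.mem_singleton_iff.mp ha] at hc
        rw [← hc]
        exact hK c c.2
      exact h2 (e ▸ Subgroup.mem_top _)
    exact this

/-- The centre of a non-abelian simple group is trivial. -/
theorem eq_one_of_central {P : Subgroup G} (hs : IsSimpleGroup P) (hn : ∃ x ∈ P, ∃ y ∈ P, x * y ≠ y * x) {t : G}
    (ht : t ∈ P) (hc : ∀ g ∈ P, g * t = t * g) : t = 1 := by
  by_contra h1
  obtain ⟨x, hx, y, hy, hxy⟩ := hn
  have h2 : P ≤ Subgroup.centralizer {y} := le_of_conj hs ht h1 fun g hg => by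
    rw [hc g hg, mul_inv_cancel_right, Subgroup.mem_centralizer_singleton_iff]; exact (hc y hy).symm
  exact hxy (Subgroup.mem_centralizer_singleton_iff.mp (h2 hx))

end Cfsg.Agent.Sp4E.Grp
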