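import Mathlib

/-! Field-theoretic lemmas. -/

set_option autoImplicit false
set_option linter.style.haveILetI false
set_option linter.unusedSimpArgs false

namespace Cfsg.Agent.Sp4E

variable {F : Type*} [Field F]

theorem mem_iff_pow {L : Subfield F} [Finite L] {x : F} : x ∈ L ↔ x ^ Nat.card L = x := by
  classical
  have := Fintype.ofFinite L
  have h1 : ∀ x ∈ L, x ^ Nat.card L = x := fun x hx => by
    simpa using congrArg Subtype.val (FiniteField.pow_card (⟨x, hx⟩ : L))
  refine ⟨h1 x, fun h => ?_⟩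
  by_contra hx
  have h2 : 1 < Nat.card L := Finite.one_lt_card
  have h3 := FiniteField.X_pow_card_sub_X_ne_zero F h2
  have h4 := Polynomial.card_le_degree_of_subset_roots (p := Polynomial.X ^ Nat.card L - Polynomial.X)
    (Z := insert x (Finset.univ.image (fun a : L => (a : F)))) (by
      intro y hy
      simp only [Finset.mem_val, Finset.mem_insert, Finset.mem_image, Finset.mem_univ,
        true_and] at hy
      rw [Polynomial.mem_roots h3]
      rcases hy with rfl | ⟨a, rfl⟩
      · simp [← Nat.card_eq_fintype_card, h]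
      · simp [← Nat.card_eq_fintype_card, h1 _ a.2])
  rw [FiniteField.X_pow_card_sub_X_natDegree_eq F h2, Finset.card_insert_of_notMem (by
    simpa using hx), Finset.card_image_of_injective _ Subtype.val_injective, Finset.card_univ,
    Nat.card_eq_fintype_card] at h4
  omega

theorem map_mem_self {L : Subfield F} [Finite L] (σ : L →+* F) (x : L) : σ x ∈ L := by
  have := Fintype.ofFinite L
  rw [mem_iff_pow, ← map_pow, Nat.card_eq_fintype_card, FiniteField.pow_card]

theorem dedekind [CharP F 2] (α β γ δ : F →+* F) (h : ∀ x, α x * β x = γ x * δ x) :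
    (α = γ ∧ β = δ) ∨ (α = δ ∧ β = γ) := by
  classical
  have h1 : ∀ x, α x + β x + γ x + δ x = 0 := fun x => by
    have a := h x
    have b := h (x + 1)
    simp only [map_add, map_one] at b
    grobner
  have key : ∀ ψ : F →+* F, (if α = ψ then (1 : F) else 0) + (if β = ψ then 1 else 0) + (if γ = ψ then 1 else 0) +
      (if δ = ψ then 1 else 0) = 0 := by
    intro ψ
    have := linearIndependent_iff.mp (linearIndependent_monoidHom F F)
      (Finsupp.single (α : F →* F) 1 + Finsupp.single (β : F →* F) 1 + Finsupp.single (γ : F →* F) 1 +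
        Finsupp.single (δ : F →* F) 1) (by
        funext x
        simpa using h1 x)
    have e := DFunLike.congr_fun this (ψ : F →* F)
    have inj : ∀ a b : F →+* F, (a : F →* F) = (b : F →* F) ↔ a = b := fun a b =>
      ⟨fun e => RingHom.ext fun x => DFunLike.congr_fun e x, fun e => by rw [e]⟩
    simpa only [Finsupp.add_apply, Finsupp.single_apply, inj, Finsupp.zero_apply] using e
  by_cases e1 : α = γ
  · subst e1
    exact Or.inl ⟨rfl, RingHom.ext fun x => by have := h1 x; grobner⟩
  by_cases e2 : α = δ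
  · subst e2
    exact Or.inr ⟨rfl, RingHom.ext fun x => by have := h1 x; grobner⟩
  exfalso
  by_cases e3 : α = β
  · subst e3
    apply e1
    ext x
    have a := h x
    have b := h1 x
    apply CharTwo.sq_injective
    show _ ^ 2 = _ ^ 2
    grobner
  · have := key α
    simp [Ne.symm e1, Ne.symm e2, Ne.symm e3] at this

theorem exists_exponent [Fintype F] [CharP F 2] (h4 : 4 ≤ Fintype.card F) (ρ : F →+* F)
    (h : ∀ x, ρ (ρ x) = x ^ 2) :
    ∃ m, 1 ≤ m ∧ Fintype.card F = 2 ^ (2 * m + 1) ∧ ∀ x, ρ x = x ^ 2 ^ (m + 1) := by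
  letI := ZMod.algebra F 2
  haveI : Fact (Nat.Prime 2) := ⟨Nat.prime_two⟩
  have hc : Fintype.card F = 2 ^ Module.finrank (ZMod 2) F := by
    rw [Module.card_eq_pow_finrank (K := ZMod 2), ZMod.card]
  let ρ' : F →ₐ[ZMod 2] F := AlgHom.mk ρ fun r =>
    DFunLike.congr_fun (Subsingleton.elim (ρ.comp (algebraMap (ZMod 2) F)) (algebraMap (ZMod 2) F)) r
  let ρ'' : Gal(F/ZMod 2) := AlgEquiv.ofBijective ρ' (Finite.injective_iff_bijective.mp ρ.injective)
  obtain ⟨⟨j, hj⟩, e⟩ := (FiniteField.bijective_frobeniusAlgEquivOfAlgebraic_pow (ZMod 2) F).2 ρ''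
  have ev : ∀ (k : ℕ) (x : F), (FiniteField.frobeniusAlgEquivOfAlgebraic (ZMod 2) F ^ k) x = x ^ 2 ^ k := by
    intro k x
    rw [AlgEquiv.coe_pow, FiniteField.coe_frobeniusAlgEquivOfAlgebraic_iterate, ZMod.card]
  have e1 : ∀ x, ρ x = x ^ 2 ^ j := fun x => by rw [← ev]; exact (DFunLike.congr_fun e x).symm
  have e2 : FiniteField.frobeniusAlgEquivOfAlgebraic (ZMod 2) F ^ (j + j) =
      FiniteField.frobeniusAlgEquivOfAlgebraic (ZMod 2) F ^ 1 := by
    ext x
    rw [ev, ev, pow_one, ← h, e1, e1, ← pow_mul, ← pow_add]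
  rw [pow_eq_pow_iff_modEq, FiniteField.orderOf_frobeniusAlgEquivOfAlgebraic] at e2
  generalize Module.finrank (ZMod 2) F = n at hc hj e2
  have hn : 2 ≤ n := by
    by_contra hn
    have : 2 ^ n ≤ 2 ^ 1 := Nat.pow_le_pow_right (by norm_num) (by omega)
    omega
  have hj0 : j ≠ 0 := by
    rintro rfl
    have := Nat.ModEq.eq_of_lt_of_lt e2 (by omega) (by omega)
    omega
  obtain ⟨c, hc'⟩ := (Nat.modEq_iff_dvd' (by omega)).mp e2.symm
  have : c = 1 := by
    rcases c with _ | _ | c
    · omega
    · rfl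
    · have : n * (c + 1 + 1) ≥ n * 2 := Nat.mul_le_mul_left _ (by omega)
      omega
  subst this
  refine ⟨j - 1, by omega, by rw [hc]; congr 1; omega, fun x => by rw [e1]; congr 2; omega⟩

theorem bot_ne_top [Fintype F] [CharP F 2] (h4 : 4 ≤ Fintype.card F) : (⊥ : Subfield F) ≠ ⊤ := by
  classical
  intro e
  let K : Subfield F :=
    { carrier := {x | x ^ 2 = x}
      mul_mem' := fun {a b} ha hb => by
        show (a * b) ^ 2 = a * b
        rw [mul_pow, ha, hb]
      one_mem' := one_pow 2
      add_mem' := fun {a b} ha hb => by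
        show (a + b) ^ 2 = a + b
        rw [CharTwo.add_sq, ha, hb]
      zero_mem' := zero_pow two_ne_zero
      neg_mem' := fun {a} ha => by rw [CharTwo.neg_eq]; exact ha
      inv_mem' := fun a ha => by
        show a⁻¹ ^ 2 = a⁻¹
        rw [inv_pow, ha] }
  have h : ∀ x : F, x ∈ ({0, 1} : Finset F) := fun x => by
    have : x ∈ K := (bot_le : ⊥ ≤ K) (e ▸ Subfield.mem_top x)
    have : x * (x - 1) = 0 := by have : x ^ 2 = x := this; linear_combination this
    simpa [sub_eq_zero] using this
  have := Finset.card_le_card (fun x _ => h x : Finset.univ ⊆ ({0, 1} : Finset F))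
  have h2 : ({0, 1} : Finset F).card ≤ 2 := Finset.card_le_two
  rw [Finset.card_univ] at this
  omega

end Cfsg.Agent.Sp4E
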