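import Cfsg.Agent.Sp4E.Suz
import Cfsg.Agent.H9.SzApi
import Cfsg.Prelude.Def_GeometricClasses

/-!
Transport to the coordinates of the statement.
-/

set_option autoImplicit false
set_option linter.unusedSectionVars false
set_option linter.unusedSimpArgs false
set_option linter.style.haveILetI false

namespace Cfsg.Agent.Sp4E
open Matrix Cfsg.Agent.H9 Cfsg.Lie Cfsg.Geo

variable {F : Type*} [Field F] [CharP F 2]

def ee : Fin 4 ≃ Fin 2 ⊕ Fin 2 where
  toFun := ![Sum.inl 0, Sum.inl 1, Sum.inr 1, Sum.inr 0]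
  invFun := Sum.elim ![0, 1] ![3, 2]
  left_inv := by decide
  right_inv := by decide

theorem symp_eq (u v : Fin 2 ⊕ Fin 2 → F) : sympForm 2 F u v = f (u ∘ ee) (v ∘ ee) := by
  simp [sympForm, Matrix.J, Matrix.mulVec, dotProduct, f, ee, Fin.sum_univ_two, Matrix.one_apply, CharTwo.neg_eq]
  ring

def toGL : Sp F →* GL (Fin 4) F := Sp.toM.toHomUnits

theorem toGL_val (g : Sp F) : (toGL g : M4 F) = g.val := rfl

theorem toGL_injective : Function.Injective (toGL : Sp F → GL (Fin 4) F) := fun _ _ e =>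
  Sp.ext (congrArg Units.val e)

def toGL' : Sp F →* GL (Fin 2 ⊕ Fin 2) F :=
  ((Matrix.reindexAlgEquiv F F ee).toMonoidHom.comp Sp.toM).toHomUnits

theorem toGL'_val (g : Sp F) :
    (toGL' g : Matrix (Fin 2 ⊕ Fin 2) (Fin 2 ⊕ Fin 2) F) = g.val.submatrix ee.symm ee.symm := rfl

theorem toGL'_injective : Function.Injective (toGL' : Sp F → GL (Fin 2 ⊕ Fin 2) F) := fun _ _ e =>
  Sp.ext ((Matrix.reindexAlgEquiv F F ee).injective (congrArg Units.val e))

theorem toGL'_mulVec (g : Sp F) (v : Fin 2 ⊕ Fin 2 → F) :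
    (toGL' g : Matrix (Fin 2 ⊕ Fin 2) (Fin 2 ⊕ Fin 2) F) *ᵥ v = (g • (v ∘ ee : V F)) ∘ ee.symm := by
  rw [toGL'_val, Matrix.submatrix_mulVec_equiv]; rfl

theorem exists_toGL' {g : GL (Fin 2 ⊕ Fin 2) F} (hg : g ∈ spGL 2 F) : ∃ x : Sp F, toGL' x = g := by
  have h : ∀ u v, sympForm 2 F ((g : Matrix _ _ F) *ᵥ u) ((g : Matrix _ _ F) *ᵥ v) = sympForm 2 F u v := hg
  refine ⟨⟨(g : Matrix _ _ F).submatrix ee ee, (form_iff _).mpr fun x y => ?_⟩, Units.ext ?_⟩
  · rw [Matrix.submatrix_mulVec_equiv, Matrix.submatrix_mulVec_equiv, ← symp_eq, h, symp_eq]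
    congr 1 <;> funext i <;> simp
  · rw [toGL'_val]; simp

theorem scalars_eq_bot {P : Subgroup (GL (Fin 2 ⊕ Fin 2) F)} (hP : P ≤ spGL 2 F) :
    (scalars (Fin 2 ⊕ Fin 2) F).subgroupOf P = ⊥ := by
  rw [eq_bot_iff]
  rintro ⟨g, hg⟩ h
  obtain ⟨c, hc⟩ := (mem_scalars_iff g).mp h
  obtain ⟨x, rfl⟩ := exists_toGL' (hP hg)
  have h03 : x.val 0 0 * x.val 3 3 + x.val 1 0 * x.val 2 3 + x.val 2 0 * x.val 1 3 + x.val 3 0 * x.val 0 3 = 1 :=
    x.col 0 3
  have e : ∀ i j, x.val i j = ((c : F) • (1 : Matrix (Fin 2 ⊕ Fin 2) (Fin 2 ⊕ Fin 2) F)) (ee i) (ee j) := by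
    intro i j; rw [← hc, toGL'_val]; simp
  simp [e, Matrix.one_apply] at h03
  have : (c : F) = 1 := CharTwo.sq_injective (by linear_combination h03)
  rw [Subgroup.mem_bot]
  apply Subtype.ext
  apply Units.ext
  show (toGL' x).val = 1
  rw [hc, this, one_smul]

theorem main [Fintype F] (h4 : 4 ≤ Fintype.card F)
    (hno : ∀ P : Subgroup (Sp F), Hyp P → ∀ u : V F, u ≠ 0 → tv u ∉ P)
    (H : Subgroup (GL (Fin 2 ⊕ Fin 2) F)) (hH : H < spGL 2 F) (hS : InSymplecticResidualClass H) :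
    ∃ (P : Subgroup (GL (Fin 2 ⊕ Fin 2) F)) (m : ℕ), IsResidualCore H P ∧ 1 ≤ m ∧
      Fintype.card F = 2 ^ (2 * m + 1) ∧
      Nonempty ((P ⧸ (scalars (Fin 2 ⊕ Fin 2) F).subgroupOf P) ≃* Sz F (2 ^ (m + 1))) := by
  obtain ⟨P, hP, hQ, -⟩ := hS
  have hle : P ≤ spGL 2 F := hP.le.trans hH.le
  let P' : Subgroup (Sp F) := P.comap toGL'
  have hmap : P'.map toGL' = P := Subgroup.map_comap_eq_self fun g hg => exists_toGL' (hle hg)
  have e1 : (P ⧸ (scalars (Fin 2 ⊕ Fin 2) F).subgroupOf P) ≃* P' :=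
    ((QuotientGroup.quotientMulEquivOfEq (scalars_eq_bot hle)).trans QuotientGroup.quotientBot).trans
      ((Subgroup.equivMapOfInjective P' toGL' toGL'_injective).trans (MulEquiv.subgroupCongr hmap)).symm
  have ms : ∀ s ∈ matrixSet P, ∃ g ∈ P', s = (toGL' g : GL _ F) := by
    rintro _ ⟨g, hg, rfl⟩
    obtain ⟨x, rfl⟩ := exists_toGL' (hle hg)
    exact ⟨x, hg, rfl⟩
  have h1 : Hyp P' := by
    refine ⟨?_, ?_, fun W hW => ?_, fun F₀ B hB => ?_, fun Q hQ' hfix => hQ ?_, fun e => ?_⟩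
    · have := hP.simple
      exact e1.symm.isSimpleGroup
    · by_contra hh
      push Not at hh
      refine hP.nonabelian ⟨⟨fun a b => e1.injective ?_⟩⟩
      rw [map_mul, map_mul]
      exact Subtype.ext (hh _ (e1 a).2 _ (e1 b).2)
    · let L := LinearEquiv.funCongrLeft F F ee
      rcases hP.absIrred.1 (W.comap L.toLinearMap) (by
        intro s hs
        obtain ⟨g, hg, rfl⟩ := ms s hs
        rintro _ ⟨v, hv, rfl⟩
        have := hW g hg _ hv
        show ((toGL' g).val *ᵥ v) ∘ ee ∈ W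
        rw [toGL'_mulVec, Function.comp_assoc, Equiv.symm_comp_self, Function.comp_id]
        exact this) with e | e
      · left
        rw [← Submodule.map_comap_eq_of_surjective (f := L.toLinearMap) L.surjective W, e, Submodule.map_bot]
      · right
        rw [← Submodule.map_comap_eq_of_surjective (f := L.toLinearMap) L.surjective W, e, Submodule.map_top,
          LinearEquiv.range]
    · by_contra hne
      refine hP.no_subfield F₀ hne ⟨toGL' B, fun s hs i j => ?_⟩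
      obtain ⟨g, hg, rfl⟩ := ms s hs
      rw [← map_inv, ← Units.val_mul, ← Units.val_mul, ← map_mul, ← map_mul, toGL'_val]
      exact hB g hg _ _
    · have pol : QuadraticMap.polar (fun v : Fin 2 ⊕ Fin 2 → F => Q (v ∘ ee)) = fun x y => f (x ∘ ee) (y ∘ ee) := by
        funext x y
        have := hQ'.add (x ∘ ee) (y ∘ ee)
        show Q (x ∘ ee + y ∘ ee) - _ - _ = _
        rw [this]; ring
      refine ⟨fun v => Q (v ∘ ee), ⟨fun c v => hQ'.smul c (v ∘ ee), ?_, ?_⟩, fun s hs v => ?_⟩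
      · rw [pol]
        exact ⟨fun x y v => f_add_left (x ∘ ee) (y ∘ ee) _, fun c x v => f_smul_left c (x ∘ ee) _,
          fun v x y => f_add_right _ (x ∘ ee) (y ∘ ee), fun c v x => f_smul_right c _ (x ∘ ee)⟩
      · rw [pol]
        intro v hv
        obtain ⟨y, hy⟩ := exists_f_ne (x := v ∘ ee) fun e => hv (by
          funext i; simpa using congrFun e (ee.symm i))
        have : (y ∘ ee.symm) ∘ ee = y := by funext i; simp
        exact ⟨⟨y ∘ ee.symm, by dsimp only; rw [this, f_comm]; exact hy⟩, ⟨y ∘ ee.symm, by dsimp only; rw [this]; exact hy⟩⟩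
      · obtain ⟨g, hg, rfl⟩ := ms s hs
        show Q (((toGL' g).val *ᵥ v) ∘ ee) = _
        rw [toGL'_mulVec, Function.comp_assoc, Equiv.symm_comp_self, Function.comp_id]
        exact hfix g hg _
    · refine hH.not_ge fun g hg => hP.le ?_
      obtain ⟨x, rfl⟩ := exists_toGL' hg
      exact (e ▸ Subgroup.mem_top x : x ∈ P')
  have h2 : Hyp (P'.map tau) := h1.tau fun M hM => by
    obtain ⟨c, hc⟩ := hP.absIrred.2 (M.submatrix ee.symm ee.symm) fun s hs => by
      obtain ⟨g, hg, rfl⟩ := ms s hs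
      rw [toGL'_val, Matrix.submatrix_mul_equiv, Matrix.submatrix_mul_equiv, hM g hg]
    refine ⟨c, ?_⟩
    ext i j
    simpa [Matrix.one_apply] using congrFun (congrFun hc (ee i)) (ee j)
  obtain ⟨B, m, hm, hc, hB⟩ := Hyp2.suz ⟨h1, h2, fun u hu => ⟨hno _ h1 u hu, hno _ h2 u hu⟩⟩ h4
  have hz : (cj B P').map toGL = Sz F (2 ^ (m + 1)) := by
    ext g
    rw [Suz.mem_Sz_iff hc]
    constructor
    · rintro ⟨x, hx, rfl⟩
      letI := Suz.tw2 hc
      exact ⟨x.form, (hB x).mp hx⟩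
    · intro hg
      letI := Suz.tw2 hc
      exact ⟨⟨g, hg.form⟩, (hB _).mpr hg.star, Units.ext rfl⟩
  exact ⟨P, m, hP, hm, hc, ⟨e1.trans ((Subgroup.equivMapOfInjective P' _ (MulAut.conj B).injective).trans
    ((Subgroup.equivMapOfInjective _ toGL toGL_injective).trans (MulEquiv.subgroupCongr hz)))⟩⟩

theorem charP_of_even {F : Type*} [Field F] [Fintype F] (h : ¬ Odd (Fintype.card F)) : CharP F 2 := by
  have : ringChar F = 2 := by
    rw [FiniteField.even_card_iff_char_two]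
    rw [Nat.odd_iff] at h; omega
  exact this ▸ ringChar.charP F

end Cfsg.Agent.Sp4E
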