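import Cfsg.Agent.Sp4E.TvB

/-!
Subgroups of `Sp₄(q)`, `q ≥ 4` even, satisfying the standing hypotheses contain no transvection.
-/

set_option autoImplicit false
set_option linter.unusedSectionVars false

namespace Cfsg.Agent.Sp4E
namespace Tv
open Grp

variable {F : Type*} [Field F] [CharP F 2] [Finite F] {P : Subgroup (Sp F)}

theorem perp_of_two {x y : V F} (h : Two (tv x * tv y)) : f x y = 0 := by
  by_contra e
  obtain ⟨j, hj⟩ := h.exists_inv fun e' => e (by
    rw [mul_eq_one_iff_inv_eq, tv_inv] at e'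
    rw [tv_inj e', f_self])
  have e1 := inv_conj_pow (tv_sq x) (r := tv x * tv y) (by
    rw [← mul_assoc, tv_sq, one_mul, mul_inv_rev, tv_inv, tv_inv]) j
  have e2 : Commute ((tv x * tv y) ^ j) (tv x) := by
    rw [hj.inv_eq, ← eq_mul_inv_iff_mul_eq, tv_inv] at e1
    exact e1.symm
  have e3 : Commute ((tv x * tv y) ^ j) (tv y) := by
    simpa [← mul_assoc, tv_sq] using e2.mul_right ((Commute.refl (tv x * tv y)).pow_left j)
  refine hj.1 (ext_perp e (by simp [fix_of_comm e2]) (by simp [fix_of_comm e3]) fun z a b => ?_)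
  exact (MulAction.mem_stabilizer_iff.1 (pow_mem (MulAction.mem_stabilizer_iff.2
      (by rw [mul_smul, tv_fix b, tv_fix a])) j)).trans (one_smul _ z).symm

variable (h : Hyp P)
include h

theorem indep {u v : V F} (hu : tv u ∈ P) (hv : tv v ∈ P) (u0 : u ≠ 0) (v0 : v ≠ 0) (e : u ≠ v)
    (s t : F) (H : s • u + t • v = 0) : s = 0 ∧ t = 0 := by
  by_cases s0 : s = 0
  · exact ⟨s0, by simpa [s0, v0] using H⟩
  have e1 : u = (s⁻¹ * t) • v := by
    rw [mul_smul, ← add_eq_zero_vec.1 H, inv_smul_smul₀ s0]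
  have := one_per h v0 (e1 ▸ hu) ((one_smul F v).symm ▸ hv :) (fun a => u0 (by simp [e1, a]))
    one_ne_zero
  exact (e (by rw [e1, this, one_smul])).elim

theorem nonaff {u v : V F} {a b : F} (hu : tv u ∈ P) (hv : tv v ∈ P)
    (hw : tv (a • u + b • v) ∈ P) (e : f u v = 0)
    (li : ∀ s t : F, s • u + t • v = 0 → s = 0 ∧ t = 0) (a0 : a ≠ 0) (b0 : b ≠ 0) (ab : a + b ≠ 1) :
    a = 1 ∧ b = 1 := by
  have u0 : u ≠ 0 := fun e => one_ne_zero (li 1 0 (by simp [e])).1
  obtain ⟨y1, h1, e1⟩ := exists_ne h hu u0 u0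
  obtain ⟨y2, h2, e2⟩ := exists_ne h hu u0 (z := v) fun e => one_ne_zero (li 0 1 (by simp [e])).2
  obtain ⟨y3, h3, e3⟩ := exists_ne h hu u0 (z := a • u + b • v) fun e => a0 (li _ _ e).1
  have k1 := tri h hu hv hw e li a0 b0 ab h1
  have k2 := tri h hu hv hw e li a0 b0 ab h2
  have k3 := tri h hu hv hw e li a0 b0 ab h3
  rw [f_add_right, f_smul_right, f_smul_right] at e3
  clear * - k1 k2 k3 e1 e2 e3
  grind

theorem affine (hc : ∃ c : F, c ≠ 0 ∧ c ≠ 1) {u v : V F} {a b : F} (hu : tv u ∈ P) (hv : tv v ∈ P)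
    (u0 : u ≠ 0) (v0 : v ≠ 0) (uv : u ≠ v) (e : f u v = 0) (hw : tv (a • u + b • v) ∈ P)
    (w0 : a • u + b • v ≠ 0) : a + b = 1 := by
  by_cases a0 : a = 0
  · simp only [a0, zero_smul, zero_add] at hw w0 ⊢
    exact one_per h v0 hw (by simpa using hv) (fun e => w0 (by simp [e])) one_ne_zero
  by_cases b0 : b = 0
  · simp only [b0, zero_smul, add_zero] at hw w0 ⊢
    exact one_per h u0 hw (by simpa using hu) a0 one_ne_zero
  by_contra ab
  have li := indep h hu hv u0 v0 uv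
  obtain ⟨rfl, rfl⟩ := nonaff h hu hv hw e li a0 b0 ab
  have k : ∀ y w, tv y ∈ P → tv w ∈ P → tv (u + w) ∈ P → w ≠ 0 → f u w = 0 → f y w = 0 →
      f y u ≠ 0 → f y u = 1 := fun y w hy hw hw' w0 e1 e2 e3 => by
    have := step hw' (step hu hy)
    refine (nonaff h hy hw (a := 1) (by
      convert this using 2
      ext i
      simp only [f_add_left, f_add_right, f_smul_left, f_self, e1, e2, Pi.add_apply, Pi.smul_apply,
        smul_eq_mul]
      clear * -; grind) e2 (indep h hy hw (fun e => e3 (by simp [e])) w0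
        fun e => e3 (by rw [e, f_comm, e1])) one_ne_zero e3 (by simpa)).2
  have k' : ∀ y, tv y ∈ P → f y u = 0 ∨ f y u = 1 := fun y hy => by
    by_cases e3 : f y u = 0
    · exact .inl e3
    have := tri h hu hv hw e li a0 b0 ab hy
    simp only [one_smul, e3, false_and, and_true, false_or, one_mul] at this hw w0
    refine .inr (this.elim (fun e2 => k y v hy hv hw v0 e e2 e3) fun e2 => k y _ hy hw
      (by rwa [← add_assoc, add_self_vec, zero_add]) w0 ?_ (by rwa [f_add_right]) e3)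
    simp [f_add_right, f_self, e]
  let K : Subfield F :=
    { carrier := {c | c = 0 ∨ c = 1}
      mul_mem' := fun ha hb => by clear * - ha hb; grind
      one_mem' := .inr rfl
      add_mem' := fun ha hb => by clear * - ha hb; grind
      zero_mem' := .inl rfl
      neg_mem' := fun ha => by rwa [CharTwo.neg_eq]
      inv_mem' := fun c ha => by rcases ha with rfl | rfl <;> simp }
  have : K = ⊤ := sub_top h hu u0 fun x y hx hy => by
    by_cases y0 : y = 0
    · exact .inl (by simp [y0])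
    obtain ⟨g, hg, e⟩ := trans h hy hu y0 u0
    have := k' _ (act hg hx)
    rwa [← e, Sp.f_smul] at this
  obtain ⟨c, c0, c1⟩ := hc
  exact (this ▸ Subfield.mem_top c : c ∈ K).elim c0 c1

theorem caseTwo (hc : ∃ c : F, c ≠ 0 ∧ c ≠ 1) {S : Subgroup (Sp F)} (hS : IsSyl P S) {u v : V F}
    (hu : tv u ∈ S) (hv : tv v ∈ S) (u0 : u ≠ 0) (v0 : v ≠ 0) (uv : u ≠ v) : False := by
  have pp : ∀ {x y}, tv x ∈ S → tv y ∈ S → f x y = 0 := fun hx hy =>
    perp_of_two (hS.two _ (S.mul_mem hx hy))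
  have li := indep h (hS.le hu) (hS.le hv) u0 v0 uv
  have nd : ∀ c : F, u ≠ c • v := fun c e =>
    one_ne_zero (li 1 c (by rw [one_smul, e, add_self_vec])).1
  obtain ⟨y, y1, y2⟩ := exists_f_two (y := u + v) (y' := u)
    (fun e => uv (add_eq_zero_vec.1 e)) fun c e => by
      have := li (1 + c) c (by rw [add_smul, add_assoc, ← smul_add, ← e, one_smul, add_self_vec])
      clear * - this; grind
  have y3 : f y v = 1 := by rw [f_add_right] at y1; clear * - y1 y2; grind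
  have k1 : ∀ x, tv x ∈ S → x ≠ 0 → f y x = 1 := fun x hx x0 => by
    obtain ⟨a, b, rfl⟩ := perp_pair v0 nd (pp hu hv) (pp hx hu) (pp hx hv)
    simpa [f_add_right, f_smul_right, y2, y3] using
      affine h hc (hS.le hu) (hS.le hv) u0 v0 uv (pp hu hv) (hS.le hx) x0
  have k2 : ∀ g ∈ S, ∀ x, tv x ∈ S → x ≠ 0 → f (g • y + y) x = 0 := fun g hg x hx x0 => by
    rw [f_add_left, Sp.f_smul_left', k1 _ (act (S.inv_mem hg) hx) (smul_ne x0 _), k1 x hx x0]
    exact CharTwo.add_self_eq_zero 1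
  have k3 : ∀ g ∈ S, ∀ g' ∈ S, f y ((g * g') • y) = f y (g • y) + f y (g' • y) := fun g hg g' hg' => by
    obtain ⟨a, b, e⟩ := perp_pair v0 nd (pp hu hv) (k2 _ (S.inv_mem hg) u hu u0)
      (k2 _ (S.inv_mem hg) v hv v0)
    have e1 : f (g' • y + y) (g⁻¹ • y + y) = 0 := by
      rw [e, f_add_right, f_smul_right, f_smul_right, k2 _ hg' u hu u0, k2 _ hg' v hv v0]; simp
    have e2 := Sp.f_smul g (g' • y) (g⁻¹ • y)
    have e3 := Sp.f_smul g y (g⁻¹ • y)
    rw [smul_inv_smul, f_comm] at e2 e3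
    simp only [f_add_left, f_add_right, f_self, f_comm (g' • y) y] at e1
    rw [mul_smul, e2, e3]
    clear * - e1; grind
  letI := ZMod.algebra F 2
  obtain ⟨φ, hφ⟩ : ∃ φ : Module.Dual (ZMod 2) F, φ 1 ≠ 0 := by
    simpa using mt (Module.forall_dual_apply_eq_zero_iff (ZMod 2) (1 : F)).1 one_ne_zero
  let A : Subgroup (Sp F) :=
    { carrier := {g | g ∈ S ∧ φ (f y (g • y)) = 0}
      mul_mem' := fun ha hb => ⟨S.mul_mem ha.1 hb.1, by
        rw [k3 _ ha.1 _ hb.1, map_add, ha.2, hb.2, add_zero]⟩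
      one_mem' := ⟨S.one_mem, by simp [f_self]⟩
      inv_mem' := fun ha => ⟨S.inv_mem ha.1, by rw [← Sp.f_smul_left', f_comm, ha.2]⟩ }
  have k4 : ∀ x, tv x ∈ S → x ≠ 0 → f y (tv x • y) = 1 := fun x hx x0 => by
    simp [tv_smul, f_add_right, f_smul_right, f_self, k1 x hx x0]
  obtain ⟨g, hg, e⟩ := hS.thompson h.perfect (A := A) (fun g hg => hg.1)
    (Subgroup.relIndex_eq_two_iff.2 ⟨_, hu, fun b hb => by
      show Xor (_ ∧ _) (_ ∧ _)
      simp only [hb, S.mul_mem hb hu, true_and, k3 _ hb _ hu, k4 u hu u0, map_add]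
      revert hφ
      generalize φ 1 = s
      generalize φ _ = t
      revert s t
      decide⟩) (hS.le hu) (tv_sq u)
  have := conj_tv g⁻¹ u
  rw [inv_inv] at this
  rw [this] at e
  exact hφ (k4 _ e.1 (smul_ne u0 _) ▸ e.2)

theorem caseOne {S : Subgroup (Sp F)} (hS : IsSyl P S) {u : V F} (hu : tv u ∈ S) (u0 : u ≠ 0)
    (H : ∀ v, tv v ∈ S → v ≠ 0 → v = u) : False := by
  have k1 : ∀ x y, tv x ∈ P → tv y ∈ P → x ≠ 0 → y ≠ 0 → f x y = 0 → x = y := by
    intro x y hx hy x0 y0 e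
    have c := tv_comm e
    have sq : ∀ a b : ℕ, tv x ^ a * tv y ^ b * (tv x ^ a * tv y ^ b) = 1 := fun a b => by
      rw [(c.pow_pow a b).symm.mul_mul_mul_comm, ← (Commute.refl _).mul_pow,
        ← (Commute.refl _).mul_pow, tv_sq, tv_sq]; simp
    let T : Subgroup (Sp F) :=
      { carrier := {g | ∃ a b : ℕ, g = tv x ^ a * tv y ^ b}
        mul_mem' := by
          rintro _ _ ⟨a, b, rfl⟩ ⟨a', b', rfl⟩
          exact ⟨a + a', b + b', by rw [(c.pow_pow a' b).symm.mul_mul_mul_comm, pow_add, pow_add]⟩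
        one_mem' := ⟨0, 0, by simp⟩
        inv_mem' := by
          rintro _ ⟨a, b, rfl⟩
          exact ⟨a, b, inv_eq_of_mul_eq_one_right (sq a b)⟩ }
    obtain ⟨g, -, e⟩ := hS.conj (T := T) (by
      rintro _ ⟨a, b, rfl⟩; exact P.mul_mem (pow_mem hx a) (pow_mem hy b)) (by
      rintro _ ⟨a, b, rfl⟩; exact ⟨1, by rw [pow_one, pow_two, sq]⟩)
    exact MulAction.injective g ((H _ (conj_tv g x ▸ e _ ⟨1, 0, by simp⟩) (smul_ne x0 g)).trans
      (H _ (conj_tv g y ▸ e _ ⟨0, 1, by simp⟩) (smul_ne y0 g)).symm)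
  have k2 : ∀ s ∈ P, Inv s → ∃ w, s = tv w := fun s hs hi => by
    obtain ⟨v, hv, e⟩ : ∃ v, tv v ∈ P ∧ s • v ≠ v := by
      by_contra e
      push Not at e
      refine hi.1 (eq_one_of_central h.simple h.nonab hs fun g hg => ?_)
      refine (le_of h (hS.le hu) u0 (K := Subgroup.centralizer {s}) (fun x hx => ?_) hg s rfl).symm
      rw [Subgroup.mem_centralizer_singleton_iff, eq_comm, ← mul_inv_eq_iff_eq_mul, conj_tv, e x hx]
    have v0 : v ≠ 0 := fun a => e (by simp [a])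
    have e0 : f (s • v) v ≠ 0 := fun a => e (k1 _ _ (act hs hv) hv (smul_ne v0 s) v0 a)
    obtain ⟨r, r0, e1, e2⟩ := mid' (act hs hv) hv e0
    have e3 : s • r⁻¹ • (s • v + v) = r⁻¹ • (s • v + v) := by
      rw [Sp.smul_smul', smul_add, smul_smul_inv hi.2, add_comm]
    have e4 := tv_mid e1 r0
    have e5 := tv_mid ((f_comm _ _).trans e1) r0
    rw [add_comm] at e5
    have w0 : r⁻¹ • (s • v + v) ≠ 0 := smul_ne_zero (inv_ne_zero r0) fun a => e (add_eq_zero_vec.1 a)
    generalize r⁻¹ • (s • v + v) = w at *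
    have c : Commute s (tv w) := by
      rw [Commute, SemiconjBy, ← mul_inv_eq_iff_eq_mul, conj_tv, e3]
    obtain ⟨z, hz⟩ := eq_tv (g := s * tv w) (by rw [c.symm.mul_mul_mul_comm, hi.2, tv_sq, mul_one]) e0
      (by rw [mul_smul, e4]) (by rw [mul_smul, e5, smul_smul_inv hi.2])
    by_cases z0 : z = 0
    · exact ⟨w, by rw [← tv_inv, eq_inv_iff_mul_eq_one, hz, z0, tv_zero]⟩
    have e6 : tv z • w = w := by rw [← hz, mul_smul, tv_fix (f_self w), e3]
    rw [tv_smul, add_eq_left, smul_eq_zero, or_iff_left z0] at e6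
    rw [← k1 w z e2 (hz ▸ P.mul_mem hs e2) w0 z0 e6, mul_eq_right] at hz
    exact (hi.1 hz).elim
  refine tv_ne_one u0 (Subgroup.mem_bot.1 (hS.eq_bot_of_cyclic h.perfect (x := tv u)
    (fun s hs => ?_) ▸ hu))
  have e : s * s = 1 := by_contra fun e => by
    obtain ⟨j, hj⟩ := (hS.two _ (S.mul_mem hs hs)).exists_inv e
    obtain ⟨w, hw⟩ := k2 _ (hS.le (pow_mem (S.mul_mem hs hs) j)) hj
    exact hj.1 (by rw [hw, tv_not_sq (((Commute.refl s).mul_pow j).symm.trans hw), tv_zero])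
  by_cases s1 : s = 1
  · exact s1 ▸ one_mem _
  obtain ⟨w, rfl⟩ := k2 s (hS.le hs) ⟨s1, e⟩
  rw [H w hs fun a => s1 (by rw [a, tv_zero])]
  exact Subgroup.mem_zpowers _

end Tv

theorem no_tv {F : Type*} [Field F] [Fintype F] [CharP F 2] (h4 : 4 ≤ Fintype.card F)
    (P : Subgroup (Sp F)) (h : Hyp P) (u : V F) (hu : u ≠ 0) : tv u ∉ P := fun hP => by
  classical
  have hc : ∃ c : F, c ≠ 0 ∧ c ≠ 1 := by
    by_contra e
    push Not at e
    have : (Finset.univ : Finset F) ⊆ {0, 1} := fun c _ => by simpa [or_iff_not_imp_left] using e c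
    have := (Finset.card_le_card this).trans Finset.card_le_two
    rw [Finset.card_univ] at this
    omega
  obtain ⟨S, hS⟩ := Grp.exists_isSyl P
  obtain ⟨g, -, e⟩ := hS.conj_elt hP (Grp.Inv.two ⟨tv_ne_one hu, tv_sq u⟩)
  rw [conj_tv] at e
  exact Tv.caseOne h hS e (smul_ne hu g) fun v hv v0 => by_contra fun a =>
    Tv.caseTwo h hc hS hv e v0 (smul_ne hu g) a

end Cfsg.Agent.Sp4E
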