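import Cfsg.Agent.H9.Sz4

/-!
The four-dimensional symplectic group in characteristic two: basic coordinates.
-/

set_option autoImplicit false
set_option linter.unusedSectionVars false
set_option linter.unusedSimpArgs false

namespace Cfsg.Agent.Sp4E
open Matrix Cfsg.Agent.H9 Cfsg.Lie

abbrev V (F : Type*) := Fin 4 → F
abbrev M4 (F : Type*) := Matrix (Fin 4) (Fin 4) F

variable {F : Type*} [Field F]

/-- The form. -/
def f (x y : V F) : F := x 0 * y 3 + x 1 * y 2 + x 2 * y 1 + x 3 * y 0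

theorem f_comm (x y : V F) : f x y = f y x := by unfold f; ring
theorem f_add_left (x y z : V F) : f (x + y) z = f x z + f y z := by simp only [f, Pi.add_apply]; ring
theorem f_add_right (x y z : V F) : f x (y + z) = f x y + f x z := by simp only [f, Pi.add_apply]; ring
theorem f_smul_left (c : F) (x y : V F) : f (c • x) y = c * f x y := by
  simp only [f, Pi.smul_apply, smul_eq_mul]; ring
theorem f_smul_right (c : F) (x y : V F) : f x (c • y) = c * f x y := by
  simp only [f, Pi.smul_apply, smul_eq_mul]; ring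
@[simp] theorem f_zero_left (x : V F) : f 0 x = 0 := by simp [f]
@[simp] theorem f_zero_right (x : V F) : f x 0 = 0 := by simp [f]

theorem vec4_ext {x y : V F} (h0 : x 0 = y 0) (h1 : x 1 = y 1) (h2 : x 2 = y 2) (h3 : x 3 = y 3) : x = y := by
  funext i; fin_cases i <;> assumption

theorem f_vec (a b c d a' b' c' d' : F) :
    f ![a, b, c, d] ![a', b', c', d'] = a * d' + b * c' + c * b' + d * a' := rfl

theorem vec4_eta (x : V F) : x = ![x 0, x 1, x 2, x 3] := vec4_ext rfl rfl rfl rfl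

theorem mulVec4 (a00 a01 a02 a03 a10 a11 a12 a13 a20 a21 a22 a23 a30 a31 a32 a33 : F) (x : V F) :
    !![a00, a01, a02, a03; a10, a11, a12, a13; a20, a21, a22, a23; a30, a31, a32, a33] *ᵥ x =
    ![a00 * x 0 + a01 * x 1 + a02 * x 2 + a03 * x 3, a10 * x 0 + a11 * x 1 + a12 * x 2 + a13 * x 3,
      a20 * x 0 + a21 * x 1 + a22 * x 2 + a23 * x 3, a30 * x 0 + a31 * x 1 + a32 * x 2 + a33 * x 3] := by
  apply vec4_ext <;> simp [Matrix.mulVec, dotProduct, Fin.sum_univ_four]

def e0 : V F := ![1, 0, 0, 0]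
def e1 : V F := ![0, 1, 0, 0]
def e2 : V F := ![0, 0, 1, 0]
def e3 : V F := ![0, 0, 0, 1]

theorem eq_zero_of_f {x : V F} (h : ∀ y, f x y = 0) : x = 0 := by
  have h0 := h e3; have h1 := h e2; have h2 := h e1; have h3 := h e0
  simp [f, e0, e1, e2, e3] at h0 h1 h2 h3
  exact vec4_ext h0 h1 h2 h3

theorem exists_f_ne {x : V F} (h : x ≠ 0) : ∃ y, f x y ≠ 0 := by
  by_contra hh; push Not at hh; exact h (eq_zero_of_f hh)

theorem exists_f_one {x : V F} (h : x ≠ 0) : ∃ y, f x y = 1 := by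
  obtain ⟨y, hy⟩ := exists_f_ne h
  exact ⟨(f x y)⁻¹ • y, by rw [f_smul_right, inv_mul_cancel₀ hy]⟩

theorem basis_expand (x : V F) : x = x 0 • e0 + x 1 • e1 + x 2 • e2 + x 3 • e3 := by
  apply vec4_ext <;> simp [e0, e1, e2, e3]

abbrev J (F : Type*) [Field F] : M4 F := Suz.Jm F

theorem J_def : J F = !![0, 0, 0, 1; 0, 0, 1, 0; 0, 1, 0, 0; 1, 0, 0, 0] := rfl

theorem J_mul_J : J F * J F = 1 := by
  rw [J_def, mul4, one4]; apply mat4_congr <;> ring

theorem J_transpose : (J F)ᵀ = J F := by rw [J_def, transpose4]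

theorem f_eq (x y : V F) : f x y = x ⬝ᵥ (J F *ᵥ y) := by
  simp [f, J_def, Matrix.mulVec, dotProduct, Fin.sum_univ_four]

theorem form_apply (A : M4 F) (i j : Fin 4) :
    (Aᵀ * J F * A) i j = A 0 i * A 3 j + A 1 i * A 2 j + A 2 i * A 1 j + A 3 i * A 0 j := by
  simp [J_def, Matrix.mul_apply, Fin.sum_univ_four, Matrix.vecMul, dotProduct]
  ring

theorem f_mulVec (A : M4 F) (x y : V F) : f (A *ᵥ x) (A *ᵥ y) = x ⬝ᵥ ((Aᵀ * J F * A) *ᵥ y) := by
  rw [f_eq, ← mulVec_mulVec, ← mulVec_mulVec, dotProduct_mulVec x, vecMul_transpose]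

theorem form_iff (A : M4 F) : Aᵀ * J F * A = J F ↔ ∀ x y, f (A *ᵥ x) (A *ᵥ y) = f x y := by
  simp only [f_mulVec]
  simp only [f_eq]
  constructor
  · intro h x y; rw [h]
  · intro h
    ext i j
    simpa using h (Pi.single i 1) (Pi.single j 1)

theorem form_inv {A : M4 F} (h : Aᵀ * J F * A = J F) : J F * Aᵀ * J F * A = 1 := by
  rw [Matrix.mul_assoc, Matrix.mul_assoc, ← Matrix.mul_assoc Aᵀ, h, J_mul_J]

theorem form_transpose {A : M4 F} (h : Aᵀ * J F * A = J F) : Aᵀᵀ * J F * Aᵀ = J F := by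
  have h2 := mul_eq_one_comm.mp (form_inv h)
  rw [transpose_transpose]
  calc A * J F * Aᵀ = A * (J F * Aᵀ * J F) * J F := by
        simp only [Matrix.mul_assoc, J_mul_J, Matrix.mul_one]
    _ = _ := by rw [h2, Matrix.one_mul]

/-- The symplectic group. -/
@[ext] structure Sp (F : Type*) [Field F] where
  val : M4 F
  form : valᵀ * J F * val = J F

namespace Sp

instance : Mul (Sp F) := ⟨fun A B => ⟨A.val * B.val, by
  calc (A.val * B.val)ᵀ * J F * (A.val * B.val) = B.valᵀ * (A.valᵀ * J F * A.val) * B.val := by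
        simp only [transpose_mul, Matrix.mul_assoc]
    _ = _ := by rw [A.form, B.form]⟩⟩
instance : One (Sp F) := ⟨⟨1, by simp⟩⟩
instance : Inv (Sp F) := ⟨fun A => ⟨J F * A.valᵀ * J F, by
  have h := form_transpose A.form
  rw [transpose_transpose] at h
  simp only [transpose_mul, J_transpose, transpose_transpose, Matrix.mul_assoc]
  rw [← Matrix.mul_assoc (J F) (J F), J_mul_J, Matrix.one_mul, ← Matrix.mul_assoc A.val,
    ← Matrix.mul_assoc (A.val * J F), h, J_mul_J, Matrix.mul_one]⟩⟩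

@[simp] theorem val_mul (A B : Sp F) : (A * B).val = A.val * B.val := rfl
@[simp] theorem val_one : (1 : Sp F).val = 1 := rfl
theorem val_inv (A : Sp F) : (A⁻¹).val = J F * A.valᵀ * J F := rfl

instance : Group (Sp F) where
  mul_assoc a b c := Sp.ext (Matrix.mul_assoc _ _ _)
  one_mul a := Sp.ext (Matrix.one_mul _)
  mul_one a := Sp.ext (Matrix.mul_one _)
  inv_mul_cancel a := Sp.ext (form_inv a.form)

theorem val_injective : Function.Injective (Sp.val : Sp F → M4 F) := fun _ _ h => Sp.ext h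

instance [Finite F] : Finite (Sp F) := Finite.of_injective _ val_injective

theorem inv_mul_val (A : Sp F) : (A⁻¹).val * A.val = 1 := by rw [← val_mul, inv_mul_cancel, val_one]
theorem mul_inv_val (A : Sp F) : A.val * (A⁻¹).val = 1 := by rw [← val_mul, mul_inv_cancel, val_one]

theorem val_inv_eq (A : Sp F) : (A⁻¹).val =
    !![A.val 3 3, A.val 2 3, A.val 1 3, A.val 0 3; A.val 3 2, A.val 2 2, A.val 1 2, A.val 0 2;
      A.val 3 1, A.val 2 1, A.val 1 1, A.val 0 1; A.val 3 0, A.val 2 0, A.val 1 0, A.val 0 0] := by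
  rw [val_inv]
  conv_lhs => rw [eta4 A.val]
  rw [transpose4, J_def, mul4, mul4]
  apply mat4_congr <;> ring

/-- The matrix as a monoid homomorphism. -/
def toM : Sp F →* M4 F where
  toFun := Sp.val
  map_one' := rfl
  map_mul' _ _ := rfl

instance : SMul (Sp F) (V F) := ⟨fun g v => g.val *ᵥ v⟩

theorem smul_def (g : Sp F) (v : V F) : g • v = g.val *ᵥ v := rfl

instance : DistribMulAction (Sp F) (V F) where
  one_smul v := Matrix.one_mulVec v
  mul_smul a b v := (Matrix.mulVec_mulVec v a.val b.val).symm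
  smul_zero _ := Matrix.mulVec_zero _
  smul_add _ _ _ := Matrix.mulVec_add _ _ _

instance : SMulCommClass (Sp F) F (V F) := ⟨fun g c v => Matrix.mulVec_smul g.val c v⟩
instance : SMulCommClass F (Sp F) (V F) := SMulCommClass.symm _ _ _

theorem smul_smul' (g : Sp F) (c : F) (v : V F) : g • c • v = c • g • v := smul_comm _ _ _

theorem ext_smul {g h : Sp F} (H : ∀ v : V F, g • v = h • v) : g = h := by
  apply Sp.ext
  ext i j
  have := congrFun (H (Pi.single j 1)) i
  simpa [smul_def] using this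

theorem ext_basis {g h : Sp F} (h0 : g • (e0 : V F) = h • e0) (h1 : g • (e1 : V F) = h • e1)
    (h2 : g • (e2 : V F) = h • e2) (h3 : g • (e3 : V F) = h • e3) : g = h := by
  apply ext_smul; intro v
  rw [basis_expand v]
  simp only [smul_add, smul_smul', h0, h1, h2, h3]

@[simp] theorem f_smul (g : Sp F) (x y : V F) : f (g • x) (g • y) = f x y := (form_iff _).mp g.form x y

theorem f_smul_left' (g : Sp F) (x y : V F) : f (g • x) y = f x (g⁻¹ • y) := by
  conv_lhs => rw [← smul_inv_smul g y]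
  rw [f_smul]

theorem smul_e0 (g : Sp F) : g • (e0 : V F) = ![g.val 0 0, g.val 1 0, g.val 2 0, g.val 3 0] := by
  apply vec4_ext <;> simp [smul_def, e0, Matrix.mulVec, dotProduct, Fin.sum_univ_four]
theorem smul_e1 (g : Sp F) : g • (e1 : V F) = ![g.val 0 1, g.val 1 1, g.val 2 1, g.val 3 1] := by
  apply vec4_ext <;> simp [smul_def, e1, Matrix.mulVec, dotProduct, Fin.sum_univ_four]
theorem smul_e2 (g : Sp F) : g • (e2 : V F) = ![g.val 0 2, g.val 1 2, g.val 2 2, g.val 3 2] := by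
  apply vec4_ext <;> simp [smul_def, e2, Matrix.mulVec, dotProduct, Fin.sum_univ_four]
theorem smul_e3 (g : Sp F) : g • (e3 : V F) = ![g.val 0 3, g.val 1 3, g.val 2 3, g.val 3 3] := by
  apply vec4_ext <;> simp [smul_def, e3, Matrix.mulVec, dotProduct, Fin.sum_univ_four]

theorem smul_apply (g : Sp F) (x : V F) (i : Fin 4) :
    (g • x) i = g.val i 0 * x 0 + g.val i 1 * x 1 + g.val i 2 * x 2 + g.val i 3 * x 3 := by
  simp [smul_def, Matrix.mulVec, dotProduct, Fin.sum_univ_four]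

/-- The column relations. -/
theorem col (g : Sp F) (i j : Fin 4) :
    g.val 0 i * g.val 3 j + g.val 1 i * g.val 2 j + g.val 2 i * g.val 1 j + g.val 3 i * g.val 0 j = J F i j :=
  (form_apply g.val i j).symm.trans (congrFun (congrFun g.form i) j)

/-- The row relations. -/
theorem row (g : Sp F) (i j : Fin 4) :
    g.val i 0 * g.val j 3 + g.val i 1 * g.val j 2 + g.val i 2 * g.val j 1 + g.val i 3 * g.val j 0 = J F i j :=
  (form_apply g.valᵀ i j).symm.trans (congrFun (congrFun (form_transpose g.form) i) j)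

/-- The action as a linear map. -/
def lin (g : Sp F) : V F →ₗ[F] V F := Matrix.toLin' g.val

@[simp] theorem lin_apply (g : Sp F) (v : V F) : g.lin v = g • v := rfl

end Sp

variable [CharP F 2]

theorem two_eq : (2 : F) = 0 := CharP.cast_eq_zero F 2

@[simp] theorem f_self (x : V F) : f x x = 0 := by
  unfold f; linear_combination (x 0 * x 3 + x 1 * x 2) * two_eq (F := F)

theorem add_self_vec (x : V F) : x + x = 0 := by
  funext i; exact CharTwo.add_self_eq_zero (x i)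

theorem neg_vec (x : V F) : -x = x := by funext i; exact CharTwo.neg_eq (x i)

theorem sub_vec (x y : V F) : x - y = x + y := by rw [sub_eq_add_neg, neg_vec]

theorem add_eq_zero_vec {x y : V F} : x + y = 0 ↔ x = y := by rw [← sub_vec, sub_eq_zero]

/-- The element with prescribed columns. -/
def ofBasis (x0 x1 x2 x3 : V F) (h01 : f x0 x1 = 0) (h02 : f x0 x2 = 0) (h03 : f x0 x3 = 1)
    (h12 : f x1 x2 = 1) (h13 : f x1 x3 = 0) (h23 : f x2 x3 = 0) : Sp F :=
  ⟨!![x0 0, x1 0, x2 0, x3 0; x0 1, x1 1, x2 1, x3 1; x0 2, x1 2, x2 2, x3 2; x0 3, x1 3, x2 3, x3 3], by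
    have s0 := f_self x0; have s1 := f_self x1; have s2 := f_self x2; have s3 := f_self x3
    unfold f at *
    rw [transpose4, J_def, mul4, mul4]
    apply mat4_congr <;> first | linear_combination s0 | linear_combination s1 | linear_combination s2 | linear_combination s3 | linear_combination h01 | linear_combination h02 | linear_combination h03 | linear_combination h12 | linear_combination h13 | linear_combination h23⟩

theorem exists_ofBasis {x0 x1 x2 x3 : V F} (h01 : f x0 x1 = 0) (h02 : f x0 x2 = 0) (h03 : f x0 x3 = 1)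
    (h12 : f x1 x2 = 1) (h13 : f x1 x3 = 0) (h23 : f x2 x3 = 0) :
    ∃ g : Sp F, g • (e0 : V F) = x0 ∧ g • (e1 : V F) = x1 ∧ g • (e2 : V F) = x2 ∧ g • (e3 : V F) = x3 := by
  refine ⟨ofBasis x0 x1 x2 x3 h01 h02 h03 h12 h13 h23, ?_, ?_, ?_, ?_⟩
  · rw [Sp.smul_e0]; exact (vec4_eta x0).symm
  · rw [Sp.smul_e1]; exact (vec4_eta x1).symm
  · rw [Sp.smul_e2]; exact (vec4_eta x2).symm
  · rw [Sp.smul_e3]; exact (vec4_eta x3).symm

/-- The unipotent upper triangular elements. -/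
def Um (u v c d : F) : Sp F :=
  ⟨!![1, u, c + u * v, d; 0, 1, v, c; 0, 0, 1, u; 0, 0, 0, 1], by
    rw [transpose4, J_def, mul4, mul4]; apply mat4_congr <;> grobner⟩

theorem Um_val (u v c d : F) :
    (Um u v c d).val = !![1, u, c + u * v, d; 0, 1, v, c; 0, 0, 1, u; 0, 0, 0, 1] := rfl

theorem Um_mul (u v c d u' v' c' d' : F) : Um u v c d * Um u' v' c' d' =
    Um (u + u') (v + v') (c + c' + v * u') (d + d' + u * c' + (c + u * v) * u') := by
  apply Sp.ext
  rw [Sp.val_mul, Um_val, Um_val, Um_val, mul4]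
  apply mat4_congr <;> grobner

theorem Um_zero : Um (0 : F) 0 0 0 = 1 := by
  apply Sp.ext; rw [Um_val, Sp.val_one, one4]; apply mat4_congr <;> ring

theorem Um_inj {u v c d u' v' c' d' : F} (h : Um u v c d = Um u' v' c' d') :
    u = u' ∧ v = v' ∧ c = c' ∧ d = d' := by
  have h' := congrArg Sp.val h
  exact ⟨congrFun (congrFun h' 0) 1, congrFun (congrFun h' 1) 2, congrFun (congrFun h' 1) 3,
    congrFun (congrFun h' 0) 3⟩

theorem Um_congr {u v c d u' v' c' d' : F} (h1 : u = u') (h2 : v = v') (h3 : c = c') (h4 : d = d') :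
    Um u v c d = Um u' v' c' d' := by rw [h1, h2, h3, h4]

theorem Um_eq_iff {u v c d u' v' c' d' : F} :
    Um u v c d = Um u' v' c' d' ↔ u = u' ∧ v = v' ∧ c = c' ∧ d = d' :=
  ⟨Um_inj, fun h => Um_congr h.1 h.2.1 h.2.2.1 h.2.2.2⟩

theorem Um_eq_one {u v c d : F} : Um u v c d = 1 ↔ u = 0 ∧ v = 0 ∧ c = 0 ∧ d = 0 := by
  rw [← Um_zero, Um_eq_iff]

theorem Um_inv (u v c d : F) : (Um u v c d)⁻¹ = Um u v (c + u * v) d := by
  apply inv_eq_of_mul_eq_one_right
  rw [Um_mul, Um_eq_one]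
  refine ⟨?_, ?_, ?_, ?_⟩ <;> grobner

theorem Um_sq (u v c d : F) : Um u v c d * Um u v c d = Um 0 0 (u * v) (u ^ 2 * v) := by
  rw [Um_mul]; apply Um_congr <;> grobner

theorem Um_smul (u v c d : F) (x : V F) : Um u v c d • x =
    ![x 0 + u * x 1 + (c + u * v) * x 2 + d * x 3, x 1 + v * x 2 + c * x 3, x 2 + u * x 3, x 3] := by
  rw [Sp.smul_def, Um_val, mulVec4]; apply vec4_ext <;> simp

/-- The unipotent upper triangular subgroup. -/
def U (F : Type*) [Field F] [CharP F 2] : Subgroup (Sp F) where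
  carrier := {g | ∃ u v c d, g = Um u v c d}
  mul_mem' := by
    rintro _ _ ⟨u, v, c, d, rfl⟩ ⟨u', v', c', d', rfl⟩
    exact ⟨_, _, _, _, Um_mul ..⟩
  one_mem' := ⟨0, 0, 0, 0, Um_zero.symm⟩
  inv_mem' := by
    rintro _ ⟨u, v, c, d, rfl⟩
    exact ⟨_, _, _, _, Um_inv ..⟩

theorem mem_U {g : Sp F} : g ∈ U F ↔ ∃ u v c d, g = Um u v c d := Iff.rfl

theorem Um_mem_U (u v c d : F) : Um u v c d ∈ U F := ⟨u, v, c, d, rfl⟩

/-- The diagonal elements. -/
def Dg (a b : Fˣ) : Sp F :=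
  ⟨!![(a : F), 0, 0, 0; 0, (b : F), 0, 0; 0, 0, (b : F)⁻¹, 0; 0, 0, 0, (a : F)⁻¹], by
    rw [transpose4, J_def, mul4, mul4]; apply mat4_congr <;> simp⟩

theorem Dg_val (a b : Fˣ) :
    (Dg a b).val = !![(a : F), 0, 0, 0; 0, (b : F), 0, 0; 0, 0, (b : F)⁻¹, 0; 0, 0, 0, (a : F)⁻¹] := rfl

theorem Dg_mul (a b a' b' : Fˣ) : Dg a b * Dg a' b' = Dg (a * a') (b * b') := by
  apply Sp.ext
  rw [Sp.val_mul, Dg_val, Dg_val, Dg_val, mul4]
  apply mat4_congr <;> simp [mul_comm]

theorem Dg_one : Dg (1 : Fˣ) 1 = 1 := by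
  apply Sp.ext; rw [Dg_val, Sp.val_one, one4]; apply mat4_congr <;> simp

theorem Dg_inv (a b : Fˣ) : (Dg a b)⁻¹ = Dg a⁻¹ b⁻¹ := by
  apply inv_eq_of_mul_eq_one_right; rw [Dg_mul, mul_inv_cancel, mul_inv_cancel, Dg_one]

theorem Dg_inj {a b a' b' : Fˣ} (h : Dg a b = Dg a' b') : a = a' ∧ b = b' := by
  have h' := congrArg Sp.val h
  exact ⟨Units.ext (congrFun (congrFun h' 0) 0), Units.ext (congrFun (congrFun h' 1) 1)⟩

theorem Dg_mul_Um (a b : Fˣ) (u v c d : F) :
    Dg a b * Um u v c d = Um (a * (b : F)⁻¹ * u) (b ^ 2 * v) (a * b * c) (a ^ 2 * d) * Dg a b := by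
  apply Sp.ext
  have ha := a.ne_zero; have hb := b.ne_zero
  rw [Sp.val_mul, Sp.val_mul, Dg_val, Um_val, Um_val, mul4, mul4]
  apply mat4_congr <;> field_simp <;> ring

theorem Dg_conj_Um (a b : Fˣ) (u v c d : F) :
    Dg a b * Um u v c d * (Dg a b)⁻¹ = Um (a * (b : F)⁻¹ * u) (b ^ 2 * v) (a * b * c) (a ^ 2 * d) := by
  rw [Dg_mul_Um, mul_inv_cancel_right]

theorem Dg_smul (a b : Fˣ) (x : V F) : Dg a b • x =
    ![a * x 0, b * x 1, (b : F)⁻¹ * x 2, (a : F)⁻¹ * x 3] := by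
  rw [Sp.smul_def, Dg_val, mulVec4]; apply vec4_ext <;> simp

/-- The longest Weyl element. -/
def wJ : Sp F := ⟨J F, by rw [J_transpose, J_mul_J, Matrix.one_mul]⟩

theorem wJ_val : (wJ : Sp F).val = !![0, 0, 0, 1; 0, 0, 1, 0; 0, 1, 0, 0; 1, 0, 0, 0] := rfl

theorem wJ_sq : (wJ : Sp F) * wJ = 1 := Sp.ext J_mul_J

/-- The transvection `x ↦ x + f x u • u`. -/
def tv (u : V F) : Sp F :=
  ⟨1 + vecMulVec u (J F *ᵥ u), (form_iff _).mpr fun x y => by
    have key : ∀ x : V F, (1 + vecMulVec u (J F *ᵥ u)) *ᵥ x = x + f x u • u := by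
      intro x
      rw [add_mulVec, one_mulVec, vecMulVec_mulVec, f_eq, dotProduct_comm]
      simp
    rw [key, key]
    simp only [f_add_left, f_add_right, f_smul_left, f_smul_right, f_self, f_comm u y]
    linear_combination (f x u * f y u) * two_eq (F := F)⟩

theorem tv_smul (u x : V F) : tv u • x = x + f x u • u := by
  show (1 + vecMulVec u (J F *ᵥ u)) *ᵥ x = _
  rw [add_mulVec, one_mulVec, vecMulVec_mulVec, f_eq, dotProduct_comm]
  simp

theorem conj_tv (g : Sp F) (u : V F) : g * tv u * g⁻¹ = tv (g • u) := by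
  apply Sp.ext_smul; intro x
  rw [mul_smul, mul_smul, tv_smul, tv_smul, smul_add, smul_inv_smul, Sp.smul_smul']
  congr 2
  conv_rhs => rw [← smul_inv_smul g x, Sp.f_smul]

theorem tv_sq (u : V F) : tv u * tv u = 1 := by
  apply Sp.ext_smul; intro x
  rw [mul_smul, tv_smul, tv_smul, f_add_left, f_smul_left, f_self, mul_zero, add_zero, add_assoc,
    add_self_vec, add_zero, one_smul]

theorem tv_inv (u : V F) : (tv u)⁻¹ = tv u := inv_eq_of_mul_eq_one_right (tv_sq u)

theorem tv_zero : tv (0 : V F) = 1 := by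
  apply Sp.ext_smul; intro x; simp [tv_smul]

theorem tv_ne_one {u : V F} (hu : u ≠ 0) : tv u ≠ 1 := by
  intro h
  obtain ⟨y, hy⟩ := exists_f_one hu
  have := tv_smul u y
  rw [h, one_smul, f_comm, hy, one_smul] at this
  exact hu (by simpa using this)

theorem tv_e0 (c : F) : tv (c • (e0 : V F)) = Um 0 0 0 (c ^ 2) := by
  apply Sp.ext_smul; intro x
  rw [tv_smul, Um_smul]
  apply vec4_ext <;> simp [f, e0]
  ring

theorem tv_e1 (c : F) : tv (c • (e1 : V F)) = Um 0 (c ^ 2) 0 0 := by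
  apply Sp.ext_smul; intro x
  rw [tv_smul, Um_smul]
  apply vec4_ext <;> simp [f, e1]
  ring

/-- Entrywise application of a field endomorphism. -/
def mapSp (φ : F →+* F) : Sp F →* Sp F where
  toFun g := ⟨g.val.map φ, by
    have h := congrArg (fun A : M4 F => A.map φ) g.form
    have hJ : (J F).map φ = J F := by rw [J_def, map4]; simp
    simp only [Matrix.map_mul, hJ] at h
    rw [← Matrix.transpose_map]; exact h⟩
  map_one' := Sp.ext (Matrix.map_one _ (map_zero _) (map_one _))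
  map_mul' _ _ := Sp.ext Matrix.map_mul

theorem mapSp_val (φ : F →+* F) (g : Sp F) : (mapSp φ g).val = g.val.map φ := rfl

theorem star4_eq (A : M4 F) : star4 A =
    !![A 0 0 * A 1 1 - A 1 0 * A 0 1, A 0 0 * A 1 2 - A 1 0 * A 0 2, A 0 1 * A 1 3 - A 1 1 * A 0 3,
        A 0 2 * A 1 3 - A 1 2 * A 0 3;
      A 0 0 * A 2 1 - A 2 0 * A 0 1, A 0 0 * A 2 2 - A 2 0 * A 0 2, A 0 1 * A 2 3 - A 2 1 * A 0 3,
        A 0 2 * A 2 3 - A 2 2 * A 0 3;
      A 1 0 * A 3 1 - A 3 0 * A 1 1, A 1 0 * A 3 2 - A 3 0 * A 1 2, A 1 1 * A 3 3 - A 3 1 * A 1 3,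
        A 1 2 * A 3 3 - A 3 2 * A 1 3;
      A 2 0 * A 3 1 - A 3 0 * A 2 1, A 2 0 * A 3 2 - A 3 0 * A 2 2, A 2 1 * A 3 3 - A 3 1 * A 2 3,
        A 2 2 * A 3 3 - A 3 2 * A 2 3] := by
  ext i j
  fin_cases i <;> fin_cases j <;> rfl

theorem star4_of (a00 a01 a02 a03 a10 a11 a12 a13 a20 a21 a22 a23 a30 a31 a32 a33 : F) :
    star4 !![a00, a01, a02, a03; a10, a11, a12, a13; a20, a21, a22, a23; a30, a31, a32, a33] =
    !![a00 * a11 - a10 * a01, a00 * a12 - a10 * a02, a01 * a13 - a11 * a03, a02 * a13 - a12 * a03;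
      a00 * a21 - a20 * a01, a00 * a22 - a20 * a02, a01 * a23 - a21 * a03, a02 * a23 - a22 * a03;
      a10 * a31 - a30 * a11, a10 * a32 - a30 * a12, a11 * a33 - a31 * a13, a12 * a33 - a32 * a13;
      a20 * a31 - a30 * a21, a20 * a32 - a30 * a22, a21 * a33 - a31 * a23, a22 * a33 - a32 * a23] :=
  star4_eq _

theorem binet (a0 a1 a2 a3 c0 c1 c2 c3 b0 b1 b2 b3 d0 d1 d2 d3 : F)
    (h1 : a0 * c3 + a1 * c2 + a2 * c1 + a3 * c0 = 0) (h2 : b0 * d3 + b1 * d2 + b2 * d1 + b3 * d0 = 0) :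
    (a0 * b0 + a1 * b1 + a2 * b2 + a3 * b3) * (c0 * d0 + c1 * d1 + c2 * d2 + c3 * d3) -
      (c0 * b0 + c1 * b1 + c2 * b2 + c3 * b3) * (a0 * d0 + a1 * d1 + a2 * d2 + a3 * d3) =
    (a0 * c1 - c0 * a1) * (b0 * d1 - b1 * d0) + (a0 * c2 - c0 * a2) * (b0 * d2 - b2 * d0) +
      (a1 * c3 - c1 * a3) * (b1 * d3 - b3 * d1) + (a2 * c3 - c2 * a3) * (b2 * d3 - b3 * d2) := by
  have h : (2 : F) = 0 := CharP.cast_eq_zero F 2
  linear_combination (a0 * c3 - c0 * a3) * h2 + (b1 * d2 - b2 * d1) * h1 +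
    (-(a0 * c3 - c0 * a3) * (b1 * d2) - (a0 * c3 - c0 * a3) * (b3 * d0) -
      (a2 * c1 + a3 * c0) * (b1 * d2 - b2 * d1)) * h

theorem star4_mul (A B : Sp F) : star4 (A.val * B.val) = star4 A.val * star4 B.val := by
  have a := A.row
  have b := B.col
  rw [star4_eq A.val, star4_eq B.val, mul4, star4_eq]
  simp only [Matrix.mul_apply, Fin.sum_univ_four]
  apply mat4_congr <;> apply binet <;> first | exact a 0 1 | exact a 0 2 | exact a 1 3 | exact a 2 3 | exact b 0 1 | exact b 0 2 | exact b 1 3 | exact b 2 3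

theorem star4_one : star4 (1 : M4 F) = 1 := by
  rw [one4, star4_of]; apply mat4_congr <;> ring

theorem star4_inv (A : Sp F) : star4 (A⁻¹).val = J F * (star4 A.val)ᵀ * J F := by
  rw [Sp.val_inv_eq, star4_of, star4_eq A.val, transpose4, J_def, mul4, mul4]
  apply mat4_congr <;> grobner

/-- The exceptional isogeny. -/
def tau : Sp F →* Sp F where
  toFun g := ⟨star4 g.val, by
    have h := star4_mul g⁻¹ g
    rw [Sp.inv_mul_val, star4_one, star4_inv] at h
    calc (star4 g.val)ᵀ * J F * star4 g.val = J F * (J F * (star4 g.val)ᵀ * J F * star4 g.val) := by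
          simp only [← Matrix.mul_assoc, J_mul_J, Matrix.one_mul]
      _ = _ := by rw [← h, Matrix.mul_one]⟩
  map_one' := Sp.ext star4_one
  map_mul' A B := Sp.ext (star4_mul A B)

theorem tau_val (g : Sp F) : (tau g).val = star4 g.val := rfl

theorem tau_Um (u v c d : F) : tau (Um u v c d) =
    Um v (u ^ 2) (d + u * c + u ^ 2 * v) (c ^ 2 + u * v * c + v * d) := by
  apply Sp.ext
  rw [tau_val, Um_val, Um_val, star4_of]
  apply mat4_congr <;> grobner

theorem tau_Dg (a b : Fˣ) : tau (Dg a b) = Dg (a * b) (a * b⁻¹) := by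
  apply Sp.ext
  have ha := a.ne_zero; have hb := b.ne_zero
  rw [tau_val, Dg_val, Dg_val, star4_of]
  apply mat4_congr <;> simp [mul_comm]

theorem tau_wJ : tau (wJ : Sp F) = wJ := by
  apply Sp.ext
  rw [tau_val, wJ_val, star4_of]
  apply mat4_congr <;> grobner

theorem tau_tau (g : Sp F) : tau (tau g) = mapSp (frobenius F 2) g := by
  apply Sp.ext
  have h01 : g.val 0 0 * g.val 3 1 + g.val 1 0 * g.val 2 1 + g.val 2 0 * g.val 1 1 + g.val 3 0 * g.val 0 1 = 0 :=
    g.col 0 1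
  have h02 : g.val 0 0 * g.val 3 2 + g.val 1 0 * g.val 2 2 + g.val 2 0 * g.val 1 2 + g.val 3 0 * g.val 0 2 = 0 :=
    g.col 0 2
  have h03 : g.val 0 0 * g.val 3 3 + g.val 1 0 * g.val 2 3 + g.val 2 0 * g.val 1 3 + g.val 3 0 * g.val 0 3 = 1 :=
    g.col 0 3
  have h12 : g.val 0 1 * g.val 3 2 + g.val 1 1 * g.val 2 2 + g.val 2 1 * g.val 1 2 + g.val 3 1 * g.val 0 2 = 1 :=
    g.col 1 2
  have h13 : g.val 0 1 * g.val 3 3 + g.val 1 1 * g.val 2 3 + g.val 2 1 * g.val 1 3 + g.val 3 1 * g.val 0 3 = 0 :=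
    g.col 1 3
  have h23 : g.val 0 2 * g.val 3 3 + g.val 1 2 * g.val 2 3 + g.val 2 2 * g.val 1 3 + g.val 3 2 * g.val 0 3 = 0 :=
    g.col 2 3
  rw [tau_val, tau_val, star4_eq g.val, star4_of, mapSp_val]
  conv_rhs => rw [eta4 g.val, map4]
  simp only [frobenius_def]
  apply mat4_congr
  iterate 4
    · clear h03 h13 h23; grobner
    · clear h02 h12 h23; grobner
    · clear h01 h12 h13; grobner
    · clear h01 h02 h03; grobner

theorem mapSp_injective (φ : F →+* F) : Function.Injective (mapSp φ : Sp F → Sp F) := by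
  intro g h e
  apply Sp.ext
  ext i j
  exact φ.injective (congrFun (congrFun (congrArg Sp.val e) i) j)

theorem tau_injective : Function.Injective (tau : Sp F → Sp F) := by
  intro g h e
  apply mapSp_injective (frobenius F 2)
  rw [← tau_tau, ← tau_tau, e]

theorem tau_surjective [Finite F] : Function.Surjective (tau : Sp F → Sp F) :=
  Finite.surjective_of_injective tau_injective

/-- A quadratic form polarising to `f`. -/
structure IsQ (Q : V F → F) : Prop where
  smul : ∀ (c : F) (v : V F), Q (c • v) = c ^ 2 * Q v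
  add : ∀ x y, Q (x + y) = Q x + Q y + f x y

/-- The standing hypotheses on a subgroup. -/
structure Hyp (P : Subgroup (Sp F)) : Prop where
  simple : IsSimpleGroup P
  nonab : ∃ x ∈ P, ∃ y ∈ P, x * y ≠ y * x
  irr : ∀ W : Submodule F (V F), (∀ g ∈ P, ∀ w ∈ W, g • w ∈ W) → W = ⊥ ∨ W = ⊤
  nosub : ∀ (F₀ : Subfield F) (B : Sp F), (∀ g ∈ P, ∀ i j, (B * g * B⁻¹).val i j ∈ F₀) → F₀ = ⊤
  noQ : ∀ Q : V F → F, IsQ Q → ¬ ∀ g ∈ P, ∀ v, Q (g • v) = Q v
  proper : P ≠ ⊤

/-- The conjugate `B P B⁻¹`. -/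
def cj (B : Sp F) (P : Subgroup (Sp F)) : Subgroup (Sp F) := P.map (MulAut.conj B).toMonoidHom

theorem mem_cj {B : Sp F} {P : Subgroup (Sp F)} {g : Sp F} : g ∈ cj B P ↔ B⁻¹ * g * B ∈ P := by
  constructor
  · rintro ⟨x, hx, rfl⟩
    simpa [mul_assoc] using hx
  · intro h
    exact ⟨_, h, by simp [mul_assoc]⟩

theorem conj_mem_cj {B : Sp F} {P : Subgroup (Sp F)} {g : Sp F} (hg : g ∈ P) : B * g * B⁻¹ ∈ cj B P := by
  rw [mem_cj]; simpa [mul_assoc] using hg

theorem cj_cj (B C : Sp F) (P : Subgroup (Sp F)) : cj B (cj C P) = cj (B * C) P := by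
  ext g; simp [mem_cj, mul_assoc]

theorem cj_one (P : Subgroup (Sp F)) : cj 1 P = P := by ext g; simp [mem_cj]

theorem card_cj (B : Sp F) (P : Subgroup (Sp F)) : Nat.card (cj B P) = Nat.card P :=
  Subgroup.card_map_of_injective (MulAut.conj B).injective

theorem isSimpleGroup_map {G H : Type*} [Group G] [Group H] {P : Subgroup G} (h : IsSimpleGroup P) (φ : G →* H)
    (hφ : Function.Injective φ) : IsSimpleGroup (P.map φ) :=
  (Subgroup.equivMapOfInjective P φ hφ).symm.isSimpleGroup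

theorem Hyp.cj {P : Subgroup (Sp F)} (h : Hyp P) (B : Sp F) : Hyp (cj B P) where
  simple := isSimpleGroup_map h.simple _ (MulAut.conj B).injective
  nonab := by
    obtain ⟨x, hx, y, hy, hxy⟩ := h.nonab
    refine ⟨_, conj_mem_cj hx, _, conj_mem_cj hy, fun e => hxy ?_⟩
    apply (MulAut.conj B).injective
    simpa only [map_mul, MulAut.conj_apply] using e
  irr := by
    intro W hW
    have hB : Function.Injective (B⁻¹).lin := fun x y e => by simpa using e
    rcases h.irr (W.map (B⁻¹).lin) (by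
      rintro g hg _ ⟨w, hw, rfl⟩
      refine ⟨_, hW _ (conj_mem_cj hg) w hw, ?_⟩
      simp [mul_smul]) with e | e
    · left
      rw [eq_bot_iff]; intro w hw
      have : (B⁻¹).lin w ∈ W.map (B⁻¹).lin := ⟨w, hw, rfl⟩
      rw [e, Submodule.mem_bot] at this
      exact hB (by simpa using this)
    · right
      rw [eq_top_iff]; intro v _
      obtain ⟨w, hw, e'⟩ : (B⁻¹).lin v ∈ W.map (B⁻¹).lin := e ▸ Submodule.mem_top
      exact hB e' ▸ hw
  nosub := by
    intro F₀ C hC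
    refine h.nosub F₀ (C * B) fun g hg i j => ?_
    have := hC _ (conj_mem_cj hg) i j
    simpa only [mul_assoc, _root_.mul_inv_rev] using this
  noQ := by
    intro Q hQ hh
    refine h.noQ (fun v => Q (B • v)) ⟨fun c v => ?_, fun x y => ?_⟩ fun g hg v => ?_
    · rw [Sp.smul_smul', hQ.smul]
    · rw [smul_add, hQ.add, Sp.f_smul]
    · have := hh _ (conj_mem_cj hg) (B • v)
      simpa only [mul_smul, inv_smul_smul] using this
  proper := by
    intro e
    apply h.proper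
    rw [eq_top_iff]; intro g _
    have : B * g * B⁻¹ ∈ Sp4E.cj B P := e ▸ Subgroup.mem_top _
    simpa [mem_cj, mul_assoc] using this

open scoped commutatorElement in
theorem Hyp.perfect {P : Subgroup (Sp F)} (h : Hyp P) : commutator P = ⊤ := by
  have := h.simple
  rcases (inferInstance : (commutator P).Normal).eq_bot_or_eq_top with e | e
  · obtain ⟨x, hx, y, hy, hxy⟩ := h.nonab
    have : ⁅(⟨x, hx⟩ : P), (⟨y, hy⟩ : P)⁆ ∈ commutator P :=
      Subgroup.commutator_mem_commutator (Subgroup.mem_top _) (Subgroup.mem_top _)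
    rw [e, Subgroup.mem_bot, commutatorElement_eq_one_iff_mul_comm] at this
    exact absurd (congrArg Subtype.val this) hxy
  · exact e

end Cfsg.Agent.Sp4E
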