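import Cfsg.Agent.Sp4E.Inv

/-!
The hypotheses pass to the image under the exceptional isogeny.
-/

set_option autoImplicit false
set_option linter.unusedSectionVars false
set_option linter.unusedSimpArgs false
set_option linter.style.haveILetI false

namespace Cfsg.Agent.Sp4E
open Matrix Cfsg.Agent.H9 Cfsg.Lie Grp

variable {F : Type*} [Field F] [CharP F 2]

/-- The standard hyperbolic quadratic form. -/
def Q0 (x : V F) : F := x 0 * x 3 + x 1 * x 2

theorem isQ_Q0 : IsQ (Q0 : V F → F) :=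
  ⟨fun c v => by simp only [Q0, Pi.smul_apply, smul_eq_mul]; ring,
    fun x y => by simp only [Q0, f, Pi.add_apply]; ring⟩

theorem IsQ.expand {Q : V F → F} (h : IsQ Q) (x : V F) :
    Q x = x 0 ^ 2 * Q e0 + x 1 ^ 2 * Q e1 + x 2 ^ 2 * Q e2 + x 3 ^ 2 * Q e3 + Q0 x := by
  conv_lhs => rw [basis_expand x]
  simp only [h.add, h.smul, f_add_left, f_smul_left, f_smul_right, f_e1, f_e2, f_e3, Q0]
  simp [e0, e1, e2]; ring

theorem IsQ.comp {Q : V F → F} (h : IsQ Q) (g : Sp F) : IsQ fun x => Q (g • x) :=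
  ⟨fun c v => by rw [Sp.smul_smul', h.smul], fun x y => by rw [smul_add, h.add, Sp.f_smul]⟩

theorem IsQ.ext {Q Q' : V F → F} (h : IsQ Q) (h' : IsQ Q') (h0 : Q e0 = Q' e0) (h1 : Q e1 = Q' e1)
    (h2 : Q e2 = Q' e2) (h3 : Q e3 = Q' e3) (x : V F) : Q x = Q' x := by
  rw [h.expand, h'.expand, h0, h1, h2, h3]

theorem IsQ.zero {Q : V F → F} (h : IsQ Q) : Q 0 = 0 := by
  have := h.smul 0 0; simpa using this

theorem IsQ.exists_vec [Finite F] {Q : V F → F} (h : IsQ Q) : ∃ y, ∀ x, Q x = Q0 x + f x y ^ 2 := by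
  obtain ⟨r0, h0⟩ := exists_sqrt (Q e0)
  obtain ⟨r1, h1⟩ := exists_sqrt (Q e1)
  obtain ⟨r2, h2⟩ := exists_sqrt (Q e2)
  obtain ⟨r3, h3⟩ := exists_sqrt (Q e3)
  refine ⟨![r3, r2, r1, r0], fun x => ?_⟩
  rw [h.expand, ← h0, ← h1, ← h2, ← h3]
  simp [f]; grobner

theorem Hyp.not_point {P : Subgroup (Sp F)} (h : Hyp P) :
    ¬ ∀ g ∈ P, g.val 1 0 = 0 ∧ g.val 2 0 = 0 ∧ g.val 3 0 = 0 := by
  intro H
  rcases h.irr (Submodule.span F {e0}) (by
    intro g hg w hw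
    obtain ⟨c, rfl⟩ := Submodule.mem_span_singleton.mp hw
    obtain ⟨h1, h2, h3⟩ := H g hg
    refine Submodule.mem_span_singleton.mpr ⟨c * g.val 0 0, ?_⟩
    rw [Sp.smul_smul', Sp.smul_e0, h1, h2, h3]
    apply vec4_ext <;> simp [e0]) with e | e
  · exact e0_ne (Submodule.span_singleton_eq_bot.mp e)
  · obtain ⟨c, hc⟩ := Submodule.mem_span_singleton.mp (e ▸ Submodule.mem_top : (e1 : V F) ∈ Submodule.span F {e0})
    simpa [e0, e1] using congrFun hc 1

theorem Hyp.not_line {P : Subgroup (Sp F)} (h : Hyp P) :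
    ¬ ∀ g ∈ P, g.val 2 0 = 0 ∧ g.val 3 0 = 0 ∧ g.val 2 1 = 0 ∧ g.val 3 1 = 0 := by
  intro H
  let W : Submodule F (V F) :=
    { carrier := {x | x 2 = 0 ∧ x 3 = 0}
      add_mem' := fun {a b} ha hb => by simp [ha.1, ha.2, hb.1, hb.2]
      zero_mem' := ⟨rfl, rfl⟩
      smul_mem' := fun c x hx => by simp [hx.1, hx.2] }
  rcases h.irr W (by
    intro g hg w hw
    obtain ⟨h1, h2, h3, h4⟩ := H g hg
    exact ⟨by rw [Sp.smul_apply, h1, h3, hw.1, hw.2]; ring, by rw [Sp.smul_apply, h2, h4, hw.1, hw.2]; ring⟩)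
    with e | e
  · have : (e0 : V F) ∈ W := ⟨rfl, rfl⟩
    rw [e] at this; exact e0_ne this
  · have : (e2 : V F) ∈ W := e ▸ Submodule.mem_top
    simpa [e2] using this.1

theorem Hyp.not_perp {P : Subgroup (Sp F)} (h : Hyp P) : ¬ ∀ g ∈ P, g.val 3 0 = 0 := by
  intro H
  let W : Submodule F (V F) :=
    { carrier := {x | ∀ g ∈ P, f (g • x) e0 = 0}
      add_mem' := fun {a b} ha hb g hg => by rw [smul_add, f_add_left, ha g hg, hb g hg, add_zero]
      zero_mem' := fun g _ => by simp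
      smul_mem' := fun c x hx g hg => by rw [Sp.smul_smul', f_smul_left, hx g hg, mul_zero] }
  rcases h.irr W (by
    intro g hg w hw k hk
    rw [← mul_smul]; exact hw _ (P.mul_mem hk hg)) with e | e
  · have : (e0 : V F) ∈ W := fun g hg => by rw [f_e0, Sp.smul_e0]; exact H g hg
    rw [e] at this; exact e0_ne this
  · have : (e3 : V F) ∈ W := e ▸ Submodule.mem_top
    simpa [f_e0, e3] using this 1 P.one_mem

theorem line_of_tau {g : Sp F} (h1 : (tau g).val 1 0 = 0) (h2 : (tau g).val 2 0 = 0) (h3 : (tau g).val 3 0 = 0) :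
    g.val 2 0 = 0 ∧ g.val 3 0 = 0 ∧ g.val 2 1 = 0 ∧ g.val 3 1 = 0 := by
  have h0 : (tau g).val 0 0 * (tau g).val 3 3 + (tau g).val 1 0 * (tau g).val 2 3 +
    (tau g).val 2 0 * (tau g).val 1 3 + (tau g).val 3 0 * (tau g).val 0 3 = 1 := (tau g).col 0 3
  rw [h1, h2, h3] at h0
  have h00 : (tau g).val 0 0 ≠ 0 := by rintro e; rw [e] at h0; simp at h0
  have h01 : g.val 0 0 * g.val 3 1 + g.val 1 0 * g.val 2 1 + g.val 2 0 * g.val 1 1 + g.val 3 0 * g.val 0 1 = 0 :=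
    g.col 0 1
  replace h1 : g.val 0 0 * g.val 2 1 - g.val 2 0 * g.val 0 1 = 0 := h1
  replace h2 : g.val 1 0 * g.val 3 1 - g.val 3 0 * g.val 1 1 = 0 := h2
  replace h3 : g.val 2 0 * g.val 3 1 - g.val 3 0 * g.val 2 1 = 0 := h3
  replace h00 : g.val 0 0 * g.val 1 1 - g.val 1 0 * g.val 0 1 ≠ 0 := h00
  have p03 : g.val 0 0 * g.val 3 1 - g.val 3 0 * g.val 0 1 = 0 := by
    have : (g.val 0 0 * g.val 3 1 - g.val 3 0 * g.val 0 1) ^ 2 = 0 := by grobner
    exact pow_eq_zero_iff two_ne_zero |>.mp this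
  refine ⟨?_, ?_, ?_, ?_⟩ <;> apply mul_left_cancel₀ h00 <;> grobner

theorem tau_of_line {g : Sp F} (h1 : g.val 2 0 = 0) (h2 : g.val 3 0 = 0) (h3 : g.val 2 1 = 0) (h4 : g.val 3 1 = 0) :
    (tau g).val 1 0 = 0 ∧ (tau g).val 2 0 = 0 ∧ (tau g).val 3 0 = 0 := by
  refine ⟨?_, ?_, ?_⟩
  · show g.val 0 0 * g.val 2 1 - g.val 2 0 * g.val 0 1 = 0
    rw [h1, h3]; ring
  · show g.val 1 0 * g.val 3 1 - g.val 3 0 * g.val 1 1 = 0
    rw [h2, h4]; ring
  · show g.val 2 0 * g.val 3 1 - g.val 3 0 * g.val 2 1 = 0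
    rw [h1, h2]; ring

theorem tau_tau_val (g : Sp F) (i j : Fin 4) : (tau (tau g)).val i j = g.val i j ^ 2 := by
  rw [tau_tau]; rfl

theorem point_of_tau {g : Sp F} (h1 : (tau g).val 2 0 = 0) (h2 : (tau g).val 3 0 = 0) (h3 : (tau g).val 2 1 = 0)
    (h4 : (tau g).val 3 1 = 0) : g.val 1 0 = 0 ∧ g.val 2 0 = 0 ∧ g.val 3 0 = 0 := by
  have := tau_of_line h1 h2 h3 h4
  simpa only [tau_tau_val, pow_eq_zero_iff two_ne_zero] using this

theorem Q0_of_tau {g : Sp F} (h10 : (tau g).val 1 0 = 0) (h20 : (tau g).val 2 0 = 0) (h13 : (tau g).val 1 3 = 0)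
    (h23 : (tau g).val 2 3 = 0) (h01 : (tau g).val 0 1 = 0) (h31 : (tau g).val 3 1 = 0) (h02 : (tau g).val 0 2 = 0)
    (h32 : (tau g).val 3 2 = 0) (v : V F) : Q0 (g • v) = Q0 v := by
  have key : ∀ i, Q0 (fun k => g.val k i) ^ 2 = Q0 (fun k => (tau (tau g)).val k i) := by
    intro i; simp only [Q0, tau_tau_val]; grobner
  generalize tau g = h at *
  have k : ∀ i, Q0 (fun k => g.val k i) = 0 := by
    intro i
    apply (pow_eq_zero_iff two_ne_zero).mp
    rw [key, tau_val, star4_eq]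
    fin_cases i <;> simp [Q0, h10, h20, h13, h23, h01, h31, h02, h32] <;> grobner
  refine (isQ_Q0.comp g).ext isQ_Q0 ?_ ?_ ?_ ?_ v
  · rw [Sp.smul_e0]; exact (k 0).trans (by simp [Q0, e0])
  · rw [Sp.smul_e1]; exact (k 1).trans (by simp [Q0, e1])
  · rw [Sp.smul_e2]; exact (k 2).trans (by simp [Q0, e2])
  · rw [Sp.smul_e3]; exact (k 3).trans (by simp [Q0, e3])

theorem point_of_smul {g : Sp F} {c : F} (h : g • (e0 : V F) = c • e0) :
    g.val 1 0 = 0 ∧ g.val 2 0 = 0 ∧ g.val 3 0 = 0 := by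
  rw [Sp.smul_e0] at h
  exact ⟨by simpa [e0] using congrFun h 1, by simpa [e0] using congrFun h 2, by simpa [e0] using congrFun h 3⟩

theorem smul_of_point {g : Sp F} (h : g.val 1 0 = 0 ∧ g.val 2 0 = 0 ∧ g.val 3 0 = 0) :
    g • (e0 : V F) = g.val 0 0 • e0 := by
  rw [Sp.smul_e0, h.1, h.2.1, h.2.2]; apply vec4_ext <;> simp [e0]

/-- An invariant subspace gives an invariant point, isotropic line or hyperbolic line. -/
theorem invariant_cases (W : Submodule F (V F)) (h0 : W ≠ ⊥) (h1 : W ≠ ⊤) : ∃ B : Sp F,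
    (∀ g : Sp F, (∀ w ∈ W, (B * g * B⁻¹) • w ∈ W) → g.val 1 0 = 0 ∧ g.val 2 0 = 0 ∧ g.val 3 0 = 0) ∨
    (∀ g : Sp F, (∀ w ∈ W, (B * g * B⁻¹) • w ∈ W) →
      g.val 2 0 = 0 ∧ g.val 3 0 = 0 ∧ g.val 2 1 = 0 ∧ g.val 3 1 = 0) ∨
    (∀ g : Sp F, (∀ w ∈ W, (B * g * B⁻¹) • w ∈ W) → g.val 1 0 = 0 ∧ g.val 2 0 = 0 ∧ g.val 1 3 = 0 ∧ g.val 2 3 = 0) ∨
    (∀ g : Sp F, (∀ w ∈ W, (B * g * B⁻¹) • w ∈ W) → g.val 2 0 = 0 ∧ g.val 2 1 = 0 ∧ g.val 2 3 = 0) := by
  have key : ∀ (B g : Sp F) (x : V F), (∀ w ∈ W, (B * g * B⁻¹) • w ∈ W) → B • x ∈ W → B • g • x ∈ W := by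
    intro B g x H hx
    simpa only [mul_smul, inv_smul_smul] using H _ hx
  by_cases hti : ∀ x ∈ W, ∀ y ∈ W, f x y = 0
  · obtain ⟨x, hx, hx0⟩ := (Submodule.ne_bot_iff W).mp h0
    by_cases hp : ∀ y ∈ W, ∃ c : F, y = c • x
    · obtain ⟨B, hB⟩ := witt_0 hx0
      refine ⟨B, Or.inl fun g H => ?_⟩
      obtain ⟨c, hc⟩ := hp _ (key B g e0 H (hB ▸ hx))
      rw [← hB, ← Sp.smul_smul', smul_left_cancel_iff] at hc
      exact point_of_smul hc
    · push Not at hp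
      obtain ⟨y, hy, hc⟩ := hp
      obtain ⟨B, hB0, hB1⟩ := witt_01 hx0 hc (hti y hy x hx)
      refine ⟨B, Or.inr (Or.inl fun g H => ?_)⟩
      have a := hti _ (key B g e0 H (hB0 ▸ hy)) _ hx
      have b := hti _ (key B g e0 H (hB0 ▸ hy)) _ hy
      have c := hti _ (key B g e1 H (hB1 ▸ hx)) _ hx
      have d := hti _ (key B g e1 H (hB1 ▸ hx)) _ hy
      rw [← hB1, Sp.f_smul, f_e1] at a c
      rw [← hB0, Sp.f_smul, f_e0] at b d
      rw [Sp.smul_e0] at a b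
      rw [Sp.smul_e1] at c d
      exact ⟨a, b, c, d⟩
  · push Not at hti
    obtain ⟨x, hx, y', hy', hxy⟩ := hti
    have hy : (f x y')⁻¹ • y' ∈ W := W.smul_mem _ hy'
    have hxy' : f x ((f x y')⁻¹ • y') = 1 := by rw [f_smul_right, inv_mul_cancel₀ hxy]
    generalize (f x y')⁻¹ • y' = y at hy hxy'
    have proj : ∀ (B : Sp F), B • (e0 : V F) = x → B • (e3 : V F) = y → ∀ w : V F, B • w ∈ W →
        w 1 • B • (e1 : V F) + w 2 • B • (e2 : V F) ∈ W := by
      intro B h0 h3 w hw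
      have : w 1 • B • (e1 : V F) + w 2 • B • (e2 : V F) = B • w - w 0 • x - w 3 • y := by
        conv_rhs => rw [basis_expand w]
        simp only [smul_add, Sp.smul_smul', h0, h3]
        simp [e0, e1, e2, e3]
        abel
      rw [this]
      exact W.sub_mem (W.sub_mem hw (W.smul_mem _ hx)) (W.smul_mem _ hy)
    by_cases hp : ∀ w ∈ W, f x w = 0 → f w y = 0 → w = 0
    · obtain ⟨B, hB0, hB3⟩ := witt_03 hxy'
      refine ⟨B, Or.inr (Or.inr (Or.inl fun g H => ?_))⟩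
      have k : ∀ w : V F, B • w ∈ W → w 1 = 0 ∧ w 2 = 0 := by
        intro w hw
        have := hp _ (proj B hB0 hB3 w hw)
          (by rw [← hB0]; simp only [f_add_right, f_smul_right, Sp.f_smul, f_e1, f_e2]; simp [e0])
          (by rw [← hB3]; simp only [f_add_left, f_smul_left, Sp.f_smul, f_e3]; simp [e1, e2])
        rw [← Sp.smul_smul', ← Sp.smul_smul', ← smul_add, smul_eq_zero_iff_eq] at this
        exact ⟨by simpa [e1, e2] using congrFun this 1, by simpa [e1, e2] using congrFun this 2⟩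
      have a := k _ (key B g e0 H (hB0 ▸ hx))
      have b := k _ (key B g e3 H (hB3 ▸ hy))
      rw [Sp.smul_e0] at a
      rw [Sp.smul_e3] at b
      exact ⟨a.1, a.2, b.1, b.2⟩
    · push Not at hp
      obtain ⟨w, hw, hw0, hw3, hw1⟩ := hp
      obtain ⟨B, hB0, hB1, hB3⟩ := witt_03_1 hxy' hw0 hw3 hw1
      refine ⟨B, Or.inr (Or.inr (Or.inr fun g H => ?_))⟩
      have k : ∀ v : V F, B • v ∈ W → v 2 = 0 := by
        intro v hv
        by_contra hv2
        apply h1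
        have h2 : B • (e2 : V F) ∈ W := by
          have := W.sub_mem (proj B hB0 hB3 v hv) (W.smul_mem (v 1) hw)
          rw [hB1, add_sub_cancel_left] at this
          exact (W.smul_mem_iff hv2).mp this
        rw [eq_top_iff]; intro z _
        rw [← smul_inv_smul B z, basis_expand (B⁻¹ • z)]
        simp only [smul_add, Sp.smul_smul', hB0, hB1, hB3]
        exact W.add_mem (W.add_mem (W.add_mem (W.smul_mem _ hx) (W.smul_mem _ hw)) (W.smul_mem _ h2))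
          (W.smul_mem _ hy)
      have a := k _ (key B g e0 H (hB0 ▸ hx))
      have b := k _ (key B g e1 H (hB1 ▸ hw))
      have c := k _ (key B g e3 H (hB3 ▸ hy))
      rw [Sp.smul_e0] at a
      rw [Sp.smul_e1] at b
      rw [Sp.smul_e3] at c
      exact ⟨a, b, c⟩

theorem Hyp.tau_irr [Finite F] {P : Subgroup (Sp F)} (h : Hyp P) (W : Submodule F (V F))
    (hW : ∀ g ∈ P.map tau, ∀ w ∈ W, g • w ∈ W) : W = ⊥ ∨ W = ⊤ := by
  by_contra hh
  push Not at hh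
  obtain ⟨B, hB⟩ := invariant_cases W hh.1 hh.2
  obtain ⟨C, rfl⟩ := tau_surjective B
  have h' := h.cj C⁻¹
  have key : ∀ g ∈ Sp4E.cj C⁻¹ P, ∀ w ∈ W, (tau C * tau g * (tau C)⁻¹) • w ∈ W := by
    intro g hg
    apply hW
    rw [mem_cj, inv_inv] at hg
    exact ⟨_, hg, by simp⟩
  rcases hB with H | H | H | H
  · refine h'.not_line fun g hg => ?_
    obtain ⟨a, b, c⟩ := H _ (key g hg)
    exact line_of_tau a b c
  · refine h'.not_point fun g hg => ?_
    obtain ⟨a, b, c, d⟩ := H _ (key g hg)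
    exact point_of_tau a b c d
  · refine h'.noQ Q0 isQ_Q0 fun g hg v => ?_
    obtain ⟨a, b, c, d⟩ := H _ (key g hg)
    obtain ⟨a', b', c', d'⟩ := H _ (key g⁻¹ (Subgroup.inv_mem _ hg))
    rw [map_inv, Sp.val_inv_eq] at a' b' c' d'
    exact Q0_of_tau a b c d d' b' c' a' v
  · -- the point `e1` is fixed
    have hw : ∃ w : Sp F, w.val = !![0, 1, 0, 0; 1, 0, 0, 0; 0, 0, 0, 1; 0, 0, 1, 0] :=
      ⟨⟨_, by rw [transpose4, J_def, mul4, mul4]; apply mat4_congr <;> ring⟩, rfl⟩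
    obtain ⟨w, hw⟩ := hw
    obtain ⟨w', rfl⟩ := tau_surjective w
    refine (h'.cj w').not_line fun g hg => ?_
    obtain ⟨k, hk, rfl⟩ := hg
    obtain ⟨a, b, c⟩ := H _ (key k⁻¹ (Subgroup.inv_mem _ hk))
    rw [map_inv, Sp.val_inv_eq] at a b c
    replace a : (tau k).val 3 1 = 0 := a
    replace b : (tau k).val 2 1 = 0 := b
    replace c : (tau k).val 0 1 = 0 := c
    have e : (tau (w' * k * w'⁻¹)).val = (tau w').val * (tau k).val * (tau w')⁻¹.val := by simp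
    rw [Sp.val_inv_eq, hw, eta4 (tau k).val, mul4] at e
    simp only [of_apply, cons_val', cons_val, cons_val_fin_one, cons_val_one, cons_val_zero] at e
    rw [mul4] at e
    apply line_of_tau <;> change (tau (w' * k * w'⁻¹)).val _ _ = _ <;> rw [e] <;> simp [a, b, c]

theorem mem_of_sq_mem [Finite F] (F₀ : Subfield F) {x : F} (h : x ^ 2 ∈ F₀) : x ∈ F₀ := by
  obtain ⟨y, hy⟩ := exists_sqrt (F := F₀) ⟨_, h⟩
  have : (y : F) ^ 2 = x ^ 2 := congrArg Subtype.val hy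
  exact CharTwo.sq_injective this ▸ y.2

theorem tau_mem {F₀ : Subfield F} {g : Sp F} (h : ∀ i j, g.val i j ∈ F₀) (i j : Fin 4) : (tau g).val i j ∈ F₀ :=
  F₀.sub_mem (F₀.mul_mem (h _ _) (h _ _)) (F₀.mul_mem (h _ _) (h _ _))

theorem tau_nosub [Finite F] {P : Subgroup (Sp F)}
    (h : ∀ (F₀ : Subfield F) (B : Sp F), (∀ g ∈ P, ∀ i j, (B * g * B⁻¹).val i j ∈ F₀) → F₀ = ⊤)
    (F₀ : Subfield F) (B : Sp F)
    (H : ∀ g ∈ P.map tau, ∀ i j, (B * g * B⁻¹).val i j ∈ F₀) : F₀ = ⊤ := by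
  obtain ⟨C, rfl⟩ := tau_surjective B
  refine h F₀ C fun g hg i j => mem_of_sq_mem F₀ ?_
  rw [← tau_tau_val]
  apply tau_mem
  simpa only [map_mul, map_inv] using H _ ⟨g, hg, rfl⟩

/-- The alternating matrix attached to a vector. -/
def Bm (y : V F) : M4 F := !![0, y 0, y 1, 1; y 0, 0, 0, y 2; y 1, 0, 0, y 3; 1, y 2, y 3, 0]

theorem Bm_conj (g : Sp F) (y : V F) (h : ∀ x, Q0 (tau g • x) + f (tau g • x) y ^ 2 = Q0 x + f x y ^ 2) :
    ∃ c : F, g.val * Bm y * g.valᵀ = Bm y + c • J F := by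
  have h01 : g.val 0 0 * g.val 3 1 + g.val 1 0 * g.val 2 1 + g.val 2 0 * g.val 1 1 + g.val 3 0 * g.val 0 1 = 0 :=
    g.col 0 1
  have h02 : g.val 0 0 * g.val 3 2 + g.val 1 0 * g.val 2 2 + g.val 2 0 * g.val 1 2 + g.val 3 0 * g.val 0 2 = 0 :=
    g.col 0 2
  have h03 : g.val 0 0 * g.val 3 3 + g.val 1 0 * g.val 2 3 + g.val 2 0 * g.val 1 3 + g.val 3 0 * g.val 0 3 = 1 :=
    g.col 0 3
  have h13 : g.val 0 1 * g.val 3 3 + g.val 1 1 * g.val 2 3 + g.val 2 1 * g.val 1 3 + g.val 3 1 * g.val 0 3 = 0 :=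
    g.col 1 3
  have h23 : g.val 0 2 * g.val 3 3 + g.val 1 2 * g.val 2 3 + g.val 2 2 * g.val 1 3 + g.val 3 2 * g.val 0 3 = 0 :=
    g.col 2 3
  let yg : V F := ![g.val 0 0 * g.val 1 3 - g.val 1 0 * g.val 0 3, g.val 0 0 * g.val 2 3 - g.val 2 0 * g.val 0 3,
    g.val 1 0 * g.val 3 3 - g.val 3 0 * g.val 1 3, g.val 2 0 * g.val 3 3 - g.val 3 0 * g.val 2 3]
  have k : ∀ x : V F, Q0 x = 0 → Q0 (tau g • x) = f (tau g • x) yg ^ 2 →
      f (tau g • x) yg = f (tau g • x) (y + tau g • y) := by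
    intro x h1 h2
    apply CharTwo.sq_injective
    have := h x
    rw [h1, h2] at this
    simp only [f_add_right, Sp.f_smul]
    grobner
  have e : yg = y + tau g • y := by
    apply eq_of_f_basis (tau g)
    · refine k _ (by simp [Q0, e0]) ?_
      rw [Sp.smul_e0, tau_val, star4_eq]; simp [Q0, f, yg]; clear h02 h13 h23 k h; grobner
    · refine k _ (by simp [Q0, e1]) ?_
      rw [Sp.smul_e1, tau_val, star4_eq]; simp [Q0, f, yg]; clear h01 h13 h23 k h; grobner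
    · refine k _ (by simp [Q0, e2]) ?_
      rw [Sp.smul_e2, tau_val, star4_eq]; simp [Q0, f, yg]; clear h02 h01 h23 k h; grobner
    · refine k _ (by simp [Q0, e3]) ?_
      rw [Sp.smul_e3, tau_val, star4_eq]; simp [Q0, f, yg]; clear h02 h13 h01 k h; grobner
  have e0 : g.val 0 0 * g.val 1 3 - g.val 1 0 * g.val 0 3 = y 0 + ((g.val 0 0 * g.val 1 1 - g.val 1 0 * g.val 0 1) * y 0 +
      (g.val 0 0 * g.val 1 2 - g.val 1 0 * g.val 0 2) * y 1 + (g.val 0 1 * g.val 1 3 - g.val 1 1 * g.val 0 3) * y 2 +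
      (g.val 0 2 * g.val 1 3 - g.val 1 2 * g.val 0 3) * y 3) := by
    have := congrFun e 0; rwa [Pi.add_apply, Sp.smul_apply] at this
  have e1 : g.val 0 0 * g.val 2 3 - g.val 2 0 * g.val 0 3 = y 1 + ((g.val 0 0 * g.val 2 1 - g.val 2 0 * g.val 0 1) * y 0 +
      (g.val 0 0 * g.val 2 2 - g.val 2 0 * g.val 0 2) * y 1 + (g.val 0 1 * g.val 2 3 - g.val 2 1 * g.val 0 3) * y 2 +
      (g.val 0 2 * g.val 2 3 - g.val 2 2 * g.val 0 3) * y 3) := by
    have := congrFun e 1; rwa [Pi.add_apply, Sp.smul_apply] at this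
  have e2 : g.val 1 0 * g.val 3 3 - g.val 3 0 * g.val 1 3 = y 2 + ((g.val 1 0 * g.val 3 1 - g.val 3 0 * g.val 1 1) * y 0 +
      (g.val 1 0 * g.val 3 2 - g.val 3 0 * g.val 1 2) * y 1 + (g.val 1 1 * g.val 3 3 - g.val 3 1 * g.val 1 3) * y 2 +
      (g.val 1 2 * g.val 3 3 - g.val 3 2 * g.val 1 3) * y 3) := by
    have := congrFun e 2; rwa [Pi.add_apply, Sp.smul_apply] at this
  have e3 : g.val 2 0 * g.val 3 3 - g.val 3 0 * g.val 2 3 = y 3 + ((g.val 2 0 * g.val 3 1 - g.val 3 0 * g.val 2 1) * y 0 +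
      (g.val 2 0 * g.val 3 2 - g.val 3 0 * g.val 2 2) * y 1 + (g.val 2 1 * g.val 3 3 - g.val 3 1 * g.val 2 3) * y 2 +
      (g.val 2 2 * g.val 3 3 - g.val 3 2 * g.val 2 3) * y 3) := by
    have := congrFun e 3; rwa [Pi.add_apply, Sp.smul_apply] at this
  clear k e h yg
  have ent : ∀ k l, (g.val * Bm y * g.valᵀ) k l =
      (g.val k 0 * g.val l 1 + g.val l 0 * g.val k 1) * y 0 + (g.val k 0 * g.val l 2 + g.val l 0 * g.val k 2) * y 1 +
      (g.val k 1 * g.val l 3 + g.val l 1 * g.val k 3) * y 2 + (g.val k 2 * g.val l 3 + g.val l 2 * g.val k 3) * y 3 +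
      (g.val k 0 * g.val l 3 + g.val l 0 * g.val k 3) := by
    intro k l
    simp [Matrix.mul_apply, Fin.sum_univ_four, Bm]
    ring
  refine ⟨(g.val * Bm y * g.valᵀ) 1 2, ?_⟩
  have r : ∀ c : F, Bm y + c • J F =
      !![0, y 0, y 1, 1 + c; y 0, 0, c, y 2; y 1, c, 0, y 3; 1 + c, y 2, y 3, 0] := by
    intro c; ext i j; fin_cases i <;> fin_cases j <;> simp [Bm, J_def]
  rw [r]
  conv_lhs => rw [eta4 (g.val * Bm y * g.valᵀ)]
  simp only [ent]
  have diag : ∀ k, (g.val k 0 * g.val k 1 + g.val k 0 * g.val k 1) * y 0 +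
      (g.val k 0 * g.val k 2 + g.val k 0 * g.val k 2) * y 1 +
      (g.val k 1 * g.val k 3 + g.val k 1 * g.val k 3) * y 2 + (g.val k 2 * g.val k 3 + g.val k 2 * g.val k 3) * y 3 +
      (g.val k 0 * g.val k 3 + g.val k 0 * g.val k 3) = 0 := fun k => by
    simp only [CharTwo.add_self_eq_zero]; ring
  simp only [CharTwo.sub_eq_add] at e0 e1 e2 e3
  have two := two_eq (F := F)
  have e03 : (g.val 0 0 * g.val 3 1 + g.val 3 0 * g.val 0 1) * y 0 + (g.val 0 0 * g.val 3 2 + g.val 3 0 * g.val 0 2) * y 1 +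
      (g.val 0 1 * g.val 3 3 + g.val 3 1 * g.val 0 3) * y 2 + (g.val 0 2 * g.val 3 3 + g.val 3 2 * g.val 0 3) * y 3 +
      (g.val 0 0 * g.val 3 3 + g.val 3 0 * g.val 0 3) = 1 +
      ((g.val 1 0 * g.val 2 1 + g.val 2 0 * g.val 1 1) * y 0 + (g.val 1 0 * g.val 2 2 + g.val 2 0 * g.val 1 2) * y 1 +
      (g.val 1 1 * g.val 2 3 + g.val 2 1 * g.val 1 3) * y 2 + (g.val 1 2 * g.val 2 3 + g.val 2 2 * g.val 1 3) * y 3 +
      (g.val 1 0 * g.val 2 3 + g.val 2 0 * g.val 1 3)) := by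
    clear e0 e1 e2 e3 ent diag r; grobner
  clear ent r h01 h02 h03 h13 h23
  apply mat4_congr
  · exact diag 0
  · clear e1 e2 e3 e03 diag; grobner
  · clear e0 e2 e3 e03 diag; grobner
  · exact e03
  · clear e1 e2 e3 e03 diag; grobner
  · exact diag 1
  · rfl
  · clear e1 e0 e3 e03 diag; grobner
  · clear e0 e2 e3 e03 diag; grobner
  · ring
  · exact diag 2
  · clear e1 e2 e0 e03 diag; grobner
  · rw [← e03]; ring
  · clear e1 e0 e3 e03 diag; grobner
  · clear e1 e2 e0 e03 diag; grobner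
  · exact diag 3

theorem Hyp.tau_noQ [Finite F] {P : Subgroup (Sp F)} (h : Hyp P)
    (habs : ∀ M : M4 F, (∀ g ∈ P, M * g.val = g.val * M) → ∃ c : F, M = c • (1 : M4 F))
    (Q : V F → F) (hQ : IsQ Q) : ¬ ∀ g ∈ P.map tau, ∀ v, Q (g • v) = Q v := by
  intro H
  obtain ⟨y, hy⟩ := hQ.exists_vec
  have key : ∀ g : P, ∃ c : F, (g : Sp F).val * (Bm y * J F) * (g : Sp F)⁻¹.val = Bm y * J F + c • (1 : M4 F) := by
    intro g
    obtain ⟨c, hc⟩ := Bm_conj g y fun x => by rw [← hy, ← hy]; exact H _ ⟨g, g.2, rfl⟩ x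
    refine ⟨c, ?_⟩
    rw [Sp.val_inv, ← J_mul_J, ← Matrix.smul_mul, ← Matrix.add_mul, ← hc]
    simp only [Matrix.mul_assoc]
    rw [← Matrix.mul_assoc (J F) (J F), J_mul_J, Matrix.one_mul]
  choose χ hχ using key
  have inj : ∀ c c' : F, Bm y * J F + c • (1 : M4 F) = Bm y * J F + c' • (1 : M4 F) → c = c' := by
    intro c c' e
    have e' : c • (1 : M4 F) = c' • (1 : M4 F) := add_left_cancel e
    simpa using congrFun (congrFun e' 0) 0
  let φ : P →* Multiplicative F := MonoidHom.mk' (fun g => Multiplicative.ofAdd (χ g)) fun a b => by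
    rw [← ofAdd_add]
    congr 1
    apply inj
    rw [← hχ, add_smul, ← add_assoc, ← hχ, Subgroup.coe_mul, _root_.mul_inv_rev, Sp.val_mul, Sp.val_mul]
    calc _ = (a : Sp F).val * ((b : Sp F).val * (Bm y * J F) * (b : Sp F)⁻¹.val) * (a : Sp F)⁻¹.val := by
          simp only [Matrix.mul_assoc]
      _ = _ := by
        rw [hχ b, Matrix.mul_add, Matrix.add_mul, Matrix.mul_smul, Matrix.mul_one, Matrix.smul_mul, Sp.mul_inv_val]
  have hker : commutator P ≤ φ.ker := Abelianization.commutator_subset_ker φ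
  rw [h.perfect] at hker
  obtain ⟨c, hc⟩ := habs (Bm y * J F) fun g hg => by
    have h1 : χ ⟨g, hg⟩ = 0 := hker (Subgroup.mem_top (⟨g, hg⟩ : P))
    have h2 := hχ ⟨g, hg⟩
    rw [h1, zero_smul, add_zero] at h2
    conv_lhs => rw [← h2]
    rw [Matrix.mul_assoc, Sp.inv_mul_val, Matrix.mul_one]
  rw [Bm, J_def, mul4] at hc
  have h0 := congrFun (congrFun hc 0) 0
  have h1 := congrFun (congrFun hc 1) 1
  simp at h0 h1
  rw [← h0] at h1
  exact one_ne_zero h1.symm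

theorem Hyp.tau [Finite F] {P : Subgroup (Sp F)} (h : Hyp P)
    (habs : ∀ M : M4 F, (∀ g ∈ P, M * g.val = g.val * M) → ∃ c : F, M = c • (1 : M4 F)) : Hyp (P.map tau) where
  simple := isSimpleGroup_map h.simple _ tau_injective
  nonab := by
    obtain ⟨x, hx, y, hy, hxy⟩ := h.nonab
    exact ⟨_, ⟨x, hx, rfl⟩, _, ⟨y, hy, rfl⟩, fun e => hxy (tau_injective (by simpa only [map_mul] using e))⟩
  irr := h.tau_irr
  nosub := tau_nosub h.nosub
  noQ := h.tau_noQ habs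
  proper := fun e => h.proper (by
    rw [eq_top_iff]; intro g _
    obtain ⟨k, hk, e'⟩ : Sp4E.tau g ∈ P.map Sp4E.tau := e ▸ Subgroup.mem_top _
    exact tau_injective e' ▸ hk)

theorem mapSp_smul (φ : F →+* F) (g : Sp F) (x : V F) : mapSp φ g • (fun i => φ (x i) : V F) = fun i => φ ((g • x) i) := by
  funext i
  simp [Sp.smul_apply, mapSp_val]

theorem Hyp.tau_tau [Finite F] {P : Subgroup (Sp F)} (h : Hyp P) : Hyp ((P.map Sp4E.tau).map Sp4E.tau) where
  simple := isSimpleGroup_map (isSimpleGroup_map h.simple _ tau_injective) _ tau_injective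
  nonab := by
    obtain ⟨x, hx, y, hy, hxy⟩ := h.nonab
    exact ⟨_, ⟨_, ⟨x, hx, rfl⟩, rfl⟩, _, ⟨_, ⟨y, hy, rfl⟩, rfl⟩,
      fun e => hxy (tau_injective (tau_injective (by simpa only [map_mul] using e)))⟩
  irr := by
    intro W hW
    have sq : ∀ x : V F, ∃ y : V F, (fun i => frobenius F 2 (y i)) = x := fun x => by
      choose r hr using fun i => exists_sqrt (x i)
      exact ⟨r, funext hr⟩
    let W' : Submodule F (V F) :=
      { carrier := {x | (fun i => frobenius F 2 (x i) : V F) ∈ W}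
        add_mem' := fun {a b} ha hb => by
          have := W.add_mem ha hb
          show (fun i => frobenius F 2 (a i + b i)) ∈ W
          simp only [map_add]; exact this
        zero_mem' := by
          show (fun i => frobenius F 2 0) ∈ W
          simp only [map_zero]; exact W.zero_mem
        smul_mem' := fun c x hx => by
          have := W.smul_mem (frobenius F 2 c) hx
          show (fun i => frobenius F 2 (c * x i)) ∈ W
          simp only [map_mul]; exact this }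
    rcases h.irr W' (fun g hg w hw => by
      have := hW _ ⟨_, ⟨g, hg, rfl⟩, rfl⟩ _ hw
      rwa [Sp4E.tau_tau, mapSp_smul] at this) with e | e
    · left; rw [eq_bot_iff]; intro x hx
      obtain ⟨y, rfl⟩ := sq x
      have : y ∈ W' := hx
      rw [e, Submodule.mem_bot] at this
      rw [this, Submodule.mem_bot]; funext i; simp
    · right; rw [eq_top_iff]; intro x _
      obtain ⟨y, rfl⟩ := sq x
      have : y ∈ W' := e ▸ Submodule.mem_top
      exact this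
  nosub := tau_nosub (tau_nosub h.nosub)
  noQ := by
    intro Q hQ H
    obtain ⟨y, hy⟩ := hQ.exists_vec
    choose r hr using fun i => exists_sqrt (y i)
    have key : ∀ x : V F, (Q0 x + f x r ^ 2) ^ 2 = Q (fun i => frobenius F 2 (x i)) := by
      intro x
      simp only [hy, Q0, f, frobenius_def, ← hr]; grobner
    refine h.noQ (fun x => Q0 x + f x r ^ 2) ⟨fun c v => ?_, fun x z => ?_⟩ fun g hg v => ?_
    · rw [isQ_Q0.smul, f_smul_left]; ring
    · rw [isQ_Q0.add, f_add_left]; grobner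
    · apply CharTwo.sq_injective
      show _ ^ 2 = _ ^ 2
      rw [key, key, ← mapSp_smul, ← Sp4E.tau_tau]
      exact H _ ⟨_, ⟨g, hg, rfl⟩, rfl⟩ _
  proper := fun e => h.proper (by
    rw [eq_top_iff]; intro g _
    obtain ⟨_, ⟨k, hk, rfl⟩, e'⟩ : Sp4E.tau (Sp4E.tau g) ∈ (P.map Sp4E.tau).map Sp4E.tau := e ▸ Subgroup.mem_top _
    exact tau_injective (tau_injective e') ▸ hk)

/-- The self-dual set of hypotheses. -/
structure Hyp2 (P : Subgroup (Sp F)) : Prop where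
  h1 : Hyp P
  h2 : Hyp (P.map tau)
  nt : NoT P

theorem Hyp2.tau [Finite F] {P : Subgroup (Sp F)} (h : Hyp2 P) : Hyp2 (P.map Sp4E.tau) :=
  ⟨h.h2, h.h1.tau_tau, h.nt.tau⟩

theorem Hyp2.cj {P : Subgroup (Sp F)} (h : Hyp2 P) (B : Sp F) : Hyp2 (Sp4E.cj B P) :=
  ⟨h.h1.cj B, by rw [map_tau_cj]; exact h.h2.cj _, h.nt.cj B⟩

open Classical in
/-- Averaging over a subgroup of odd order. -/
theorem exists_Q_of_odd [Finite F] {K : Subgroup (Sp F)} (hK : Odd (Nat.card K)) {Q : V F → F} (hQ : IsQ Q) :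
    ∃ Q' : V F → F, IsQ Q' ∧ (∀ g ∈ K, ∀ v, Q' (g • v) = Q' v) ∧
      ∀ v, (∀ g ∈ K, Q (g • v) = 0) → Q' v = 0 := by
  letI : Fintype K := Fintype.ofFinite _
  refine ⟨fun v => ∑ g : K, Q ((g : Sp F) • v), ⟨fun c v => ?_, fun x y => ?_⟩, fun g hg v => ?_, fun v hv => ?_⟩
  · simp only [Sp.smul_smul', hQ.smul, Finset.mul_sum]
  · simp only [smul_add, hQ.add, Sp.f_smul, Finset.sum_add_distrib, Finset.sum_const, Finset.card_univ,
      nsmul_eq_mul]
    obtain ⟨k, hk⟩ := hK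
    rw [← Nat.card_eq_fintype_card, hk]
    push_cast
    rw [two_eq]; ring
  · exact Fintype.sum_equiv (Equiv.mulRight (⟨g, hg⟩ : K)) _ _ fun x => by simp [mul_smul]
  · exact Finset.sum_eq_zero fun g _ => hv g g.2

end Cfsg.Agent.Sp4E
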