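import Cfsg.Agent.Sp4E.Std

/-!
The case of an elementary abelian Sylow subgroup inside the unipotent radical of a point stabiliser.
-/

set_option autoImplicit false
set_option linter.unusedSectionVars false
set_option linter.unusedSimpArgs false

namespace Cfsg.Agent.Sp4E
open Matrix Cfsg.Agent.H9 Cfsg.Lie Grp

variable {F : Type*} [Field F] [CharP F 2]

theorem odd_card_of {G : Type*} [Group G] [Finite G] {K : Subgroup G} (h : ∀ k ∈ K, Odd (orderOf k)) :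
    Odd (Nat.card K) := by
  by_contra hh
  have : Fact (Nat.Prime 2) := ⟨Nat.prime_two⟩
  obtain ⟨x, hx⟩ := exists_prime_orderOf_dvd_card' (G := K) 2 (even_iff_two_dvd.mp (Nat.not_odd_iff_even.mp hh))
  have := h x x.2
  rw [Subgroup.orderOf_coe, hx] at this
  exact absurd this (by decide)

theorem IsQ.A_smul {Q : V F → F} (hQ : IsQ Q) (h0 : Q e0 = 0) (u c d : F) (x : V F) :
    Q (Um u 0 c d • x) = Q x + (Q (Um u 0 c d • e3) + Q e3) * x 3 ^ 2 := by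
  rw [hQ.expand (Um u 0 c d • x), hQ.expand (Um u 0 c d • e3), hQ.expand x, Um_smul, Um_smul, h0]
  simp [Q0, e3]; grobner

theorem Hyp.not_sing {P : Subgroup (Sp F)} (h : Hyp P) {Q : V F → F} (hQ : IsQ Q) :
    ¬ ∀ g ∈ P, Q (g • e0) = 0 := by
  intro H
  let W : Submodule F (V F) :=
    { carrier := {x | ∀ g ∈ P, Q (g • x) = Q x}
      add_mem' := fun {a b} ha hb g hg => by rw [smul_add, hQ.add, hQ.add, ha g hg, hb g hg, Sp.f_smul]
      zero_mem' := fun g _ => by rw [smul_zero]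
      smul_mem' := fun c x hx g hg => by rw [Sp.smul_smul', hQ.smul, hQ.smul, hx g hg] }
  rcases h.irr W (by
    intro g hg w hw k hk
    rw [← mul_smul, hw _ (P.mul_mem hk hg), hw g hg]) with e | e
  · have : (e0 : V F) ∈ W := fun g hg => by
      have := H 1 P.one_mem
      rw [one_smul] at this
      rw [H g hg, this]
    rw [e] at this; exact e0_ne this
  · exact h.noQ Q hQ fun g hg v => (e ▸ Submodule.mem_top : v ∈ W) g hg

theorem inv_smul_three {k : Sp F} (hk : k ∈ Pt F) (x : V F) : (k⁻¹ • x) 3 = k.val 0 0 * x 3 := by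
  rw [← f_e0 (k⁻¹ • x), ← f_e0 x, ← Sp.f_smul k, smul_inv_smul, smul_of_point hk, f_smul_right]

theorem Std.not_FA1 [Finite F] {P : Subgroup (Sp F)} (h : Std P) (hA : ∀ u v c d, Um u v c d ∈ P → v = 0)
    {u c d : F} (hu : u ≠ 0) (ht : Um u 0 c d ∈ P) : False := by
  have hSA : ∀ s ∈ P ⊓ U F, ∃ u c d, s = Um u 0 c d := by
    rintro _ ⟨hs, u, v, c, d, rfl⟩
    obtain rfl := hA _ _ _ _ hs
    exact ⟨u, c, d, rfl⟩
  have hSM : P ⊓ U F ≤ P ⊓ Pt F := inf_le_inf_left _ U_le_Pt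
  have hS : ∀ x ∈ P ⊓ Pt F, Two x → x ∈ P ⊓ U F := by
    intro x hx h2
    obtain ⟨m, hm, H⟩ := (IsSyl.mono h.syl hSM inf_le_left).conj_elt hx h2
    obtain ⟨u, c, d, e⟩ := hSA _ H
    refine ⟨hx.1, ?_⟩
    have : x = m⁻¹ * Um u 0 c d * m⁻¹⁻¹ := by rw [← e]; group
    rw [this, conj_A ((Pt F).inv_mem hm.2)]
    exact Um_mem_U ..
  have hd : ∀ {u c d : F}, Um u 0 c d ∈ P → Um u 0 c d ≠ 1 → d ≠ 0 := by
    rintro u c d h1 h2 rfl; exact h2 (h.hyp.nt.A_d h1)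
  have se : SE' P (P ⊓ Pt F) := by
    refine ⟨inf_le_left, fun g hg t ht hi hgt => ⟨hg, ?_⟩, h.cit, fun e => ?_, zz, ⟨h.z, Um_mem_Pt ..⟩, inv_zz⟩
    · obtain ⟨u, c, d, rfl⟩ := hSA _ (hS _ ht hi.two)
      obtain ⟨u', c', d', e⟩ := hSA _ (hS _ hgt (hi.conj g).two)
      exact mem_Pt_of_conj (hd ht.1 hi.1) e
    · exact h.hyp.h1.not_point fun g hg => (e.ge hg).2
  have ht1 : Um u 0 c d ≠ 1 := fun e => hu (Um_eq_one.mp e).1
  have hti : Grp.Inv (Um u 0 c d) := inv_Um (mul_zero _) ht1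
  have hzM : zz ∈ P ⊓ Pt F := ⟨h.z, Um_mem_Pt ..⟩
  have htM : Um u 0 c d ∈ P ⊓ Pt F := ⟨ht, Um_mem_Pt ..⟩
  obtain ⟨n, hnP, hn, hnM⟩ := se.exists_not_mem
  have br : ∀ g ∈ P, g ∉ P ⊓ Pt F → ∃ s ∈ P ⊓ U F, ∃ a : F, g • (e0 : V F) = a • s • n • e0 := by
    intro g hg hgM
    obtain ⟨s, hs, m, hm, rfl⟩ := se.bruhat hSM (fun x hx => two_of_mem_U hx.2) hS
      ⟨zz, hzM, _, htM, inv_zz, hti, fun e => hu (Um_inj e).1.symm⟩ hnP hn hnM hg hgM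
    exact ⟨s, hs, m.val 0 0, by rw [mul_smul, mul_smul, smul_of_point hm.2, Sp.smul_smul', Sp.smul_smul']⟩
  have hy : (n • (e0 : V F)) 3 ≠ 0 := by
    intro e
    refine h.hyp.h1.not_perp fun g hg => ?_
    by_cases hgM : g ∈ P ⊓ Pt F
    · exact hgM.2.2.2
    · obtain ⟨_, ⟨-, u, v, c, d, rfl⟩, a, e'⟩ := br g hg hgM
      have := congrFun e' 3
      rw [Sp.smul_e0, Um_smul] at this
      simpa [e] using this
  obtain ⟨B, hB0, hB3⟩ := witt_03 (x0 := (e0 : V F)) (x3 := ((n • (e0 : V F)) 3)⁻¹ • n • e0)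
    (by rw [f_smul_right, f_comm, f_e0, inv_mul_cancel₀ hy])
  let K : Subgroup (Sp F) := (P ⊓ Pt F) ⊓ Sp4E.cj n⁻¹ (P ⊓ Pt F)
  have memK : ∀ {k}, k ∈ P ⊓ Pt F → n * k * n⁻¹ ∈ P ⊓ Pt F → k ∈ K := fun h1 h2 =>
    ⟨h1, mem_cj.mpr (by rwa [inv_inv])⟩
  have Kmem : ∀ {k}, k ∈ K → n * k * n⁻¹ ∈ P ⊓ Pt F := fun h1 => by
    have := mem_cj.mp h1.2; rwa [inv_inv] at this
  obtain ⟨Q, hQ, hQK, hQ0⟩ := exists_Q_of_odd (K := K)
    (odd_card_of fun k hk => se.odd_order hnP hnM hk.1 (Kmem hk)) (isQ_Q0.comp B⁻¹)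
  have q0 : Q e0 = 0 := hQ0 _ fun k hk => by
    rw [smul_of_point hk.1.2, Sp.smul_smul', isQ_Q0.smul, ← hB0, inv_smul_smul]; simp [Q0, e0]
  have q1 : Q (n • e0) = 0 := hQ0 _ fun k hk => by
    have e1 : k • n • (e0 : V F) = n • (n * k * n⁻¹) • e0 := by
      rw [hn.inv_eq, ← mul_smul, ← mul_smul, ← mul_assoc, ← mul_assoc, hn.2, one_mul]
    have e2 : n • (e0 : V F) = (n • (e0 : V F)) 3 • B • e3 := by
      rw [hB3, smul_smul, mul_inv_cancel₀ hy, one_smul]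
    rw [e1, smul_of_point (Kmem hk).2, Sp.smul_smul', Sp.smul_smul', isQ_Q0.smul, e2, Sp.smul_smul', inv_smul_smul,
      isQ_Q0.smul]
    simp [Q0, e3]
  let δ : Sp F → F := fun a => Q (a • e3) + Q e3
  have hδ : ∀ a ∈ P ⊓ U F, ∀ x, Q (a • x) = Q x + δ a * x 3 ^ 2 := by
    intro a ha x
    obtain ⟨u, c, d, rfl⟩ := hSA a ha
    exact hQ.A_smul q0 ..
  have δ_mul : ∀ a ∈ P ⊓ U F, ∀ b ∈ P ⊓ U F, δ (a * b) = δ a + δ b := by
    intro a ha b hb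
    have h1 := hδ a ha (b • e3)
    have h2 : (b • (e3 : V F)) 3 = 1 := by
      obtain ⟨-, u, v, c, d, rfl⟩ := hb
      rw [Um_smul]; rfl
    rw [h2, ← mul_smul] at h1
    show Q ((a * b) • e3) + Q e3 = δ a + (Q (b • e3) + Q e3)
    rw [h1]; ring
  have δ_conj : ∀ k ∈ K, ∀ a ∈ P ⊓ U F, δ (k * a * k⁻¹) = k.val 0 0 ^ 2 * δ a := by
    intro k hk a ha
    show Q ((k * a * k⁻¹) • e3) + Q e3 = _
    rw [mul_smul, mul_smul, hQK k hk, hδ a ha, hQK _ (K.inv_mem hk), inv_smul_three hk.1.2]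
    simp [e3]; grobner
  have hzS : zz ∈ P ⊓ U F := ⟨h.z, Um_mem_U ..⟩
  have htS : Um u 0 c d ∈ P ⊓ U F := ⟨ht, Um_mem_U ..⟩
  have δz : δ zz = 0 := by
    by_contra hδ0
    have ezt : zz * Um u 0 c d = Um u 0 (c + 1) (d + 1 + u) := by
      rw [zz, Um_mul]; apply Um_congr <;> ring
    obtain ⟨k, hk1, hk2, ek⟩ := se.trans hnP hn hnM hzM inv_zz htM hti
    obtain ⟨k', hk1', hk2', ek'⟩ := se.trans hnP hn hnM hzM inv_zz ((P ⊓ Pt F).mul_mem hzM htM)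
      (by rw [ezt]; exact inv_Um (mul_zero _) fun e => hu (Um_eq_one.mp e).1)
    have hc := se.comm hnP hn hnM hk1 hk2 hk1' hk2'
    have e1 : k' * Um u 0 c d * k'⁻¹ = Um u 0 c d * (k * Um u 0 c d * k⁻¹) := by
      calc k' * Um u 0 c d * k'⁻¹ = (k' * k) * zz * (k' * k)⁻¹ := by rw [← ek]; group
        _ = k * (k' * zz * k'⁻¹) * k⁻¹ := by rw [← hc]; group
        _ = (k * zz * k⁻¹) * (k * Um u 0 c d * k⁻¹) := by rw [ek']; group
        _ = _ := by rw [ek]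
    have d1 := δ_conj k (memK hk1 hk2) zz hzS
    have d2 := δ_conj k' (memK hk1' hk2') zz hzS
    rw [ek] at d1
    rw [ek', δ_mul _ hzS _ htS, d1] at d2
    have d3 : k'.val 0 0 ^ 2 = 1 + k.val 0 0 ^ 2 := mul_right_cancel₀ hδ0 (by rw [← d2]; ring)
    rw [conj_A hk1'.2, conj_A hk1.2, Um_mul] at e1
    rw [ezt] at ek'
    rw [zz, conj_A hk1.2] at ek
    rw [zz, conj_A hk1'.2] at ek'
    obtain ⟨a1, -, a2, -⟩ := Um_inj e1
    obtain ⟨b1, -, b2, -⟩ := Um_inj ek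
    obtain ⟨c1, -, c2, -⟩ := Um_inj ek'
    obtain ⟨p1, p2, p3, p4⟩ := pt_entries hk1.2.1 hk1.2.2.1 hk1.2.2.2
    obtain ⟨-, -, -, p4'⟩ := pt_entries hk1'.2.1 hk1'.2.2.1 hk1'.2.2.2
    have m22 : k'.val 0 0 * k'.val 2 2 = 1 + k.val 0 0 * k.val 2 2 := mul_right_cancel₀ hu (by
      clear a2 d3 p1 p2 p3 p4 p4' hδ0 d1 d2; grobner)
    have m12 : k'.val 0 0 * k'.val 1 2 = k.val 0 0 * k.val 1 2 := mul_right_cancel₀ hu (by
      clear a1 d3 p1 p2 p3 p4 p4' hδ0 d1 d2 m22; grobner)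
    have tr : k.val 1 1 + k.val 2 2 = 0 := mul_left_cancel₀ (pt_ne hk1.2) (by
      have q : k'.val 0 0 ^ 2 = (k'.val 0 0 * k'.val 1 1) * (k'.val 0 0 * k'.val 2 2) +
        (k'.val 0 0 * k'.val 2 1) * (k'.val 0 0 * k'.val 1 2) := by linear_combination (-k'.val 0 0 ^ 2) * p4'
      have q' : k.val 0 0 ^ 2 = (k.val 0 0 * k.val 1 1) * (k.val 0 0 * k.val 2 2) +
        (k.val 0 0 * k.val 2 1) * (k.val 0 0 * k.val 1 2) := by linear_combination (-k.val 0 0 ^ 2) * p4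
      have m11 : k'.val 0 0 * k'.val 1 1 = 1 + k.val 0 0 * k.val 1 1 := by linear_combination c2 - b2
      have m21 : k'.val 0 0 * k'.val 2 1 = k.val 0 0 * k.val 2 1 := by linear_combination c1 - b1
      rw [m11, m22, m21, m12, d3] at q
      clear a1 a2 b1 b2 c1 c2 m11 m12 m21 m22 d3 p1 p2 p3 p4 p4' hδ0 d1 d2
      grobner)
    have hkk : k * k ∈ Bor F := mem_Bor.mpr ⟨(Pt F).mul_mem hk1.2 hk1.2, by
      rw [val_mul_apply, hk1.2.2.1, p2]; linear_combination k.val 2 1 * tr⟩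
    obtain ⟨j, hj⟩ := se.exists_sqrt hnP hnM hk1 hk2
    have hkB : k ∈ Bor F := by
      rw [← hj, ← (Commute.refl k).mul_pow]; exact (Bor F).pow_mem hkk j
    apply hu
    rw [← b1, (mem_Bor.mp hkB).2]; ring
  have δ0 : ∀ a ∈ P ⊓ U F, δ a = 0 := by
    intro a ha
    by_cases h1 : a = 1
    · rw [h1]; show Q ((1 : Sp F) • e3) + Q e3 = 0
      rw [one_smul, CharTwo.add_self_eq_zero]
    · obtain ⟨u, c, d, rfl⟩ := hSA a ha
      obtain ⟨k, hk1, hk2, ek⟩ := se.trans hnP hn hnM hzM inv_zz (hSM ha) (inv_Um (mul_zero _) h1)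
      rw [← ek, δ_conj k (memK hk1 hk2) zz hzS, δz, mul_zero]
  refine h.hyp.h1.not_sing hQ fun g hg => ?_
  by_cases hgM : g ∈ P ⊓ Pt F
  · rw [smul_of_point hgM.2, hQ.smul, q0, mul_zero]
  · obtain ⟨s, hs, a, e⟩ := br g hg hgM
    rw [e, hQ.smul, hδ s hs, δ0 s hs, q1]; ring

end Cfsg.Agent.Sp4E
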