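import Cfsg.Agent.Sp4E.FA1

/-!
The case of a dihedral Sylow subgroup of order eight.
-/

set_option autoImplicit false
set_option linter.unusedSectionVars false
set_option linter.unusedSimpArgs false

namespace Cfsg.Agent.Sp4E
open Matrix Cfsg.Agent.H9 Cfsg.Lie Grp

variable {F : Type*} [Field F] [CharP F 2]

theorem comm_A (u' v c' d' u c d : F) :
    Um u' v c' d' * Um u 0 c d * (Um u' v c' d')⁻¹ * Um u 0 c d = Um 0 0 (u * v) (u ^ 2 * v) := by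
  rw [conj_A (Um_mem_Pt ..), Um_mul]
  simp only [Um_val, of_apply, cons_val', cons_val, cons_val_fin_one, cons_val_one, cons_val_zero]
  apply Um_congr <;> grobner

theorem commute_A (u c d u' c' d' : F) : Commute (Um u 0 c d) (Um u' 0 c' d') := by
  show _ * _ = _ * _
  rw [Um_mul, Um_mul]; apply Um_congr <;> grobner

theorem v_eq_zero_of_commute {u c d u' v c' d' : F} (hu : u ≠ 0) (h : Commute (Um u' v c' d') (Um u 0 c d)) :
    v = 0 := by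
  have := comm_A u' v c' d' u c d
  rw [h.eq, mul_inv_cancel_right, Um_sq] at this
  have := (Um_inj this).2.2.1
  grind

theorem u_eq_zero_of_commute {v c d u' v' c' d' : F} (hv : v ≠ 0) (h : Commute (Um u' v' c' d') (Um 0 v c d)) :
    u' = 0 := by
  have := h.eq
  rw [Um_mul, Um_mul] at this
  have := (Um_inj this).2.2.1
  grind

/-- The subgroup `A`. -/
def AA (F : Type*) [Field F] [CharP F 2] : Subgroup (Sp F) where
  carrier := {g | ∃ u c d, g = Um u 0 c d}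
  mul_mem' := by
    rintro _ _ ⟨u, c, d, rfl⟩ ⟨u', c', d', rfl⟩
    exact ⟨_, _, _, by rw [Um_mul, add_zero]⟩
  one_mem' := ⟨0, 0, 0, Um_zero.symm⟩
  inv_mem' := by
    rintro _ ⟨u, c, d, rfl⟩
    exact ⟨_, _, _, Um_inv ..⟩

theorem Um_mem_AA {u v c d : F} : Um u v c d ∈ AA F ↔ v = 0 :=
  ⟨fun ⟨_, _, _, e⟩ => (Um_inj e).2.1, fun e => ⟨u, c, d, by rw [e]⟩⟩

theorem conj_mem_AA {g a : Sp F} (hg : g ∈ Pt F) (ha : a ∈ AA F) : g * a * g⁻¹ ∈ AA F := by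
  obtain ⟨u, c, d, rfl⟩ := ha
  exact ⟨_, _, _, conj_A hg ..⟩

theorem mem_AA_of_conj {g a : Sp F} (hg : g ∈ Pt F) (ha : g * a * g⁻¹ ∈ AA F) : a ∈ AA F := by
  have := conj_mem_AA ((Pt F).inv_mem hg) ha
  simpa [mul_assoc] using this

theorem zz_mem_AA : (zz : Sp F) ∈ AA F := ⟨0, 1, 1, rfl⟩

theorem mem_Pt_of_zz [Finite F] {g : Sp F} (h : g * zz * g⁻¹ ∈ AA F) : g ∈ Pt F := by
  obtain ⟨u, c, d, e⟩ := h
  exact mem_Pt_of_conj one_ne_zero e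

/-- The dihedral configuration. -/
structure D8 (P : Subgroup (Sp F)) : Prop where
  std : Std P
  Z : ∀ c d, Um 0 0 c d ∈ P → (c = 0 ∧ d = 0) ∨ (c = 1 ∧ d = 1)
  uv : ∀ u v c d, Um u v c d ∈ P → (u = 0 ∨ u = 1) ∧ (v = 0 ∨ v = 1)
  t : ∃ c d, ∃ k ∈ P, k * zz * k⁻¹ = Um 1 0 c d
  s : ∃ c d, ∃ k ∈ P, k * zz * k⁻¹ = Um 0 1 c d

theorem Std.d8 [Finite F] {P : Subgroup (Sp F)} (h : Std P) {u c d : F} (hu : u ≠ 0) {k : Sp F} (hk : k ∈ P)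
    (ek : k * zz * k⁻¹ = Um u 0 c d) {u1 v c1 d1 : F} (hv : v ≠ 0) (hs : Um u1 v c1 d1 ∈ P) : D8 P := by
  have cP : ∀ {g x : Sp F}, g ∈ P → x ∈ P → g * x * g⁻¹ ∈ P := fun hg hx =>
    P.mul_mem (P.mul_mem hg hx) (P.inv_mem hg)
  have hkP : k ∈ Pt F := mem_Pt_of_zz (ek ▸ Um_mem_AA.mpr rfl)
  have ht : Um u 0 c d ∈ P := ek ▸ cP hk h.z
  have eu : k.val 0 0 * k.val 2 1 = u := by
    rw [zz, conj_A hkP] at ek; simpa using (Um_inj ek).1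
  have hX : ∀ c0 d0, Um 0 0 c0 d0 ∈ P → ∃ c' d', Um (u * c0) 0 c' d' ∈ P := by
    intro c0 d0 h0
    have := cP hk h0
    rw [conj_A hkP, mul_zero, add_zero, ← mul_assoc, eu] at this
    exact ⟨_, _, this⟩
  have hcomm : ∀ {x c' d' u' v' c'' d'' : F}, Um x 0 c' d' ∈ P → Um u' v' c'' d'' ∈ P →
      Um 0 0 (x * v') (x ^ 2 * v') ∈ P := fun h1 h2 => by
    have := P.mul_mem (cP h2 h1) h1
    rwa [comm_A] at this
  have hsurj : ∀ {u' v' c' d' : F}, v' ≠ 0 → Um u' v' c' d' ∈ P → ∀ c0 d0, Um 0 0 c0 d0 ∈ P →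
      ∃ c2 d2, Um 0 0 c2 d2 ∈ P ∧ c0 = u * c2 * v' := by
    intro u' v' c' d' hv' hs' c0 d0 h0
    let C := {c0 : F // ∃ d0, Um 0 0 c0 d0 ∈ P}
    let φ : C → C := fun x => ⟨u * x.1 * v', by
      obtain ⟨d0, h0⟩ := x.2
      obtain ⟨c', d', h1⟩ := hX _ _ h0
      exact ⟨_, hcomm h1 hs'⟩⟩
    have hφ : Function.Injective φ := fun a b e =>
      Subtype.ext (mul_left_cancel₀ hu (mul_right_cancel₀ hv' (congrArg Subtype.val e)))
    obtain ⟨⟨c2, d2, h2⟩, e⟩ := Finite.surjective_of_injective hφ ⟨c0, d0, h0⟩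
    exact ⟨c2, d2, h2, (congrArg Subtype.val e).symm⟩
  have hY : ∀ {u' v' c' d' : F}, v' ≠ 0 → Um u' v' c' d' ∈ P → v' = v := by
    intro u' v' c' d' hv' hs'
    have h1 := hcomm ht hs
    obtain ⟨c2, d2, h2, e⟩ := hsurj hv' hs' _ _ h1
    obtain ⟨c3, d3, h3⟩ := hX _ _ h2
    have h4 := hcomm h3 hs'
    rw [← e] at h4
    have h5 := h.Z_eq h1 h4
    have : u * c2 = u := mul_right_cancel₀ (mul_ne_zero hu hv) (by grobner)
    rw [this] at e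
    exact (mul_left_cancel₀ hu e).symm
  have hU : ∀ {u' v' c' d' : F}, Um u' v' c' d' ∈ P → ∃ c2 d2, Um 0 0 c2 d2 ∈ P ∧ u' = u * c2 := by
    intro u' v' c' d' hs'
    have h1 : ∃ d, Um 0 0 (u' * v) d ∈ P := by
      by_cases hv' : v' = 0
      · subst hv'; exact ⟨_, hcomm hs' hs⟩
      · obtain rfl := hY hv' hs'
        have := P.mul_mem hs' hs'
        rw [Um_sq] at this
        exact ⟨_, this⟩
    obtain ⟨d, h1⟩ := h1
    obtain ⟨c2, d2, h2, e⟩ := hsurj hv hs _ _ h1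
    exact ⟨c2, d2, h2, mul_right_cancel₀ hv e⟩
  obtain ⟨cs, ds, hs'⟩ : ∃ cs ds, Um 0 v cs ds ∈ P := by
    obtain ⟨c2, d2, h2, rfl⟩ := hU hs
    obtain ⟨c3, d3, h3⟩ := hX _ _ h2
    have := P.mul_mem hs h3
    rw [Um_mul, CharTwo.add_self_eq_zero, add_zero] at this
    exact ⟨_, _, this⟩
  have hsi : Grp.Inv (Um 0 v cs ds) := inv_Um (zero_mul _) fun e => hv (Um_eq_one.mp e).2.1
  have hidx : (P ⊓ AA F).relIndex (P ⊓ U F) = 2 := by
    rw [Subgroup.relIndex, Subgroup.index_eq_two_iff]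
    refine ⟨⟨_, hs', Um_mem_U ..⟩, ?_⟩
    rintro ⟨_, hb, u', v', c', d', rfl⟩
    simp only [Subgroup.mem_subgroupOf, Subgroup.coe_mul, Subgroup.mem_inf, P.mul_mem hb hs', hb, true_and]
    rw [Um_mul, Um_mem_AA, Um_mem_AA]
    by_cases hv' : v' = 0
    · exact Or.inr ⟨⟨hb, hv'⟩, by rw [hv', zero_add]; exact hv⟩
    · exact Or.inl ⟨by rw [hY hv' hb, CharTwo.add_self_eq_zero], fun e => hv' e.2⟩
  obtain ⟨g, hg, -, u2, c2, d2, eg⟩ := h.syl.thompson h.hyp.h1.perfect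
    (inf_le_inf_left _ (by rintro _ ⟨u, c, d, rfl⟩; exact Um_mem_U ..)) hidx hs' hsi.2
  have ha1 : Um u2 0 c2 d2 ∈ P := eg ▸ P.mul_mem (P.mul_mem (P.inv_mem hg) hs') hg
  have ha1i : Grp.Inv (Um u2 0 c2 d2) := by have := hsi.conj g⁻¹; rwa [inv_inv, eg] at this
  have hd2 : d2 ≠ 0 := by rintro rfl; exact ha1i.1 (h.hyp.nt.A_d ha1)
  obtain ⟨l, hl, H⟩ := h.conj_cent ha1 ha1i
  obtain ⟨u3, v3, c3, d3, e3⟩ := H _ ha1 (Commute.refl _)
  have cjc : ∀ {x : Sp F}, Commute x (Um u2 0 c2 d2) → Commute (l * x * l⁻¹) (Um u3 v3 c3 d3) := by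
    intro x hx
    rw [← e3]
    exact hx.map (MulAut.conj l)
  have huv3 : u3 * v3 = 0 := by
    have := (ha1i.conj l).2
    rw [e3, Um_sq] at this
    exact (Um_eq_one.mp this).2.2.1
  have hu3 : u3 = 0 := by
    by_contra hu3
    obtain rfl : v3 = 0 := (mul_eq_zero.mp huv3).resolve_left hu3
    have hlP : l ∈ Pt F := mem_Pt_of_conj hd2 e3
    have c1 : Commute (g⁻¹ * zz * g) (Um u2 0 c2 d2) := by
      rw [← eg]
      have := (Z_commute 0 v cs ds 1 1).symm.map (MulAut.conj g⁻¹)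
      simpa only [MulAut.conj_apply, inv_inv, zz] using this
    obtain ⟨u4, v4, c4, d4, e4⟩ := H _ (P.mul_mem (P.mul_mem (P.inv_mem hg) h.z) hg) c1
    have c2 := cjc c1
    rw [e4] at c2
    obtain rfl := v_eq_zero_of_commute hu3 c2
    have h5 : l * g⁻¹ ∈ Pt F := mem_Pt_of_zz (by
      have : l * g⁻¹ * zz * (l * g⁻¹)⁻¹ = l * (g⁻¹ * zz * g) * l⁻¹ := by group
      rw [this, e4]; exact Um_mem_AA.mpr rfl)
    have h6 : g⁻¹ ∈ Pt F := by simpa using (Pt F).mul_mem ((Pt F).inv_mem hlP) h5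
    refine hv ((Um_mem_AA (u := 0) (c := cs) (d := ds)).mp (mem_AA_of_conj h6 ?_))
    rw [inv_inv, eg]; exact Um_mem_AA.mpr rfl
  subst hu3
  have hv3 : v3 = 0 := by
    by_contra hv3
    obtain ⟨u4, v4, c4, d4, e4⟩ := H _ h.z (commute_A ..)
    obtain ⟨u5, v5, c5, d5, e5⟩ := H _ ht (commute_A ..)
    have c4' := cjc (x := zz) (commute_A ..)
    have c5' := cjc (x := Um u 0 c d) (commute_A ..)
    rw [e4] at c4'; rw [e5] at c5'
    obtain rfl := u_eq_zero_of_commute hv3 c4'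
    obtain rfl := u_eq_zero_of_commute hv3 c5'
    have f4 := congrArg Sp4E.tau e4
    have f5 := congrArg Sp4E.tau e5
    rw [map_mul, map_mul, map_inv, tau_Um] at f4 f5
    rw [tau_zz] at f4
    have h1 : Sp4E.tau l ∈ Pt F := mem_Pt_of_zz (by rw [f4]; exact Um_mem_AA.mpr (by ring))
    have h2 := mem_AA_of_conj h1 (by rw [f5, tau_Um]; exact Um_mem_AA.mpr (by ring))
    exact hu (pow_eq_zero_iff two_ne_zero |>.mp (Um_mem_AA.mp h2))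
  subst hv3
  have hz3 : Um 0 0 c3 d3 ∈ P := e3 ▸ cP hl ha1
  have hz3' := h.hyp.nt.Z hz3 (e3 ▸ (ha1i.conj l).1)
  have e6 : g * l⁻¹ * Um 0 0 c3 d3 * (g * l⁻¹)⁻¹ = Um 0 v cs ds := by rw [← e3, ← eg]; group
  have hm : g * l⁻¹ ∈ P := P.mul_mem hg (P.inv_mem hl)
  generalize g * l⁻¹ = m at e6 hm
  have f6 := congrArg Sp4E.tau e6
  rw [map_mul, map_mul, map_inv, tau_Um, tau_Um, zero_pow two_ne_zero] at f6
  have hmP : Sp4E.tau m ∈ Pt F := mem_Pt_of_conj (by simpa using hz3'.1) f6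
  rw [conj_A hmP] at f6
  have hκ : (Sp4E.tau m).val 0 0 * (Sp4E.tau m).val 2 1 * d3 = v := by simpa [mul_assoc] using (Um_inj f6).1
  have hκ0 : (Sp4E.tau m).val 0 0 * (Sp4E.tau m).val 2 1 ≠ 0 := left_ne_zero_of_mul (hκ ▸ hv)
  have hZd : ∀ c' d', Um 0 0 c' d' ∈ P → d' ≠ 0 → d' = d3 := by
    intro c' d' h1 h2
    have f7 : Sp4E.tau (m * Um 0 0 c' d' * m⁻¹) = Sp4E.tau m * Sp4E.tau (Um 0 0 c' d') * (Sp4E.tau m)⁻¹ := by
      rw [map_mul, map_mul, map_inv]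
    rw [tau_Um, zero_pow two_ne_zero, conj_A hmP] at f7
    obtain ⟨u5, v5, c5, d5, e5⟩ := mem_U_of_tau (f7 ▸ Um_mem_U ..)
    rw [e5, tau_Um] at f7
    have h3 : v5 = (Sp4E.tau m).val 0 0 * (Sp4E.tau m).val 2 1 * d' := by simpa [mul_assoc] using (Um_inj f7).1
    have h4 := hY (h3 ▸ mul_ne_zero hκ0 h2) (e5 ▸ cP hm h1)
    rw [h3, ← hκ] at h4
    exact mul_left_cancel₀ hκ0 h4
  have hd3 := hZd 1 1 h.z one_ne_zero
  have hZ : ∀ c d, Um 0 0 c d ∈ P → (c = 0 ∧ d = 0) ∨ (c = 1 ∧ d = 1) := by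
    intro c' d' h1
    by_cases h2 : Um 0 0 c' d' = 1
    · exact Or.inl (Um_eq_one.mp h2).2.2
    · obtain rfl : d' = 1 := (hZd _ _ h1 (h.hyp.nt.Z h1 h2).2).trans hd3.symm
      exact Or.inr ⟨h.Z_eq' h1 h.z, rfl⟩
  obtain ⟨rfl, rfl⟩ : u = 1 ∧ v = 1 := by
    rcases hZ _ _ (hcomm ht hs) with ⟨h1, -⟩ | ⟨h1, h2⟩
    · exact absurd h1 (mul_ne_zero hu hv)
    · constructor <;> grobner
  refine ⟨h, hZ, fun u' v' c' d' h1 => ⟨?_, ?_⟩, ⟨c, d, k, hk, ek⟩, cs, ds, m, hm, ?_⟩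
  · obtain ⟨c2, d2, h2, rfl⟩ := hU h1
    rcases hZ _ _ h2 with ⟨rfl, -⟩ | ⟨rfl, -⟩ <;> simp
  · by_cases hv' : v' = 0
    · exact Or.inl hv'
    · exact Or.inr (hY hv' h1)
  · obtain ⟨rfl, rfl⟩ := (hZ _ _ hz3).resolve_left fun e => hz3'.1 e.1
    exact e6

end Cfsg.Agent.Sp4E
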