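import Cfsg.Agent.Sp4E.FA2

/-!
The dihedral configuration is impossible when the field has more than two elements.
-/

set_option autoImplicit false
set_option linter.unusedSectionVars false
set_option linter.unusedSimpArgs false

namespace Cfsg.Agent.Sp4E
open Matrix Cfsg.Agent.H9 Cfsg.Lie Grp

variable {F : Type*} [Field F] [CharP F 2]

theorem conj_Um (a b g e u v c d : F) : Um a b g e * Um u v c d * (Um a b g e)⁻¹ =
    Um u v (c + b * u + a * v) (d + a ^ 2 * v + a * u * v) := by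
  rw [Um_inv, Um_mul, Um_mul]; apply Um_congr <;> grobner

theorem conj_zz_U {B : Sp F} (hB : B ∈ U F) (c d : F) : B * Um 0 0 c d * B⁻¹ = Um 0 0 c d := by
  obtain ⟨a, b, g, e, rfl⟩ := hB
  rw [(Z_commute ..).eq, mul_inv_cancel_right]

/-- The involutions normalising `A`. -/
def s1m (u : F) : Sp F :=
  ⟨!![1, u, 0, 1 + u ^ 2; 0, 1, 0, 0; 0, 1, 1, u; 0, 0, 0, 1], by
    rw [transpose4, J_def, mul4, mul4]; apply mat4_congr <;> grobner⟩

theorem s1m_val (u : F) : (s1m u).val = !![1, u, 0, 1 + u ^ 2; 0, 1, 0, 0; 0, 1, 1, u; 0, 0, 0, 1] := rfl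

theorem conj_s1m (g e u : F) : Um 0 0 g e * s1m u * (Um 0 0 g e)⁻¹ = s1m (u + g) := by
  rw [Um_inv]
  apply Sp.ext
  rw [Sp.val_mul, Sp.val_mul, Um_val, Um_val, s1m_val, s1m_val, mul4, mul4]
  apply mat4_congr <;> grobner

theorem s1m_zz : s1m (0 : F) * zz * (s1m 0)⁻¹ = Um 1 0 1 1 := by
  rw [zz, conj_A ⟨rfl, rfl, rfl⟩]
  simp only [s1m_val, of_apply, cons_val', cons_val, cons_val_fin_one, cons_val_one, cons_val_zero]
  apply Um_congr <;> ring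

theorem s1m_mem_Rat (F₀ : Subfield F) : s1m 0 ∈ Rat F₀ := by
  intro i j
  have h1 := F₀.one_mem; have h0 := F₀.zero_mem
  fin_cases i <;> fin_cases j <;> simp [s1m_val]

theorem tau_tau_s1m : tau (tau (s1m (0 : F))) = s1m 0 := by
  rw [tau_tau]
  apply Sp.ext
  rw [mapSp_val, s1m_val, map4]
  simp

namespace D8
variable [Finite F] {P : Subgroup (Sp F)} (h : D8 P)
include h

theorem tau : D8 (P.map Sp4E.tau) := by
  have key : ∀ {u v c d : F}, Um u v c d ∈ P.map Sp4E.tau → ∃ u' c' d', Um u' u c' d' ∈ P ∧ v = u' ^ 2 ∧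
      c = d' + u' * c' + u' ^ 2 * u ∧ d = c' ^ 2 + u' * u * c' + u * d' := by
    rintro u v c d ⟨g, hg, e⟩
    obtain ⟨u', v', c', d', rfl⟩ := mem_U_of_tau (e ▸ Um_mem_U ..)
    rw [tau_Um] at e
    obtain ⟨rfl, rfl, rfl, rfl⟩ := Um_inj e
    exact ⟨u', c', d', hg, rfl, rfl, rfl⟩
  refine ⟨h.std.tau, fun c d h1 => ?_, fun u v c d h1 => ?_, ?_, ?_⟩
  · obtain ⟨u', c', d', h2, h3, rfl, rfl⟩ := key h1
    obtain rfl := pow_eq_zero_iff two_ne_zero |>.mp h3.symm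
    rcases h.Z _ _ h2 with ⟨rfl, rfl⟩ | ⟨rfl, rfl⟩ <;> simp
  · obtain ⟨u', c', d', h2, rfl, -, -⟩ := key h1
    refine ⟨(h.uv _ _ _ _ h2).2, ?_⟩
    rcases (h.uv _ _ _ _ h2).1 with rfl | rfl <;> simp
  · obtain ⟨c, d, k, hk, e⟩ := h.s
    have := congrArg Sp4E.tau e
    rw [map_mul, map_mul, map_inv, tau_zz, tau_Um, zero_pow two_ne_zero] at this
    exact ⟨_, _, _, ⟨k, hk, rfl⟩, this⟩
  · obtain ⟨c, d, k, hk, e⟩ := h.t
    have := congrArg Sp4E.tau e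
    rw [map_mul, map_mul, map_inv, tau_zz, tau_Um, one_pow] at this
    exact ⟨_, _, _, ⟨k, hk, rfl⟩, this⟩

theorem cj {B : Sp F} (hB : B ∈ U F) : D8 (Sp4E.cj B P) := by
  have key : ∀ {k x : Sp F}, k * zz * k⁻¹ = x → B * k * B⁻¹ * zz * (B * k * B⁻¹)⁻¹ = B * x * B⁻¹ := by
    intro k x e
    have := conj_zz_U ((U F).inv_mem hB) 1 1
    calc B * k * B⁻¹ * zz * (B * k * B⁻¹)⁻¹ = B * (k * (B⁻¹ * zz * B⁻¹⁻¹) * k⁻¹) * B⁻¹ := by group
      _ = _ := by rw [zz, this, ← zz, e]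
  refine ⟨h.std.cj hB, fun c d h1 => ?_, fun u v c d h1 => ?_, ?_, ?_⟩
  · rw [mem_cj, ← inv_inv B, inv_inv B⁻¹, conj_zz_U ((U F).inv_mem hB)] at h1
    exact h.Z _ _ h1
  · rw [mem_cj, ← inv_inv B, inv_inv B⁻¹] at h1
    obtain ⟨a, b, g, e, hB'⟩ := (U F).inv_mem hB
    rw [hB', conj_Um] at h1
    exact h.uv _ _ _ _ h1
  · obtain ⟨c, d, k, hk, e⟩ := h.t
    have := key e
    obtain ⟨a, b, g, e, rfl⟩ := hB
    rw [conj_Um] at this
    exact ⟨_, _, _, conj_mem_cj hk, this⟩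
  · obtain ⟨c, d, k, hk, e⟩ := h.s
    have := key e
    obtain ⟨a, b, g, e, rfl⟩ := hB
    rw [conj_Um] at this
    exact ⟨_, _, _, conj_mem_cj hk, this⟩

theorem A_cases {c d u' c' d' : F} (ht : Um 1 0 c d ∈ P) (h1 : Um u' 0 c' d' ∈ P) :
    Um u' 0 c' d' = 1 ∨ Um u' 0 c' d' = zz ∨ Um u' 0 c' d' = Um 1 0 c d ∨ Um u' 0 c' d' = Um 1 0 (c + 1) d := by
  rcases (h.uv _ _ _ _ h1).1 with rfl | rfl
  · rcases h.Z _ _ h1 with ⟨rfl, rfl⟩ | ⟨rfl, rfl⟩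
    · exact Or.inl Um_zero
    · exact Or.inr (Or.inl rfl)
  · have := P.mul_mem h1 ht
    rw [Um_mul, CharTwo.add_self_eq_zero, add_zero] at this
    rcases h.Z _ _ this with ⟨a, b⟩ | ⟨a, b⟩
    · refine Or.inr (Or.inr (Or.inl (Um_congr rfl rfl ?_ ?_))) <;> grobner
    · refine Or.inr (Or.inr (Or.inr (Um_congr rfl rfl ?_ ?_))) <;> grobner

theorem exists_s1 {c d : F} (ht : Um 1 0 c d ∈ P) : d = 1 ∧ ∃ s ∈ P, s ∈ Pt F ∧ s.val 0 0 = 1 ∧ s * s = 1 ∧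
    s * Um 1 0 c d * s⁻¹ = Um 1 0 c d ∧ s * zz * s⁻¹ = Um 1 0 (c + 1) d := by
  have cP : ∀ {g x : Sp F}, g ∈ P → x ∈ P → g * x * g⁻¹ ∈ P := fun hg hx =>
    P.mul_mem (P.mul_mem hg hx) (P.inv_mem hg)
  obtain ⟨c0, d0, k, hk, ek⟩ := h.t
  obtain ⟨cs, ds, k2, hk2, ek2⟩ := h.s
  have hs : Um 0 1 cs ds ∈ P := ek2 ▸ cP hk2 h.std.z
  have hkP : k ∈ Pt F := mem_Pt_of_zz (ek ▸ Um_mem_AA.mpr rfl)
  have hsP : k * Um 0 1 cs ds * k⁻¹ ∈ Pt F :=
    (Pt F).mul_mem ((Pt F).mul_mem hkP (Um_mem_Pt ..)) ((Pt F).inv_mem hkP)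
  have hs0 : (k * Um 0 1 cs ds * k⁻¹).val 0 0 = 1 := by
    have h1 : (k * Um 0 1 cs ds * k⁻¹) • (e0 : V F) = e0 := by
      rw [mul_smul, mul_smul, smul_of_point ((Pt F).inv_mem hkP), Sp.smul_smul', Um_e0,
        ← smul_of_point ((Pt F).inv_mem hkP), smul_inv_smul]
    rw [Sp.smul_e0] at h1
    exact congrFun h1 0
  have hsi : Grp.Inv (k * Um 0 1 cs ds * k⁻¹) := (inv_Um (zero_mul _) fun e => by simp [Um_eq_one] at e).conj k
  have hc : Commute (k * Um 0 1 cs ds * k⁻¹) (Um 1 0 c0 d0) := by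
    rw [← ek]; exact (Z_commute 0 1 cs ds 1 1).map (MulAut.conj k)
  have hnA : k * Um 0 1 cs ds * k⁻¹ ∉ AA F := fun e => one_ne_zero (Um_mem_AA.mp (mem_AA_of_conj hkP e))
  have hsP' := cP hk hs
  generalize k * Um 0 1 cs ds * k⁻¹ = s at hsP hs0 hsi hc hnA hsP'
  have ht0 : Um 1 0 c0 d0 ∈ P := ek ▸ cP hk h.std.z
  have ez : s * zz * s⁻¹ = Um 1 0 (c0 + 1) d0 := by
    obtain ⟨u', c', d', e⟩ := conj_mem_AA hsP zz_mem_AA
    rcases h.A_cases ht0 (e ▸ cP hsP' h.std.z) with e' | e' | e' | e' <;> rw [← e] at e'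
    · exact absurd e' (inv_zz.conj s).1
    · obtain ⟨u1, v1, c1, d1, rfl⟩ := mem_U_of_commute (c := 1) (d := 1) one_ne_zero one_ne_zero
        (mul_inv_eq_iff_eq_mul.mp e')
      exact absurd (Um_mem_AA.mpr (v_eq_zero_of_commute one_ne_zero hc)) hnA
    · rw [mul_inv_eq_iff_eq_mul, ← hc.eq] at e'
      simpa [zz, Um_eq_iff] using mul_left_cancel e'
    · exact e'
  have hd : d0 = 1 := by
    have := ez
    rw [zz, conj_A hsP, hs0] at this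
    simpa using (Um_inj this).2.2.2.symm
  subst hd
  have et : s * Um 1 0 c0 1 * s⁻¹ = Um 1 0 c0 1 := by rw [hc.eq, mul_inv_cancel_right]
  rcases h.A_cases ht0 ht with e | e | e | e
  · simp [Um_eq_one] at e
  · simp [zz, Um_eq_iff] at e
  · obtain ⟨-, -, rfl, rfl⟩ := Um_inj e
    exact ⟨rfl, s, hsP', hsP, hs0, hsi.2, et, ez⟩
  · obtain ⟨-, -, rfl, rfl⟩ := Um_inj e
    refine ⟨rfl, ?_⟩
    have e1 : Um 0 1 cs ds * Um 1 0 c0 1 * (Um 0 1 cs ds)⁻¹ = Um 1 0 (c0 + 1) 1 := by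
      rw [conj_Um]; apply Um_congr <;> ring
    have e2 : Um 0 1 cs ds * Um 1 0 (c0 + 1) 1 * (Um 0 1 cs ds)⁻¹ = Um 1 0 (c0 + 1 + 1) 1 := by
      rw [conj_Um]; apply Um_congr <;> ring
    have e3 := conj_zz_U (Um_mem_U 0 1 cs ds) 1 1
    refine ⟨_, cP hs hsP', (Pt F).mul_mem ((Pt F).mul_mem (Um_mem_Pt ..) hsP) ((Pt F).inv_mem (Um_mem_Pt ..)),
      ?_, (hsi.conj _).2, ?_, ?_⟩
    · have h1 : (Um 0 1 cs ds * s * (Um 0 1 cs ds)⁻¹) • (e0 : V F) = e0 := by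
        rw [mul_smul, mul_smul, Um_inv, Um_e0, smul_of_point hsP, hs0, one_smul, Um_e0]
      rw [Sp.smul_e0] at h1
      exact congrFun h1 0
    · rw [← e1]
      conv_rhs => rw [← et]
      group
    · rw [← e2, ← ez]
      conv_lhs => rw [zz, ← e3, ← zz]
      group

theorem exists_s1m (ht : Um 1 0 0 1 ∈ P) (hs : Um 0 1 1 0 ∈ P) : ∃ u, s1m u ∈ P := by
  obtain ⟨-, s, hsP, hP, h0, h1, h2, h3⟩ := h.exists_s1 ht
  rw [conj_A hP, h0] at h2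
  rw [zz, conj_A hP, h0] at h3
  obtain ⟨a1, -, a2, -⟩ := Um_inj h2
  obtain ⟨a3, -, a4, -⟩ := Um_inj h3
  obtain ⟨p1, p2, p3⟩ := hP
  obtain ⟨p4, p5, p6, -⟩ := pt_entries p1 p2 p3
  have h13 : s.val 0 1 * s.val 3 3 + s.val 1 1 * s.val 2 3 + s.val 2 1 * s.val 1 3 + s.val 3 1 * s.val 0 3 = 0 :=
    s.col 1 3
  have h23 : s.val 0 2 * s.val 3 3 + s.val 1 2 * s.val 2 3 + s.val 2 2 * s.val 1 3 + s.val 3 2 * s.val 0 3 = 0 :=
    s.col 2 3
  have q : (s * s).val 0 1 = 0 := by rw [h1]; rfl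
  rw [val_mul_apply] at q
  have ev : s.val = !![1, s.val 0 1, 0, s.val 0 3; 0, 1, 0, 0; 0, 1, 1, s.val 0 1; 0, 0, 0, 1] := by
    conv_lhs => rw [eta4 s.val]
    apply mat4_congr <;> grobner
  generalize s.val 0 1 = u at ev
  generalize s.val 0 3 = d at ev
  have e : Um 0 1 1 0 * s * (Um 0 1 1 0 * s) * (Um 0 1 1 0 * s) = Um 0 0 0 (1 + d + u ^ 2) := by
    apply Sp.ext
    simp only [Sp.val_mul, Um_val, ev, mul4]
    apply mat4_congr <;> grobner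
  have hm := P.mul_mem hs hsP
  have := h.std.hyp.nt.B_det (e ▸ P.mul_mem (P.mul_mem hm hm) hm) (by ring)
  have hd : d = 1 + u ^ 2 := by have := (Um_eq_one.mp this).2.2.2; grobner
  refine ⟨u, ?_⟩
  have : s1m u = s := Sp.ext (by rw [ev, hd]; rfl)
  rwa [this]

theorem final (h4 : (⊥ : Subfield F) ≠ ⊤) (ht : Um 1 0 0 1 ∈ P) (hs : Um 0 1 1 0 ∈ P) (h1 : s1m 0 ∈ P)
    (h2 : Sp4E.tau (s1m 0) ∈ P) : False := by
  let M := P ⊓ Rat (⊥ : Subfield F)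
  have o1 := (⊥ : Subfield F).one_mem
  have o0 := (⊥ : Subfield F).zero_mem
  have zM : zz ∈ M := ⟨h.std.z, Um_mem_Rat o0 o0 o1 o1⟩
  have tM : Um 1 0 0 1 ∈ M := ⟨ht, Um_mem_Rat o1 o0 o0 o1⟩
  have sM : Um 0 1 1 0 ∈ M := ⟨hs, Um_mem_Rat o0 o1 o1 o0⟩
  have r1M : s1m 0 ∈ M := ⟨h1, s1m_mem_Rat _⟩
  have r2M : Sp4E.tau (s1m 0) ∈ M := ⟨h2, tau_mem (s1m_mem_Rat _)⟩
  have ZM : ∀ c d, Um 0 0 c d ∈ P → Um 0 0 c d ∈ M := by
    intro c d h3
    rcases h.Z _ _ h3 with ⟨rfl, rfl⟩ | ⟨rfl, rfl⟩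
    · rw [Um_zero]; exact M.one_mem
    · exact zM
  have BM : ∀ v c d, Um 0 v c d ∈ P → Um 0 v c d ∈ M := by
    intro v c d h3
    rcases (h.uv _ _ _ _ h3).2 with rfl | rfl
    · exact ZM _ _ h3
    · have h5 := P.mul_mem h3 hs
      rw [← M.mul_mem_cancel_right sM]
      rw [Um_mul, add_zero, CharTwo.add_self_eq_zero] at h5 ⊢
      exact ZM _ _ h5
  have SM : P ⊓ U F ≤ M := by
    rintro _ ⟨h3, u, v, c, d, rfl⟩
    rcases (h.uv _ _ _ _ h3).1 with rfl | rfl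
    · exact BM _ _ _ h3
    · have h5 := P.mul_mem h3 ht
      rw [← M.mul_mem_cancel_right tM]
      rw [Um_mul, CharTwo.add_self_eq_zero] at h5 ⊢
      exact BM _ _ _ h5
  have c1 : s1m (0 : F) * zz * (s1m 0)⁻¹ = Um 1 0 1 1 := s1m_zz
  have c2 : Um (0 : F) 1 1 0 * Um 1 0 1 1 * (Um 0 1 1 0)⁻¹ = Um 1 0 0 1 := by
    rw [conj_Um]; apply Um_congr <;> grobner
  have c3 : Sp4E.tau (s1m (0 : F)) * zz * (Sp4E.tau (s1m 0))⁻¹ = Um 0 1 0 1 := by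
    have := congrArg Sp4E.tau c1
    rw [map_mul, map_mul, map_inv, tau_zz, tau_Um] at this
    rw [this]; apply Um_congr <;> grobner
  have c4 : Um (1 : F) 0 0 1 * Um 0 1 0 1 * (Um 1 0 0 1)⁻¹ = Um 0 1 1 0 := by
    rw [conj_Um]; apply Um_congr <;> grobner
  have cls : ∀ j ∈ M, Grp.Inv j → ∃ m ∈ M, m * zz * m⁻¹ = j := by
    intro j hj hi
    obtain ⟨m, hm, h3, u, v, c, d, e⟩ := (IsSyl.mono h.std.syl SM inf_le_left).conj_elt hj hi.two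
    suffices ∃ m' ∈ M, m' * zz * m'⁻¹ = Um u v c d by
      obtain ⟨m', hm', e'⟩ := this
      refine ⟨m⁻¹ * m', M.mul_mem (M.inv_mem hm) hm', ?_⟩
      calc m⁻¹ * m' * zz * (m⁻¹ * m')⁻¹ = m⁻¹ * (m' * zz * m'⁻¹) * m := by group
        _ = j := by rw [e', ← e]; group
    have hi' := hi.conj m
    rw [e] at h3 hi'
    have huv : u * v = 0 := by
      have := hi'.2
      rw [Um_sq] at this
      exact (Um_eq_one.mp this).2.2.1
    rcases (h.uv _ _ _ _ h3).2 with rfl | rfl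
    · rcases h.A_cases ht h3 with e | e | e | e
      · exact absurd e hi'.1
      · exact ⟨1, M.one_mem, by rw [e]; group⟩
      · exact ⟨_, M.mul_mem sM r1M, by rw [e, ← c2, ← c1]; group⟩
      · exact ⟨_, r1M, by rw [e, c1, zero_add]⟩
    · obtain rfl : u = 0 := by simpa using huv
      have h5 := P.mul_mem h3 hs
      rw [Um_mul, add_zero, CharTwo.add_self_eq_zero] at h5
      rcases h.Z _ _ h5 with ⟨a, b⟩ | ⟨a, b⟩
      · refine ⟨_, M.mul_mem tM r2M, ?_⟩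
        rw [show Um (0 : F) 1 c d = Um 0 1 1 0 from Um_congr rfl rfl (by grobner) (by grobner), ← c4, ← c3]; group
      · refine ⟨_, r2M, ?_⟩
        rw [c3]; apply Um_congr <;> grobner
  have se : SE' P M := by
    refine ⟨inf_le_left, fun g hg t ht hi hgt => ?_, h.std.cit, fun e => ?_, zz, zM, inv_zz⟩
    · obtain ⟨m, hm, e⟩ := cls t ht hi
      obtain ⟨m', hm', e'⟩ := cls _ hgt (hi.conj g)
      have h5 : m'⁻¹ * g * m ∈ M := SM ⟨P.mul_mem (P.mul_mem (P.inv_mem hm'.1) hg) hm.1,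
        mem_U_of_commute (c := 1) (d := 1) one_ne_zero one_ne_zero (by
          show m'⁻¹ * g * m * zz = zz * (m'⁻¹ * g * m)
          calc m'⁻¹ * g * m * zz = m'⁻¹ * (g * (m * zz * m⁻¹) * g⁻¹) * g * m := by group
            _ = _ := by rw [e, ← e']; group)⟩
      simpa [mul_assoc] using M.mul_mem (M.mul_mem hm' h5) (M.inv_mem hm)
    · exact h4 (h.std.hyp.h1.not_le_Rat fun g hg => (e.ge hg).2)
  obtain ⟨n, hnP, hn, hnM⟩ := se.exists_not_mem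
  obtain ⟨d1, a1, a2, a3⟩ := se.trans hnP hn hnM zM inv_zz tM (inv_Um (mul_zero _) (by simp [Um_eq_one]))
  obtain ⟨d2, b1, b2, b3⟩ := se.trans hnP hn hnM zM inv_zz sM (inv_Um (zero_mul _) (by simp [Um_eq_one]))
  have hc := se.comm hnP hn hnM a1 a2 b1 b2
  have iz : IsC (zz : Sp F) e0 := by simpa [zz] using isC_A (0 : F) 1 1
  have it : IsC (Um (1 : F) 0 0 1) e0 := by simpa using isC_A (1 : F) 0 1
  have is : IsC (Um (0 : F) 1 1 0) e1 := by simpa using isC_B (0 : F) 1 1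
  have f1 : d1 • (e0 : V F) = e0 := (a3 ▸ iz.conj d1).unique it
  have f2 : d2 • (e0 : V F) = e1 := (b3 ▸ iz.conj d2).unique is
  have f3 : d1 • (e1 : V F) = e1 + (0 : F) • e0 := by
    rw [zero_smul, add_zero, ← f2, ← mul_smul, hc, mul_smul, f1]
  rw [zz, conj_zz_U ⟨_, _, _, _, mem_U_of f1 f3⟩] at a3
  simp [Um_eq_iff] at a3

theorem false (h4 : (⊥ : Subfield F) ≠ ⊤) : False := by
  have cP : ∀ {g x : Sp F}, g ∈ P → x ∈ P → g * x * g⁻¹ ∈ P := fun hg hx =>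
    P.mul_mem (P.mul_mem hg hx) (P.inv_mem hg)
  obtain ⟨c, d, k, hk, ek⟩ := h.t
  obtain ⟨c', d', k', hk', ek'⟩ := h.s
  have ht : Um 1 0 c d ∈ P := ek ▸ cP hk h.std.z
  have hs : Um 0 1 c' d' ∈ P := ek' ▸ cP hk' h.std.z
  obtain rfl := (h.exists_s1 ht).1
  have hs2 : Sp4E.tau (Um 0 1 c' d') ∈ P.map Sp4E.tau := ⟨_, hs, rfl⟩
  rw [tau_Um, zero_pow two_ne_zero] at hs2
  have hd' := (h.tau.exists_s1 hs2).1
  have h1 := h.cj (Um_mem_U (c' + 1) c 0 0)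
  have ht1 := conj_mem_cj (B := Um (c' + 1) c 0 0) ht
  have hs1 := conj_mem_cj (B := Um (c' + 1) c 0 0) hs
  rw [conj_Um] at ht1 hs1
  rw [show Um (1 : F) 0 (c + c * 1 + (c' + 1) * 0) (1 + (c' + 1) ^ 2 * 0 + (c' + 1) * 1 * 0) = Um 1 0 0 1 from
    Um_congr rfl rfl (by grobner) (by grobner)] at ht1
  rw [show Um (0 : F) 1 (c' + c * 0 + (c' + 1) * 1) (d' + (c' + 1) ^ 2 * 1 + (c' + 1) * 0 * 1) = Um 0 1 1 0 from
    Um_congr rfl rfl (by grobner) (by grobner)] at hs1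
  generalize Sp4E.cj (Um (c' + 1) c 0 0) P = P1 at h1 ht1 hs1
  have tt : Sp4E.tau (Um (1 : F) 0 0 1) = Um 0 1 1 0 := by rw [tau_Um]; apply Um_congr <;> ring
  have ts : Sp4E.tau (Um (0 : F) 1 1 0) = Um 1 0 0 1 := by rw [tau_Um]; apply Um_congr <;> ring
  obtain ⟨u, hu⟩ := h1.exists_s1m ht1 hs1
  obtain ⟨u', hu'⟩ := h1.tau.exists_s1m ⟨_, hs1, ts⟩ ⟨_, ht1, tt⟩
  have fix : ∀ a b g e : F, Um 0 0 u u' * Um a b g e * (Um 0 0 u u')⁻¹ = Um a b g e := fun a b g e => by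
    rw [← (Z_commute ..).eq, mul_inv_cancel_right]
  refine (h1.cj (Um_mem_U 0 0 u u')).final h4 ?_ ?_ ?_ ?_
  · have := conj_mem_cj (B := Um 0 0 u u') ht1
    rwa [fix] at this
  · have := conj_mem_cj (B := Um 0 0 u u') hs1
    rwa [fix] at this
  · have := conj_mem_cj (B := Um 0 0 u u') hu
    rwa [conj_s1m, CharTwo.add_self_eq_zero] at this
  · have := conj_mem_cj (B := Sp4E.tau (Um 0 0 u u')) hu'
    rw [← map_tau_cj, tau_Um] at this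
    simp only [zero_pow two_ne_zero, zero_mul, add_zero] at this
    rw [conj_s1m, CharTwo.add_self_eq_zero, ← tau_tau_s1m] at this
    obtain ⟨x, hx, e⟩ := this
    exact tau_injective e ▸ hx

end D8

theorem Std.not_FA [Finite F] {P : Subgroup (Sp F)} (h : Std P) (h4 : (⊥ : Subfield F) ≠ ⊤) {u c d : F}
    (hu : u ≠ 0) {k : Sp F} (hk : k ∈ P) (ek : k * zz * k⁻¹ = Um u 0 c d) : False := by
  by_cases hA : ∀ u v c d, Um u v c d ∈ P → v = 0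
  · exact h.not_FA1 hA hu (ek ▸ P.mul_mem (P.mul_mem hk h.z) (P.inv_mem hk))
  · push Not at hA
    obtain ⟨u1, v, c1, d1, hs, hv⟩ := hA
    exact (h.d8 hu hk ek hv hs).false h4

theorem Std.ti [Finite F] {P : Subgroup (Sp F)} (h : Std P) (h4 : (⊥ : Subfield F) ≠ ⊤) :
    ∀ u v c d, Um u v c d ∈ P → u * v = 0 → u = 0 ∧ v = 0 := by
  refine h.ti_or.resolve_right ?_
  rintro ⟨u, v, c, d, hne, k, hk, ek⟩
  have huv : u * v = 0 := by
    have := (inv_zz.conj k).2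
    rw [ek, Um_sq] at this
    exact (Um_eq_one.mp this).2.2.1
  by_cases hu : u = 0
  · subst hu
    have := congrArg Sp4E.tau ek
    rw [map_mul, map_mul, map_inv, tau_zz, tau_Um, zero_pow two_ne_zero] at this
    exact h.tau.not_FA h4 (fun e => hne ⟨rfl, e⟩) ⟨k, hk, rfl⟩ this
  · obtain rfl := (mul_eq_zero.mp huv).resolve_left hu
    exact h.not_FA h4 hu hk ek

end Cfsg.Agent.Sp4E
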