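import Mathlib

/-!
Strongly embedded subgroups in groups whose involution centralisers are 2-groups.
-/

set_option autoImplicit false
set_option linter.style.haveILetI false
set_option linter.unusedSimpArgs false

namespace Cfsg.Agent.Sp4E.Grp

variable {G : Type*} [Group G]

/-- Involutions. -/
def Inv (t : G) : Prop := t ≠ 1 ∧ t * t = 1

/-- Elements of 2-power order. -/
def Two (x : G) : Prop := ∃ k : ℕ, x ^ 2 ^ k = 1

theorem Inv.inv_eq {t : G} (h : Inv t) : t⁻¹ = t := inv_eq_of_mul_eq_one_right h.2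

theorem Inv.conj {t : G} (h : Inv t) (g : G) : Inv (g * t * g⁻¹) := by
  refine ⟨fun e => h.1 ?_, ?_⟩
  · have : t = g⁻¹ * (g * t * g⁻¹) * g := by group
    rw [this, e]; group
  · calc g * t * g⁻¹ * (g * t * g⁻¹) = g * (t * t) * g⁻¹ := by group
      _ = 1 := by rw [h.2]; group

theorem Inv.two {t : G} (h : Inv t) : Two t := ⟨1, by rw [pow_one, sq, h.2]⟩

theorem Two.conj {x : G} (h : Two x) (g : G) : Two (g * x * g⁻¹) := by
  obtain ⟨k, hk⟩ := h
  exact ⟨k, by rw [conj_pow, hk]; group⟩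

theorem Two.exists_inv {x : G} (h : Two x) (h1 : x ≠ 1) : ∃ j : ℕ, Inv (x ^ j) := by
  obtain ⟨k, hk⟩ := h
  induction k with
  | zero => exact absurd (by simpa using hk) h1
  | succ k ih =>
    by_cases e : x ^ 2 ^ k = 1
    · exact ih e
    · exact ⟨2 ^ k, e, by rw [← pow_add, ← two_mul, ← pow_succ', hk]⟩

theorem Two.of_sq {x : G} (h : Two (x * x)) : Two x := by
  obtain ⟨k, hk⟩ := h
  exact ⟨k + 1, by rw [pow_succ', pow_mul, sq, hk]⟩

theorem two_of_isPGroup {S : Subgroup G} (hS : IsPGroup 2 S) {x : G} (hx : x ∈ S) : Two x := by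
  obtain ⟨k, hk⟩ := hS ⟨x, hx⟩
  exact ⟨k, congrArg Subtype.val hk⟩

theorem isPGroup_of_two {S : Subgroup G} (h : ∀ x ∈ S, Two x) : IsPGroup 2 S := fun x => by
  obtain ⟨k, hk⟩ := h x x.2
  exact ⟨k, Subtype.ext hk⟩

theorem inv_conj_pow {s r : G} (hs : s * s = 1) (h : s * r * s = r⁻¹) (k : ℕ) : s * r ^ k * s = (r ^ k)⁻¹ := by
  have hi : s⁻¹ = s := inv_eq_of_mul_eq_one_right hs
  calc s * r ^ k * s = s * r ^ k * s⁻¹ := by rw [hi]
    _ = (s * r * s⁻¹) ^ k := by rw [conj_pow]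
    _ = _ := by rw [hi, h, inv_pow]

/-- Two involutions are conjugate or commute with a common involution. -/
theorem dihedral [Finite G] {s t : G} (hs : s * s = 1) (ht : t * t = 1) :
    (∃ k : ℕ, (s * t) ^ k * s * ((s * t) ^ k)⁻¹ = t) ∨
      ∃ k : ℕ, Inv ((s * t) ^ k) ∧ Commute ((s * t) ^ k) s ∧ Commute ((s * t) ^ k) t := by
  have si : s⁻¹ = s := inv_eq_of_mul_eq_one_right hs
  have ti : t⁻¹ = t := inv_eq_of_mul_eq_one_right ht
  have h1 : s * (s * t) * s = (s * t)⁻¹ := by rw [← mul_assoc, hs, one_mul, mul_inv_rev, si, ti]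
  have h2 : t * (s * t) * t = (s * t)⁻¹ := by rw [mul_assoc, mul_assoc, ht, mul_one, mul_inv_rev, si, ti]
  set r := s * t with hr
  have hn := pow_orderOf_eq_one r
  have hpos := orderOf_pos r
  rcases Nat.even_or_odd' (orderOf r) with ⟨k, hk | hk⟩
  · right
    have hkk : r ^ k * r ^ k = 1 := by rw [← pow_add, ← two_mul, ← hk, hn]
    have hi : (r ^ k)⁻¹ = r ^ k := inv_eq_of_mul_eq_one_right hkk
    refine ⟨k, ⟨pow_ne_one_of_lt_orderOf (by omega) (by omega), hkk⟩, ?_, ?_⟩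
    · have := inv_conj_pow hs h1 k
      rw [hi] at this
      show r ^ k * s = s * r ^ k
      calc r ^ k * s = s * r ^ k * s * s := by rw [this]
        _ = _ := by rw [mul_assoc, hs, mul_one]
    · have := inv_conj_pow ht h2 k
      rw [hi] at this
      show r ^ k * t = t * r ^ k
      calc r ^ k * t = t * r ^ k * t * t := by rw [this]
        _ = _ := by rw [mul_assoc, ht, mul_one]
  · left
    refine ⟨k, ?_⟩
    have e := inv_conj_pow hs h1 k
    have e2 : r ^ k * r ^ k * r = 1 := by rw [← pow_add, ← two_mul, ← pow_succ, ← hk, hn]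
    rw [← e]
    have e3 : r ^ k * r ^ k = r⁻¹ := eq_inv_of_mul_eq_one_left e2
    calc r ^ k * s * (s * r ^ k * s) = r ^ k * (s * s) * r ^ k * s := by group
      _ = r⁻¹ * s := by rw [hs, mul_one, e3]
      _ = t := by rw [hr, mul_inv_rev, si, ti, mul_assoc, hs, mul_one]

/-- The hypotheses: `M` is strongly embedded and involution centralisers are 2-groups. -/
structure SE (M : Subgroup G) : Prop where
  se : ∀ g t, t ∈ M → Inv t → g * t * g⁻¹ ∈ M → g ∈ M
  cit : ∀ t x : G, Inv t → Commute x t → Two x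
  ne_top : M ≠ ⊤
  ex : ∃ t ∈ M, Inv t

namespace SE
variable {M : Subgroup G} (h : SE M)
include h

theorem mem_of_commute {t x : G} (ht : t ∈ M) (hi : Inv t) (hc : Commute x t) : x ∈ M :=
  h.se x t ht hi (by rw [hc.eq, mul_inv_cancel_right]; exact ht)

theorem eq_one_of_two {n x : G} (hn : n ∉ M) (hx : x ∈ M) (hx' : n * x * n⁻¹ ∈ M) (h2 : Two x) : x = 1 := by
  by_contra h1
  obtain ⟨j, hj⟩ := h2.exists_inv h1
  exact hn (h.se n _ (M.pow_mem hx j) hj (by rw [← conj_pow]; exact M.pow_mem hx' j))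

theorem exists_conj [Finite G] {t : G} (ht : Inv t) : ∃ g : G, g⁻¹ * t * g ∈ M := by
  by_cases hm : t ∈ M
  · exact ⟨1, by simpa using hm⟩
  obtain ⟨s, hs, hi⟩ := h.ex
  rcases dihedral hi.2 ht.2 with ⟨k, hk⟩ | ⟨k, h1, h2, h3⟩
  · refine ⟨(s * t) ^ k, ?_⟩
    generalize (s * t) ^ k = r at hk
    rw [← hk]; simpa [mul_assoc] using hs
  · exact absurd (h.mem_of_commute (h.mem_of_commute hs hi h2) h1 h3.symm) hm

open Classical in
theorem card_inv [Fintype G] [Fintype (G ⧸ M)] :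
    (Finset.univ.filter fun t : G => Inv t).card =
      Fintype.card (G ⧸ M) * (Finset.univ.filter fun t : G => Inv t ∧ t ∈ M).card := by
  rw [← Finset.card_univ, ← Finset.card_product]
  symm
  refine Finset.card_bij (fun p _ => p.1.out * p.2 * p.1.out⁻¹) ?_ ?_ ?_
  · intro p hp
    simp only [Finset.mem_product, Finset.mem_filter, Finset.mem_univ, true_and] at hp ⊢
    exact hp.1.conj _
  · rintro ⟨c, t⟩ hp ⟨c', t'⟩ hp' e
    simp only [Finset.mem_product, Finset.mem_filter, Finset.mem_univ, true_and] at hp hp' e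
    have h1 : c'.out⁻¹ * c.out ∈ M := h.se _ t hp.2 hp.1 (by
      have : c'.out⁻¹ * c.out * t * (c'.out⁻¹ * c.out)⁻¹ = c'.out⁻¹ * (c.out * t * c.out⁻¹) * c'.out := by group
      rw [this, e]; simpa [mul_assoc] using hp'.2)
    have h2 : c' = c := by
      rw [← QuotientGroup.out_eq' c, ← QuotientGroup.out_eq' c', QuotientGroup.eq]; exact h1
    subst h2
    simpa using e
  · intro t ht
    simp only [Finset.mem_filter, Finset.mem_univ, true_and] at ht
    obtain ⟨g, hg⟩ := h.exists_conj ht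
    obtain ⟨m, hm⟩ := QuotientGroup.mk_out_eq_mul M g
    refine ⟨((g : G ⧸ M), (g : G ⧸ M).out⁻¹ * t * (g : G ⧸ M).out), ?_, by simp [mul_assoc]⟩
    simp only [Finset.mem_product, Finset.mem_filter, Finset.mem_univ, true_and]
    refine ⟨by simpa using ht.conj (g : G ⧸ M).out⁻¹, ?_⟩
    rw [hm]
    have : (g * m)⁻¹ * t * (g * m) = (m : G)⁻¹ * (g⁻¹ * t * g) * m := by group
    rw [this]
    exact M.mul_mem (M.mul_mem (M.inv_mem m.2) hg) m.2

theorem conj_inj {n t d d' : G} (hn : n ∉ M) (ht : Inv t) (hd : d ∈ M) (hd' : d' ∈ M) (h1 : n * d * n⁻¹ ∈ M)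
    (h2 : n * d' * n⁻¹ ∈ M) (e : d * t * d⁻¹ = d' * t * d'⁻¹) : d = d' := by
  have : d'⁻¹ * d = 1 := by
    refine h.eq_one_of_two hn (M.mul_mem (M.inv_mem hd') hd) ?_ (h.cit t _ ht ?_)
    · have : n * (d'⁻¹ * d) * n⁻¹ = (n * d' * n⁻¹)⁻¹ * (n * d * n⁻¹) := by group
      rw [this]; exact M.mul_mem (M.inv_mem h2) h1
    · show d'⁻¹ * d * t = t * (d'⁻¹ * d)
      calc d'⁻¹ * d * t = d'⁻¹ * (d * t * d⁻¹) * d := by group
        _ = _ := by rw [e]; group
  exact (inv_mul_eq_one.mp this).symm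

omit h in
theorem fib_aux {n n' : G} (hn : Inv n) (hn' : Inv n') (e : (n : G ⧸ M) = n') :
    n * n' ∈ M ∧ n * (n * n') * n⁻¹ ∈ M := by
  have h1 : n * n' ∈ M := by rw [QuotientGroup.eq, hn.inv_eq] at e; exact e
  refine ⟨h1, ?_⟩
  have : n * (n * n') * n⁻¹ = (n * n')⁻¹ := by
    rw [← mul_assoc, hn.2, one_mul, mul_inv_rev, hn'.inv_eq]
  rw [this]; exact M.inv_mem h1

open Classical in
theorem fib_le [Fintype G] (c : G ⧸ M) :
    ((Finset.univ.filter fun t : G => Inv t).filter fun n : G => (n : G ⧸ M) = c).card ≤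
      (Finset.univ.filter fun t : G => Inv t ∧ t ∈ M).card := by
  rcases Finset.eq_empty_or_nonempty ((Finset.univ.filter fun t : G => Inv t).filter fun n : G => (n : G ⧸ M) = c)
    with e | ⟨n, hn⟩
  · rw [e]; simp
  simp only [Finset.mem_filter, Finset.mem_univ, true_and] at hn
  by_cases hm : n ∈ M
  · refine Finset.card_le_card fun n' hn' => ?_
    simp only [Finset.mem_filter, Finset.mem_univ, true_and] at hn' ⊢
    refine ⟨hn'.1, ?_⟩
    have := (fib_aux hn.1 hn'.1 (hn.2.trans hn'.2.symm)).1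
    simpa using M.mul_mem (M.inv_mem hm) this
  obtain ⟨t, ht, hi⟩ := h.ex
  refine Finset.card_le_card_of_injOn (fun n' => n * n' * t * (n * n')⁻¹) ?_ ?_
  · intro n' hn'
    simp only [Finset.coe_filter, Finset.mem_filter, Finset.mem_univ, true_and, Set.mem_ofPred_eq] at hn' ⊢
    have := (fib_aux hn.1 hn'.1 (hn.2.trans hn'.2.symm)).1
    exact ⟨hi.conj _, M.mul_mem (M.mul_mem this ht) (M.inv_mem this)⟩
  · intro a ha b hb e
    simp only [Finset.coe_filter, Finset.mem_filter, Finset.mem_univ, true_and, Set.mem_ofPred_eq] at ha hb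
    have h1 := fib_aux hn.1 ha.1 (hn.2.trans ha.2.symm)
    have h2 := fib_aux hn.1 hb.1 (hn.2.trans hb.2.symm)
    exact mul_left_cancel (h.conj_inj hm hi h1.1 h2.1 h1.2 h2.2 e)

open Classical in
theorem fib_eq [Fintype G] (c : G ⧸ M) :
    ((Finset.univ.filter fun t : G => Inv t).filter fun n : G => (n : G ⧸ M) = c).card =
      (Finset.univ.filter fun t : G => Inv t ∧ t ∈ M).card := by
  letI : Fintype (G ⧸ M) := Fintype.ofFinite _
  have h1 := Finset.card_eq_sum_card_fiberwise (s := Finset.univ.filter fun t : G => Inv t)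
    (t := (Finset.univ : Finset (G ⧸ M))) (f := fun n : G => (n : G ⧸ M)) (fun _ _ => Finset.mem_univ _)
  rw [h.card_inv, ← Finset.card_univ, ← smul_eq_mul, ← Finset.sum_const] at h1
  exact (Finset.sum_eq_sum_iff_of_le (fun c _ => h.fib_le c)).mp h1.symm c (Finset.mem_univ _)

theorem exists_inv_mem [Finite G] (g : G) : ∃ n, Inv n ∧ g⁻¹ * n ∈ M := by
  classical
  letI : Fintype G := Fintype.ofFinite _
  have h1 := h.fib_eq (g : G ⧸ M)
  obtain ⟨t, ht, hi⟩ := h.ex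
  have h2 : 0 < (Finset.univ.filter fun t : G => Inv t ∧ t ∈ M).card :=
    Finset.card_pos.mpr ⟨t, by simp [ht, hi]⟩
  rw [← h1] at h2
  obtain ⟨n, hn⟩ := Finset.card_pos.mp h2
  simp only [Finset.mem_filter, Finset.mem_univ, true_and] at hn
  exact ⟨n, hn.1, QuotientGroup.eq.mp hn.2.symm⟩

theorem exists_trans' [Finite G] {n t t' : G} (hn : Inv n) (hm : n ∉ M) (ht : t ∈ M) (hi : Inv t) (ht' : t' ∈ M)
    (hi' : Inv t') : ∃ n' : G, Inv n' ∧ (n : G ⧸ M) = n' ∧ n * n' * t * (n * n')⁻¹ = t' := by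
  classical
  letI : Fintype G := Fintype.ofFinite _
  have h1 := h.fib_eq (n : G ⧸ M)
  have := Finset.surjOn_of_injOn_of_card_le (fun n' => n * n' * t * (n * n')⁻¹)
    (s := (Finset.univ.filter fun t : G => Inv t).filter fun n' : G => (n' : G ⧸ M) = n)
    (t := Finset.univ.filter fun t : G => Inv t ∧ t ∈ M) ?_ ?_ h1.ge
  · obtain ⟨n', h2, h3⟩ := this (show t' ∈ _ by simp [ht', hi'])
    simp only [Finset.coe_filter, Finset.mem_filter, Finset.mem_univ, true_and, Set.mem_ofPred_eq] at h2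
    exact ⟨n', h2.1, h2.2.symm, h3⟩
  · intro n' hn'
    simp only [Finset.coe_filter, Finset.mem_filter, Finset.mem_univ, true_and, Set.mem_ofPred_eq] at hn' ⊢
    have := (fib_aux hn hn'.1 hn'.2.symm).1
    exact ⟨hi.conj _, M.mul_mem (M.mul_mem this ht) (M.inv_mem this)⟩
  · intro a ha b hb e
    simp only [Finset.coe_filter, Finset.mem_filter, Finset.mem_univ, true_and, Set.mem_ofPred_eq] at ha hb
    have h1 := fib_aux hn ha.1 ha.2.symm
    have h2 := fib_aux hn hb.1 hb.2.symm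
    exact mul_left_cancel (h.conj_inj hm hi h1.1 h2.1 h1.2 h2.2 e)

/-- The two-point stabiliser is transitive on the involutions of `M`. -/
theorem trans [Finite G] {n t t' : G} (hn : Inv n) (hm : n ∉ M) (ht : t ∈ M) (hi : Inv t) (ht' : t' ∈ M)
    (hi' : Inv t') : ∃ d ∈ M, n * d * n⁻¹ ∈ M ∧ d * t * d⁻¹ = t' := by
  obtain ⟨n', h1, h2, h3⟩ := h.exists_trans' hn hm ht hi ht' hi'
  exact ⟨_, (fib_aux hn h1 h2).1, (fib_aux hn h1 h2).2, h3⟩

/-- The two-point stabiliser is inverted. -/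
theorem inverts [Finite G] {n d : G} (hn : Inv n) (hm : n ∉ M) (hd : d ∈ M) (hd' : n * d * n⁻¹ ∈ M) :
    n * d * n⁻¹ = d⁻¹ := by
  obtain ⟨t, ht, hi⟩ := h.ex
  obtain ⟨n', h1, h2, h3⟩ := h.exists_trans' hn hm ht hi (M.mul_mem (M.mul_mem hd ht) (M.inv_mem hd)) (hi.conj d)
  have := h.conj_inj hm hi (fib_aux hn h1 h2).1 hd (fib_aux hn h1 h2).2 hd' h3
  rw [← this, ← mul_assoc, hn.2, one_mul, mul_inv_rev, h1.inv_eq]

theorem comm [Finite G] {n d d' : G} (hn : Inv n) (hm : n ∉ M) (hd : d ∈ M) (hd1 : n * d * n⁻¹ ∈ M)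
    (hd' : d' ∈ M) (hd2 : n * d' * n⁻¹ ∈ M) : d * d' = d' * d := by
  have e : n * (d * d') * n⁻¹ = (n * d * n⁻¹) * (n * d' * n⁻¹) := by group
  have h1 := h.inverts hn hm (M.mul_mem hd hd') (by rw [e]; exact M.mul_mem hd1 hd2)
  rw [e, h.inverts hn hm hd hd1, h.inverts hn hm hd' hd2, ← mul_inv_rev] at h1
  exact (inv_injective h1).symm

theorem odd_order [Finite G] {n d : G} (hm : n ∉ M) (hd : d ∈ M) (hd1 : n * d * n⁻¹ ∈ M) : Odd (orderOf d) := by
  rcases Nat.even_or_odd' (orderOf d) with ⟨k, hk | hk⟩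
  · have hpos := orderOf_pos d
    refine absurd (h.eq_one_of_two hm (M.pow_mem hd k) (by rw [← conj_pow]; exact M.pow_mem hd1 k) ⟨1, ?_⟩)
      (pow_ne_one_of_lt_orderOf (by omega) (by omega))
    rw [← pow_mul, pow_one, mul_comm, ← hk, pow_orderOf_eq_one]
  · exact ⟨k, hk⟩

theorem exists_sqrt [Finite G] {n d : G} (hm : n ∉ M) (hd : d ∈ M) (hd1 : n * d * n⁻¹ ∈ M) :
    ∃ k : ℕ, d ^ k * d ^ k = d := by
  obtain ⟨k, hk⟩ := h.odd_order hm hd hd1
  refine ⟨k + 1, ?_⟩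
  rw [← pow_add, show k + 1 + (k + 1) = orderOf d + 1 by omega, pow_succ, pow_orderOf_eq_one, one_mul]

theorem exists_not_mem [Finite G] : ∃ n, Inv n ∧ n ∉ M := by
  obtain ⟨g, hg⟩ : ∃ g, g ∉ M := by
    by_contra hh; push Not at hh; exact h.ne_top (eq_top_iff.mpr fun g _ => hh g)
  obtain ⟨n, h1, h2⟩ := h.exists_inv_mem g
  exact ⟨n, h1, fun hn => hg (by simpa using M.inv_mem (M.mul_mem h2 (M.inv_mem hn)))⟩

theorem decomp [Finite G] {S : Subgroup G} (hS : ∀ x ∈ M, Two x → x ∈ S) {n m : G} (hn : Inv n) (hm : n ∉ M)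
    (hmM : m ∈ M) : ∃ d ∈ M, n * d * n⁻¹ ∈ M ∧ ∃ s ∈ S, m = d * s := by
  obtain ⟨t, ht, hi⟩ := h.ex
  obtain ⟨d, h1, h2, h3⟩ := h.trans hn hm ht hi (M.mul_mem (M.mul_mem hmM ht) (M.inv_mem hmM)) (hi.conj m)
  refine ⟨d, h1, h2, d⁻¹ * m, hS _ (M.mul_mem (M.inv_mem h1) hmM) (h.cit t _ hi ?_), by group⟩
  show d⁻¹ * m * t = t * (d⁻¹ * m)
  calc d⁻¹ * m * t = d⁻¹ * (m * t * m⁻¹) * m := by group
    _ = _ := by rw [← h3]; group

/-- Double transitivity. -/
theorem bruhat [Finite G] {S : Subgroup G} (hSM : S ≤ M) (hS2 : ∀ x ∈ S, Two x) (hS : ∀ x ∈ M, Two x → x ∈ S)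
    (h2 : ∃ t ∈ M, ∃ t' ∈ M, Inv t ∧ Inv t' ∧ t ≠ t') {n : G} (hn : Inv n) (hm : n ∉ M) {g : G} (hg : g ∉ M) :
    ∃ s ∈ S, ∃ m ∈ M, g = s * n * m := by
  have hN : ∀ m ∈ M, ∀ s ∈ S, m * s * m⁻¹ ∈ S := fun m hm s hs =>
    hS _ (M.mul_mem (M.mul_mem hm (hSM hs)) (M.inv_mem hm)) ((hS2 s hs).conj m)
  obtain ⟨t, ht, t', ht', hi, hi', hne⟩ := h2
  obtain ⟨k, hk, hk', e⟩ := h.trans hn hm ht hi ht' hi'
  have hk1 : k ≠ 1 := by rintro rfl; exact hne (by simpa using e)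
  have hk2 : ¬ Two k := fun h2 => hk1 (h.eq_one_of_two hm hk hk' h2)
  obtain ⟨n1, hn1, hg1⟩ := h.exists_inv_mem g
  have hm1 : n1 ∉ M := fun hn => hg (by simpa using M.inv_mem (M.mul_mem hg1 (M.inv_mem hn)))
  obtain ⟨k1, h11, h12, s1, hs1, e1⟩ := h.decomp hS hn1 hm1 hk
  have hk12 : ¬ Two k1 := fun h2 => hk2 (hS2 _ (by rw [e1]; exact S.mul_mem (hS _ h11 h2) hs1))
  -- the commutator map is onto
  let φ : S → S := fun s => ⟨k1⁻¹ * s * k1⁻¹⁻¹ * (s : G)⁻¹, S.mul_mem (hN _ (M.inv_mem h11) _ s.2) (S.inv_mem s.2)⟩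
  have hφ : Function.Injective φ := by
    intro a b e
    have e' : k1⁻¹ * a * k1⁻¹⁻¹ * (a : G)⁻¹ = k1⁻¹ * b * k1⁻¹⁻¹ * (b : G)⁻¹ := congrArg Subtype.val e
    have hc : Commute k1 ((b : G)⁻¹ * a) := by
      show k1 * ((b : G)⁻¹ * a) = (b : G)⁻¹ * a * k1
      calc k1 * ((b : G)⁻¹ * a) = (b : G)⁻¹ * k1 * (k1⁻¹ * b * k1⁻¹⁻¹ * (b : G)⁻¹) * a := by group
        _ = _ := by rw [← e']; group
    by_contra hab
    have hab' : (b : G)⁻¹ * a ≠ 1 := fun e => hab (Subtype.ext (inv_mul_eq_one.mp e).symm)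
    obtain ⟨j, hj⟩ := (hS2 _ (S.mul_mem (S.inv_mem b.2) a.2)).exists_inv hab'
    exact hk12 (h.cit _ _ hj (hc.pow_right j))
  obtain ⟨s, hs⟩ := Finite.surjective_of_injective hφ ⟨s1, hs1⟩
  have hs' : k1⁻¹ * s * k1⁻¹⁻¹ * (s : G)⁻¹ = s1 := congrArg Subtype.val hs
  have e2 : k = s * k1 * (s : G)⁻¹ := by rw [e1, ← hs']; group
  have i1 := h.inverts hn1 hm1 h11 h12
  have i0 := h.inverts hn hm hk hk'
  set c := n * (s * n1 * (s : G)⁻¹) with hc
  have hck : c * k * c⁻¹ = k := by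
    calc c * k * c⁻¹ = n * (s * (n1 * k1 * n1⁻¹) * (s : G)⁻¹) * n⁻¹ := by rw [hc, e2]; group
      _ = (n * k * n⁻¹)⁻¹ := by rw [i1, e2]; group
      _ = k := by rw [i0, inv_inv]
  have hcM : c ∈ M := by
    by_contra hcM
    obtain ⟨n', hn', hc'⟩ := h.exists_inv_mem c
    have hm' : n' ∉ M := fun hn => hcM (by simpa using M.inv_mem (M.mul_mem hc' (M.inv_mem hn)))
    have hkn : n' * k * n'⁻¹ = (c⁻¹ * n')⁻¹ * k * (c⁻¹ * n') := by
      calc n' * k * n'⁻¹ = n'⁻¹ * k * n' := by rw [hn'.inv_eq]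
        _ = n'⁻¹ * (c * k * c⁻¹) * n' := by rw [hck]
        _ = _ := by group
    have i2 := h.inverts hn' hm' hk (by rw [hkn]; exact M.mul_mem (M.mul_mem (M.inv_mem hc') hk) hc')
    rw [hkn] at i2
    obtain ⟨d, hd1, hd2, s2, hs2, e3⟩ := h.decomp hS hn hm hc'
    rw [e3] at i2
    have hdk := h.comm hn hm hd1 hd2 hk hk'
    have i3 : s2⁻¹ * k * s2 = k⁻¹ := by
      rw [← i2]
      calc s2⁻¹ * k * s2 = s2⁻¹ * (d⁻¹ * (d * k)) * s2 := by group
        _ = _ := by rw [hdk]; group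
    apply hk2
    apply Two.of_sq
    apply hS2
    have : k * k = (k * s2⁻¹ * k⁻¹) * s2 := by
      calc k * k = k * (s2⁻¹ * k * s2)⁻¹ := by rw [i3, inv_inv]
        _ = _ := by group
    rw [this]
    exact S.mul_mem (hN _ hk _ (S.inv_mem hs2)) hs2
  refine ⟨(s : G)⁻¹, S.inv_mem s.2, c * s * (g⁻¹ * n1)⁻¹,
    M.mul_mem (M.mul_mem hcM (hSM s.2)) (M.inv_mem hg1), ?_⟩
  calc g = (s : G)⁻¹ * (n * n) * s * g := by rw [hn.2]; group
    _ = _ := by rw [hc]; group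

end SE

/-- A perfect group has no non-trivial cyclic Sylow 2-subgroup. -/
theorem not_cyclic [Finite G] (hp : commutator G = ⊤) (S : Sylow 2 G) (hc : IsCyclic S) :
    (S : Subgroup G) = ⊥ := by
  by_contra hne
  have h2 : 2 ∣ Nat.card G := by
    obtain ⟨k, hk⟩ := IsPGroup.iff_card.mp S.isPGroup'
    have : k ≠ 0 := by
      rintro rfl
      exact hne (Subgroup.eq_bot_of_card_eq _ (by simpa using hk))
    exact (hk ▸ dvd_pow_self 2 this).trans (Subgroup.card_subgroup_dvd_card _)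
  have hmin : (Nat.card G).minFac = 2 := (Nat.minFac_eq_two_iff _).mpr h2
  have hC := hc.isComplement' hmin
  have hle : commutator G ≤ (MonoidHom.transferSylow S (hc.normalizer_le_centralizer hmin)).ker := by
    letI : CommGroup S := IsCyclic.commGroup
    exact Abelianization.commutator_subset_ker _
  rw [hp, top_le_iff] at hle
  rw [hle] at hC
  exact hne (Subgroup.isComplement'_top_left.mp hC)

end Cfsg.Agent.Sp4E.Grp
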