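import Cfsg.Agent.Sp4E.Basic
import Cfsg.Agent.Sp4E.Grp2

/-!
Involutions of `Sp F`, Witt-type lemmas.
-/

set_option autoImplicit false
set_option linter.unusedSectionVars false
set_option linter.unusedSimpArgs false

namespace Cfsg.Agent.Sp4E
open Matrix Cfsg.Agent.H9 Cfsg.Lie Grp

variable {F : Type*} [Field F] [CharP F 2]

theorem f_e0 (x : V F) : f x e0 = x 3 := by simp [f, e0]
theorem f_e1 (x : V F) : f x e1 = x 2 := by simp [f, e1]
theorem f_e2 (x : V F) : f x e2 = x 1 := by simp [f, e2]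
theorem f_e3 (x : V F) : f x e3 = x 0 := by simp [f, e3]

theorem e0_ne : (e0 : V F) ≠ 0 := fun h => by simpa [e0] using congrFun h 0

theorem smul_ne {x : V F} (h : x ≠ 0) (g : Sp F) : g • x ≠ 0 := fun e => h ((smul_eq_zero_iff_eq g).mp e)

theorem eq_of_f {x y : V F} (h : ∀ z, f z x = f z y) : x = y := by
  rw [← add_eq_zero_vec]
  apply eq_zero_of_f; intro z
  rw [f_add_left, f_comm x, f_comm y, h, CharTwo.add_self_eq_zero]

theorem exists_f_two {y y' : V F} (hy : y ≠ 0) (h : ∀ c : F, y' ≠ c • y) : ∃ x, f x y = 0 ∧ f x y' = 1 := by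
  obtain ⟨x0, h0⟩ := exists_f_one hy
  have h1 : y' + f x0 y' • y ≠ 0 := fun e => h _ (add_eq_zero_vec.mp e)
  obtain ⟨x1, h2⟩ := exists_f_one h1
  refine ⟨x1 + f x1 y • x0, ?_, ?_⟩
  · rw [f_add_left, f_smul_left, f_comm x0, h0]; grobner
  · rw [f_add_left, f_smul_left] at h2 ⊢
    rw [f_comm y', f_comm y] at h2
    linear_combination h2

/-- Completion of a hyperbolic pair and a vector orthogonal to it. -/
theorem witt_03_1 {x0 x1 x3 : V F} (h03 : f x0 x3 = 1) (h01 : f x0 x1 = 0) (h13 : f x1 x3 = 0) (h1 : x1 ≠ 0) :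
    ∃ g : Sp F, g • (e0 : V F) = x0 ∧ g • (e1 : V F) = x1 ∧ g • (e3 : V F) = x3 := by
  obtain ⟨y, hy⟩ := exists_f_one h1
  obtain ⟨g, h⟩ := exists_ofBasis (x2 := y + f y x3 • x0 + f y x0 • x3) h01
    (by simp only [f_add_right, f_smul_right, f_self, h03, f_comm x0 y]; grobner) h03
    (by simp only [f_add_right, f_smul_right, hy, f_comm x1 x0, h01, h13]; ring) h13
    (by simp only [f_add_left, f_smul_left, f_self, h03]; grobner)
  exact ⟨g, h.1, h.2.1, h.2.2.2⟩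

theorem exists_perp_ne (x0 x3 : V F) (h03 : f x0 x3 = 1) : ∃ x1, x1 ≠ 0 ∧ f x0 x1 = 0 ∧ f x1 x3 = 0 := by
  by_contra hh
  push Not at hh
  have key : ∀ y : V F, y = f y x3 • x0 + f y x0 • x3 := by
    intro y
    by_contra hy
    refine hh (y + (f y x3 • x0 + f y x0 • x3)) (fun e => hy (add_eq_zero_vec.mp e)) ?_ ?_
    · simp only [f_add_right, f_smul_right, f_self, h03, f_comm x0 y]; grobner
    · simp only [f_add_left, f_smul_left, f_self, h03]; grobner
  have k0 := fun i => congrFun (key e0) i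
  have k1 := fun i => congrFun (key e1) i
  have k2 := fun i => congrFun (key e2) i
  have a := k0 0; have b := k0 1; have c := k0 2; have a1 := k1 0; have b1 := k1 1; have c1 := k1 2
  have a2 := k2 0; have b2 := k2 1; have c2 := k2 2
  simp [f, e0, e1, e2] at a b c a1 b1 c1 a2 b2 c2
  grobner

theorem witt_03 {x0 x3 : V F} (h03 : f x0 x3 = 1) : ∃ g : Sp F, g • (e0 : V F) = x0 ∧ g • (e3 : V F) = x3 := by
  obtain ⟨x1, h1, h01, h13⟩ := exists_perp_ne x0 x3 h03
  obtain ⟨g, h⟩ := witt_03_1 h03 h01 h13 h1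
  exact ⟨g, h.1, h.2.2⟩

theorem witt_0 {x0 : V F} (h : x0 ≠ 0) : ∃ g : Sp F, g • (e0 : V F) = x0 := by
  obtain ⟨y, hy⟩ := exists_f_one h
  obtain ⟨g, h⟩ := witt_03 hy
  exact ⟨g, h.1⟩

theorem witt_01 {x0 x1 : V F} (h1 : x1 ≠ 0) (h : ∀ c : F, x0 ≠ c • x1) (h01 : f x0 x1 = 0) :
    ∃ g : Sp F, g • (e0 : V F) = x0 ∧ g • (e1 : V F) = x1 := by
  obtain ⟨x3, h13, h03⟩ := exists_f_two h1 h
  obtain ⟨g, h⟩ := witt_03_1 (f_comm x3 x0 ▸ h03) h01 (f_comm x3 x1 ▸ h13) h1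
  exact ⟨g, h.1, h.2.1⟩

theorem mem_U_of {g : Sp F} (h0 : g • (e0 : V F) = e0) {u : F} (h1 : g • (e1 : V F) = e1 + u • e0) :
    g = Um u (g.val 1 2) (g.val 1 3) (g.val 0 3) := by
  rw [Sp.smul_e0] at h0; rw [Sp.smul_e1] at h1
  have a0 : g.val 0 0 = 1 := congrFun h0 0
  have a1 : g.val 1 0 = 0 := congrFun h0 1
  have a2 : g.val 2 0 = 0 := congrFun h0 2
  have a3 : g.val 3 0 = 0 := congrFun h0 3
  have b0 : g.val 0 1 = u := by simpa [e0, e1] using congrFun h1 0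
  have b1 : g.val 1 1 = 1 := by simpa [e0, e1] using congrFun h1 1
  have b2 : g.val 2 1 = 0 := by simpa [e0, e1] using congrFun h1 2
  have b3 : g.val 3 1 = 0 := by simpa [e0, e1] using congrFun h1 3
  have h02 : g.val 0 0 * g.val 3 2 + g.val 1 0 * g.val 2 2 + g.val 2 0 * g.val 1 2 + g.val 3 0 * g.val 0 2 = 0 :=
    g.col 0 2
  have h03 : g.val 0 0 * g.val 3 3 + g.val 1 0 * g.val 2 3 + g.val 2 0 * g.val 1 3 + g.val 3 0 * g.val 0 3 = 1 :=
    g.col 0 3
  have h12 : g.val 0 1 * g.val 3 2 + g.val 1 1 * g.val 2 2 + g.val 2 1 * g.val 1 2 + g.val 3 1 * g.val 0 2 = 1 :=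
    g.col 1 2
  have h13 : g.val 0 1 * g.val 3 3 + g.val 1 1 * g.val 2 3 + g.val 2 1 * g.val 1 3 + g.val 3 1 * g.val 0 3 = 0 :=
    g.col 1 3
  have h23 : g.val 0 2 * g.val 3 3 + g.val 1 2 * g.val 2 3 + g.val 2 2 * g.val 1 3 + g.val 3 2 * g.val 0 3 = 0 :=
    g.col 2 3
  apply Sp.ext
  rw [Um_val]
  conv_lhs => rw [eta4 g.val]
  apply mat4_congr <;> grobner

/-- The standard involution of type `c₂`. -/
def zz : Sp F := Um 0 0 1 1

theorem inv_Um {u v c d : F} (h : u * v = 0) (h1 : Um u v c d ≠ 1) : Inv (Um u v c d) :=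
  ⟨h1, by rw [Um_sq, Um_eq_one]; refine ⟨rfl, rfl, h, by grobner⟩⟩

theorem inv_zz : Inv (zz : Sp F) := inv_Um (by simp) (by simp [Um_eq_one])

theorem two_of_mem_U {g : Sp F} (hg : g ∈ U F) : Two g := by
  obtain ⟨u, v, c, d, rfl⟩ := hg
  apply Two.of_sq; apply Two.of_sq
  rw [Um_sq, Um_sq]
  exact ⟨0, by simp [Um_eq_one]⟩

theorem Z_commute (u v c d c' d' : F) : Commute (Um u v c d) (Um 0 0 c' d') := by
  show _ * _ = _ * _
  rw [Um_mul, Um_mul]; apply Um_congr <;> grobner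

theorem mem_U_of_commute {g : Sp F} {c d : F} (hc : c ≠ 0) (hd : d ≠ 0) (h : Commute g (Um 0 0 c d)) :
    g ∈ U F := by
  have e := congrArg Sp.val h.eq
  rw [Sp.val_mul, Sp.val_mul, Um_val, eta4 g.val, mul4, mul4] at e
  obtain ⟨-, -, e02, e03, e10, -, e12, e13, -, -, e22, e23, -, -, e32, e33⟩ := mat4_inj e
  have h03 : g.val 0 0 * g.val 3 3 + g.val 1 0 * g.val 2 3 + g.val 2 0 * g.val 1 3 + g.val 3 0 * g.val 0 3 = 1 :=
    g.col 0 3
  have h13 : g.val 0 1 * g.val 3 3 + g.val 1 1 * g.val 2 3 + g.val 2 1 * g.val 1 3 + g.val 3 1 * g.val 0 3 = 0 :=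
    g.col 1 3
  have h12 : g.val 0 1 * g.val 3 2 + g.val 1 1 * g.val 2 2 + g.val 2 1 * g.val 1 2 + g.val 3 1 * g.val 0 2 = 1 :=
    g.col 1 2
  have h02 : g.val 0 0 * g.val 3 2 + g.val 1 0 * g.val 2 2 + g.val 2 0 * g.val 1 2 + g.val 3 0 * g.val 0 2 = 0 :=
    g.col 0 2
  have a3 : g.val 3 0 = 0 := by grind
  have a2 : g.val 2 0 = 0 := by grind
  have b3 : g.val 3 1 = 0 := by grind
  have b2 : g.val 2 1 = 0 := by grind
  have a1 : g.val 1 0 = 0 := by grind
  have a0 : g.val 0 0 = 1 := by grind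
  have b1 : g.val 1 1 = 1 := by grind
  refine ⟨_, _, _, _, mem_U_of (u := g.val 0 1) ?_ ?_⟩
  · rw [Sp.smul_e0, a0, a1, a2, a3]; rfl
  · rw [Sp.smul_e1, b1, b2, b3]; apply vec4_ext <;> simp [e0, e1]

section inv
variable {t : Sp F} (ht : t * t = 1)
include ht

theorem smul_smul_inv (x : V F) : t • t • x = x := by rw [← mul_smul, ht, one_smul]

theorem f_inv_sym (x y : V F) : f (t • x) y = f x (t • y) := by
  conv_lhs => rw [← smul_smul_inv ht y, Sp.f_smul]

theorem f_inv_quad (x : V F) : f x (t • x) =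
    x 0 ^ 2 * f e0 (t • e0) + x 1 ^ 2 * f e1 (t • e1) + x 2 ^ 2 * f e2 (t • e2) + x 3 ^ 2 * f e3 (t • e3) := by
  have h01 := f_inv_sym ht e0 e1; have h02 := f_inv_sym ht e0 e2; have h03 := f_inv_sym ht e0 e3
  have h12 := f_inv_sym ht e1 e2; have h13 := f_inv_sym ht e1 e3; have h23 := f_inv_sym ht e2 e3
  rw [f_comm] at h01 h02 h03 h12 h13 h23
  conv_lhs => rw [basis_expand x]
  simp only [smul_add, Sp.smul_smul', f_add_left, f_add_right, f_smul_left, f_smul_right, h01, h02, h03, h12,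
    h13, h23]
  grobner

end inv

/-- `c` is the distinguished vector of the involution `t`. -/
def IsC (t : Sp F) (c : V F) : Prop := ∀ x, f x (t • x) = f x c ^ 2

theorem IsC.conj {t : Sp F} {c : V F} (h : IsC t c) (g : Sp F) : IsC (g * t * g⁻¹) (g • c) := by
  intro x
  rw [mul_smul, mul_smul, ← smul_inv_smul g x, inv_smul_smul, Sp.f_smul, Sp.f_smul, h]

theorem IsC.unique {t : Sp F} {c c' : V F} (h : IsC t c) (h' : IsC t c') : c = c' :=
  eq_of_f fun z => CharTwo.sq_injective ((h z).symm.trans (h' z))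

theorem isC_A (u c r : F) : IsC (Um u 0 c (r ^ 2)) (r • e0) := by
  intro x; rw [Um_smul, f_smul_right, f_e0, vec4_eta x]; simp [f]; grobner

theorem isC_B (a c b : F) : IsC (Um 0 (b ^ 2) c (a ^ 2)) (a • e0 + b • e1) := by
  intro x; rw [Um_smul, f_add_right, f_smul_right, f_smul_right, f_e0, f_e1, vec4_eta x]; simp [f]; grobner

theorem exists_sqrt [Finite F] (x : F) : ∃ r : F, r ^ 2 = x := (frobeniusEquiv F 2).surjective x

theorem exists_isC [Finite F] {t : Sp F} (ht : t * t = 1) : ∃ c, IsC t c := by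
  obtain ⟨r0, h0⟩ := exists_sqrt (f e0 (t • (e0 : V F)))
  obtain ⟨r1, h1⟩ := exists_sqrt (f e1 (t • (e1 : V F)))
  obtain ⟨r2, h2⟩ := exists_sqrt (f e2 (t • (e2 : V F)))
  obtain ⟨r3, h3⟩ := exists_sqrt (f e3 (t • (e3 : V F)))
  refine ⟨![r3, r2, r1, r0], fun x => ?_⟩
  rw [f_inv_quad ht, ← h0, ← h1, ← h2, ← h3]
  simp [f]; grobner

theorem conj_eq_of_basis {g t s : Sp F} (h0 : t • g • (e0 : V F) = g • s • e0) (h1 : t • g • (e1 : V F) = g • s • e1)
    (h2 : t • g • (e2 : V F) = g • s • e2) (h3 : t • g • (e3 : V F) = g • s • e3) : t = g * s * g⁻¹ := by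
  rw [eq_mul_inv_iff_mul_eq]
  apply Sp.ext_basis <;> rwa [mul_smul, mul_smul]

theorem eq_of_f_basis (g : Sp F) {x y : V F} (h0 : f (g • e0) x = f (g • e0) y) (h1 : f (g • e1) x = f (g • e1) y)
    (h2 : f (g • e2) x = f (g • e2) y) (h3 : f (g • e3) x = f (g • e3) y) : x = y := by
  apply eq_of_f; intro z
  rw [← smul_inv_smul g z, basis_expand (g⁻¹ • z)]
  simp only [smul_add, Sp.smul_smul', f_add_left, f_smul_left, h0, h1, h2, h3]

theorem Um_e0 (u v c d : F) : Um u v c d • (e0 : V F) = e0 := by rw [Sp.smul_e0]; rfl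
theorem Um_e1 (u v c d : F) : Um u v c d • (e1 : V F) = e1 + u • e0 := by
  rw [Sp.smul_e1]; apply vec4_ext <;> simp [Um_val, e0, e1]
theorem Um_e2 (u v c d : F) : Um u v c d • (e2 : V F) = e2 + v • e1 + (c + u * v) • e0 := by
  rw [Sp.smul_e2]; apply vec4_ext <;> simp [Um_val, e0, e1, e2]
theorem Um_e3 (u v c d : F) : Um u v c d • (e3 : V F) = e3 + u • e2 + c • e1 + d • e0 := by
  rw [Sp.smul_e3]; apply vec4_ext <;> simp [Um_val, e0, e1, e2, e3]

/-- Normal form of the involutions of type `a₂`. -/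
theorem nf_a2 {t : Sp F} (ht : Inv t) (h : IsC t 0) : ∃ g : Sp F, t = g * Um 0 0 1 0 * g⁻¹ := by
  have h0 : ∀ x : V F, f x (t • x) = 0 := fun x => by rw [h x]; simp
  obtain ⟨y, hy⟩ : ∃ y : V F, t • y ≠ y := by
    by_contra hh; push Not at hh; exact ht.1 (Sp.ext_smul fun v => by rw [hh, one_smul])
  have hy0 : y ≠ 0 := by rintro rfl; exact hy (smul_zero _)
  have hc : ∀ c : F, t • y + y ≠ c • y := by
    intro c e
    have e1 : t • y = (c + 1) • y := by rw [add_smul, ← e, one_smul, add_assoc, add_self_vec, add_zero]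
    have e2 := smul_smul_inv ht.2 y
    rw [e1, Sp.smul_smul', e1, smul_smul] at e2
    have : ((c + 1) * (c + 1) + 1) • y = 0 := by rw [add_smul, e2, one_smul, add_self_vec]
    rcases smul_eq_zero.mp this with e3 | e3
    · have : c = 0 := by grind
      rw [this, zero_add, one_smul] at e1; exact hy e1
    · exact hy0 e3
  obtain ⟨x, hx1, hx2⟩ := exists_f_two hy0 hc
  have s1 := f_inv_sym ht.2 x y
  have hxy : f x (t • y) = 1 := by rw [f_add_right, hx1, add_zero] at hx2; exact hx2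
  obtain ⟨g, g0, g1, g2, g3⟩ := exists_ofBasis (x0 := t • x + x) (x1 := t • y + y) (x2 := x) (x3 := y)
    (by simp only [f_add_left, f_add_right, Sp.f_smul, s1, hxy, hx1]; grobner)
    (by rw [f_add_left, f_self, f_comm, h0, add_zero]) (by rw [f_add_left, s1, hxy, hx1, add_zero])
    (by rw [f_comm, hx2]) (by rw [f_add_left, f_self, f_comm, h0, add_zero]) hx1
  refine ⟨g, conj_eq_of_basis ?_ ?_ ?_ ?_⟩
  · rw [Um_e0, g0, smul_add, smul_smul_inv ht.2, add_comm]
  · rw [Um_e1, zero_smul, add_zero, g1, smul_add, smul_smul_inv ht.2, add_comm]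
  · simp only [Um_e2, zero_smul, add_zero, mul_zero, one_smul, smul_add, g0, g2]
    rw [add_comm (t • x), ← add_assoc, add_self_vec, zero_add]
  · simp only [Um_e3, zero_smul, add_zero, mul_zero, one_smul, smul_add, g1, g3]
    rw [add_comm (t • y), ← add_assoc, add_self_vec, zero_add]

/-- Normal form of the involutions of type `c₂`. -/
theorem nf_c2 {t : Sp F} (ht : Inv t) {c : V F} (h : IsC t c) (hc : c ≠ 0) (htv : t ≠ tv c) :
    ∃ g : Sp F, t = g * zz * g⁻¹ := by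
  have htc : t • c = c := by
    apply eq_of_f; intro x
    have h1 := h (t • x + x)
    rw [smul_add, smul_smul_inv ht.2, add_comm x, f_self, f_add_left] at h1
    have h2 := pow_eq_zero_iff (two_ne_zero) |>.mp h1.symm
    rw [← f_inv_sym ht.2]; grind
  obtain ⟨y, hy1, hy2⟩ : ∃ y, f c y = 1 ∧ t • y + y + c ≠ 0 := by
    by_contra hh; push Not at hh
    apply htv
    apply Sp.ext_smul; intro x
    obtain ⟨y, hy⟩ := exists_f_one hc
    have h1 := hh y hy
    have h2 := hh (x + (f c x + 1) • y) (by rw [f_add_right, f_smul_right, hy]; grobner)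
    rw [add_assoc, add_eq_zero_vec] at h1 h2
    rw [smul_add, Sp.smul_smul', h1] at h2
    rw [tv_smul, f_comm x]
    have h3 : t • x = t • x + (f c x + 1) • (y + c) + (f c x + 1) • (y + c) := by
      rw [add_assoc, add_self_vec, add_zero]
    rw [h3, h2]
    funext i; simp only [Pi.add_apply, Pi.smul_apply, smul_eq_mul]; grobner
  have hyy : f y (t • y) = 1 := by rw [h, f_comm, hy1, one_pow]
  have hcy : f c (t • y) = 1 := by rw [← f_inv_sym ht.2, htc, hy1]
  obtain ⟨g, g0, g1, g3⟩ := witt_03_1 (x1 := t • y + y + c) hy1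
    (by simp only [f_add_right, hcy, hy1, f_self]; grobner)
    (by simp only [f_add_left, f_comm (t • y) y, hyy, hy1, f_self]; grobner) hy2
  have f02 : f (g • e0) (g • e2) = (0 : F) := by rw [Sp.f_smul, f_e2]; rfl
  have f12 : f (g • e1) (g • e2) = (1 : F) := by rw [Sp.f_smul, f_e2]; rfl
  have f32 : f (g • e3) (g • e2) = (0 : F) := by rw [Sp.f_smul, f_e2]; rfl
  have t1 : t • (t • y + y + c) = t • y + y + c := by
    rw [smul_add, smul_add, smul_smul_inv ht.2, htc, add_comm y]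
  have t3 : t • y = y + (t • y + y + c) + c := by
    funext i; simp only [Pi.add_apply]; grobner
  refine ⟨g, conj_eq_of_basis ?_ ?_ ?_ ?_⟩
  · rw [zz, Um_e0, g0, htc]
  · rw [zz, Um_e1, zero_smul, add_zero, g1, t1]
  · simp only [zz, Um_e2, zero_smul, add_zero, mul_zero, one_smul, smul_add]
    apply eq_of_f_basis g
    · rw [← f_inv_sym ht.2, f_add_right, f_self, add_zero, g0, htc]
    · rw [← f_inv_sym ht.2, f_add_right, Sp.f_smul, Sp.f_smul, f_e0, g1, t1, ← g1, f12, f_e2]; simp [e1]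
    · rw [h, f_add_right, f_self, ← g0, Sp.f_smul, f_e0]; simp [e2]
    · rw [← f_inv_sym ht.2, f_add_right, Sp.f_smul, Sp.f_smul, g3, t3, ← g1, f_add_left, f_add_left, ← g0, ← g3,
        f02, f12, f32, f_e0, f_e2]; simp [e3]
  · simp only [zz, Um_e3, zero_smul, add_zero, mul_zero, one_smul, smul_add, g0, g1, g3]
    exact t3

/-- A subgroup all of whose involutions are of type `c₂`. -/
def NoT (P : Subgroup (Sp F)) : Prop := ∀ u : V F, u ≠ 0 → tv u ∉ P ∧ tv u ∉ P.map tau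

theorem tau_a2 : tau (Um (0 : F) 0 1 0) = tv e0 := by
  rw [tau_Um, ← one_smul F (e0 : V F), tv_e0]; apply Um_congr <;> ring

theorem NoT.nf [Finite F] {P : Subgroup (Sp F)} (h : NoT P) {t : Sp F} (ht : t ∈ P) (hi : Inv t) :
    ∃ g : Sp F, t = g * zz * g⁻¹ := by
  obtain ⟨c, hc⟩ := exists_isC hi.2
  by_cases h0 : c = 0
  · subst h0
    obtain ⟨g, hg⟩ := nf_a2 hi hc
    refine absurd ⟨t, ht, ?_⟩ (h (tau g • e0) (smul_ne e0_ne _)).2
    rw [hg, map_mul, map_mul, map_inv, tau_a2, conj_tv]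
  · exact nf_c2 hi hc h0 fun e => (h c h0).1 (e ▸ ht)

theorem two_of_commute_zz {x g : Sp F} (h : Commute x (g * zz * g⁻¹)) : Two x := by
  have : Commute (g⁻¹ * x * g) zz := by
    show g⁻¹ * x * g * zz = zz * (g⁻¹ * x * g)
    calc g⁻¹ * x * g * zz = g⁻¹ * (x * (g * zz * g⁻¹)) * g := by group
      _ = _ := by rw [h.eq]; group
  have := (two_of_mem_U (mem_U_of_commute one_ne_zero one_ne_zero this)).conj g
  simpa [mul_assoc] using this

theorem NoT.cit [Finite F] {P : Subgroup (Sp F)} (h : NoT P) {t : Sp F} (ht : t ∈ P) (hi : Inv t) {x : Sp F}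
    (hx : Commute x t) : Two x := by
  obtain ⟨g, rfl⟩ := h.nf ht hi
  exact two_of_commute_zz hx

theorem map_tau_cj (B : Sp F) (P : Subgroup (Sp F)) : (cj B P).map tau = cj (tau B) (P.map tau) := by
  simp only [cj, Subgroup.map_map]
  congr 1
  ext1 g
  simp

theorem NoT.cj {P : Subgroup (Sp F)} (h : NoT P) (B : Sp F) : NoT (cj B P) := by
  intro u hu
  rw [map_tau_cj, mem_cj, mem_cj]
  have e : ∀ C : Sp F, C⁻¹ * tv u * C = tv (C⁻¹ • u) := fun C => by rw [← conj_tv, inv_inv]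
  rw [e, e]
  exact ⟨(h _ (smul_ne hu _)).1, (h _ (smul_ne hu _)).2⟩

theorem mapSp_tv (φ : F →+* F) (u : V F) : mapSp φ (tv u) = tv (fun i => φ (u i)) := by
  apply Sp.ext
  ext i j
  simp only [mapSp_val, tv, Matrix.map_apply, Matrix.add_apply, vecMulVec_apply, map_add, map_mul]
  congr 1
  · rw [Matrix.one_apply]; split_ifs <;> simp
  · congr 1
    fin_cases j <;> simp [J_def, Matrix.mulVec, dotProduct, Fin.sum_univ_four]

theorem NoT.tau [Finite F] {P : Subgroup (Sp F)} (h : NoT P) : NoT (P.map tau) := by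
  intro u hu
  refine ⟨(h u hu).2, ?_⟩
  rintro ⟨_, ⟨g, hg, rfl⟩, e⟩
  rw [tau_tau] at e
  choose r hr using fun i => exists_sqrt (u i)
  have : tv u = mapSp (frobenius F 2) (tv r) := by rw [mapSp_tv]; congr 1; funext i; exact (hr i).symm
  rw [this] at e
  refine (h r ?_).1 (mapSp_injective _ e ▸ hg)
  rintro rfl
  exact hu (funext fun i => by simpa using (hr i).symm)

theorem tv_e01 (a b : F) : tv (a • (e0 : V F) + b • e1) = Um 0 (b ^ 2) (a * b) (a ^ 2) := by
  apply Sp.ext_smul; intro x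
  rw [tv_smul, Um_smul]
  apply vec4_ext <;> simp [f, e0, e1] <;> ring

theorem tv_not_mem {P : Subgroup (Sp F)} {u : V F} (h : u ≠ 0 → tv u ∉ P) (h1 : tv u ∈ P) : tv u = 1 := by
  by_cases hu : u = 0
  · rw [hu, tv_zero]
  · exact absurd h1 (h hu)

theorem NoT.B_det [Finite F] {P : Subgroup (Sp F)} (h : NoT P) {v c d : F} (hP : Um 0 v c d ∈ P)
    (e : c ^ 2 + v * d = 0) : Um 0 v c d = 1 := by
  obtain ⟨a, rfl⟩ := exists_sqrt d
  obtain ⟨b, rfl⟩ := exists_sqrt v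
  obtain rfl : c = a * b := by grind
  rw [← tv_e01] at hP ⊢
  exact tv_not_mem (fun hu => (h _ hu).1) hP

theorem NoT.A_d [Finite F] {P : Subgroup (Sp F)} (h : NoT P) {u c : F} (hP : Um u 0 c 0 ∈ P) :
    Um u 0 c 0 = 1 := by
  apply tau_injective
  rw [map_one]
  have : Sp4E.tau (Um u 0 c 0) ∈ P.map Sp4E.tau := ⟨_, hP, rfl⟩
  rw [tau_Um] at this ⊢
  exact h.tau.B_det this (by grobner)

theorem NoT.Z [Finite F] {P : Subgroup (Sp F)} (h : NoT P) {c d : F} (hP : Um 0 0 c d ∈ P)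
    (h1 : Um 0 0 c d ≠ 1) : c ≠ 0 ∧ d ≠ 0 := by
  constructor
  · rintro rfl; exact h1 (h.B_det hP (by ring))
  · rintro rfl; exact h1 (h.A_d hP)

end Cfsg.Agent.Sp4E
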