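import Cfsg.Agent.Sp4E.Dual

/-!
Standard position of a Sylow 2-subgroup.
-/

set_option autoImplicit false
set_option linter.unusedSectionVars false
set_option linter.unusedSimpArgs false

namespace Cfsg.Agent.Sp4E
open Matrix Cfsg.Agent.H9 Cfsg.Lie Grp

variable {F : Type*} [Field F] [CharP F 2]

theorem pt_entries {g : Sp F} (h1 : g.val 1 0 = 0) (h2 : g.val 2 0 = 0) (h3 : g.val 3 0 = 0) :
    g.val 0 0 * g.val 3 3 = 1 ∧ g.val 3 1 = 0 ∧ g.val 3 2 = 0 ∧ g.val 1 1 * g.val 2 2 + g.val 2 1 * g.val 1 2 = 1 := by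
  have h01 : g.val 0 0 * g.val 3 1 + g.val 1 0 * g.val 2 1 + g.val 2 0 * g.val 1 1 + g.val 3 0 * g.val 0 1 = 0 :=
    g.col 0 1
  have h02 : g.val 0 0 * g.val 3 2 + g.val 1 0 * g.val 2 2 + g.val 2 0 * g.val 1 2 + g.val 3 0 * g.val 0 2 = 0 :=
    g.col 0 2
  have h03 : g.val 0 0 * g.val 3 3 + g.val 1 0 * g.val 2 3 + g.val 2 0 * g.val 1 3 + g.val 3 0 * g.val 0 3 = 1 :=
    g.col 0 3
  have h12 : g.val 0 1 * g.val 3 2 + g.val 1 1 * g.val 2 2 + g.val 2 1 * g.val 1 2 + g.val 3 1 * g.val 0 2 = 1 :=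
    g.col 1 2
  refine ⟨?_, ?_, ?_, ?_⟩ <;> grobner

theorem val_mul_apply (g h : Sp F) (i j : Fin 4) : (g * h).val i j =
    g.val i 0 * h.val 0 j + g.val i 1 * h.val 1 j + g.val i 2 * h.val 2 j + g.val i 3 * h.val 3 j := by
  simp [Matrix.mul_apply, Fin.sum_univ_four]

/-- The stabiliser of the point spanned by `e0`. -/
def Pt (F : Type*) [Field F] [CharP F 2] : Subgroup (Sp F) where
  carrier := {g | g.val 1 0 = 0 ∧ g.val 2 0 = 0 ∧ g.val 3 0 = 0}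
  mul_mem' := fun {a b} ha hb => by
    simp only [Set.mem_ofPred_eq, val_mul_apply, ha.1, ha.2.1, ha.2.2, hb.1, hb.2.1, hb.2.2]
    simp
  one_mem' := by simp
  inv_mem' := fun {a} ha => by
    obtain ⟨-, h1, h2, -⟩ := pt_entries ha.1 ha.2.1 ha.2.2
    simp only [Set.mem_ofPred_eq, Sp.val_inv_eq]
    exact ⟨h2, h1, ha.2.2⟩

theorem mem_Pt {g : Sp F} : g ∈ Pt F ↔ g.val 1 0 = 0 ∧ g.val 2 0 = 0 ∧ g.val 3 0 = 0 := Iff.rfl

theorem Um_mem_Pt (u v c d : F) : Um u v c d ∈ Pt F := ⟨rfl, rfl, rfl⟩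

theorem U_le_Pt : U F ≤ Pt F := by rintro _ ⟨u, v, c, d, rfl⟩; exact Um_mem_Pt ..

theorem pt_ne {g : Sp F} (hg : g ∈ Pt F) : g.val 0 0 ≠ 0 :=
  left_ne_zero_of_mul_eq_one (pt_entries hg.1 hg.2.1 hg.2.2).1

theorem conj_A {g : Sp F} (hg : g ∈ Pt F) (u c d : F) : g * Um u 0 c d * g⁻¹ =
    Um (g.val 0 0 * (g.val 2 1 * c + g.val 2 2 * u)) 0 (g.val 0 0 * (g.val 1 1 * c + g.val 1 2 * u))
      (g.val 0 0 ^ 2 * d) := by
  obtain ⟨h1, h2, h3⟩ := hg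
  obtain ⟨h4, h5, h6, h7⟩ := pt_entries h1 h2 h3
  have h13 : g.val 0 1 * g.val 3 3 + g.val 1 1 * g.val 2 3 + g.val 2 1 * g.val 1 3 + g.val 3 1 * g.val 0 3 = 0 :=
    g.col 1 3
  have h23 : g.val 0 2 * g.val 3 3 + g.val 1 2 * g.val 2 3 + g.val 2 2 * g.val 1 3 + g.val 3 2 * g.val 0 3 = 0 :=
    g.col 2 3
  rw [mul_inv_eq_iff_eq_mul]
  apply Sp.ext
  rw [Sp.val_mul, Sp.val_mul, Um_val, Um_val]
  conv_lhs => rw [eta4 g.val, mul4]
  conv_rhs => rhs; rw [eta4 g.val]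
  rw [mul4, h1, h2, h3, h5, h6]
  apply mat4_congr <;> grobner

theorem mem_Pt_of_conj [Finite F] {g : Sp F} {u c d u' c' d' : F} (hd : d ≠ 0)
    (h : g * Um u 0 c d * g⁻¹ = Um u' 0 c' d') : g ∈ Pt F := by
  obtain ⟨r, rfl⟩ := exists_sqrt d
  obtain ⟨r', rfl⟩ := exists_sqrt d'
  have h1 := (isC_A u c r).conj g
  rw [h] at h1
  have h2 := h1.unique (isC_A u' c' r')
  have hr : r ≠ 0 := fun e => hd (by simp [e])
  apply point_of_smul (c := r⁻¹ * r')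
  rw [mul_smul, ← h2, Sp.smul_smul', smul_smul, inv_mul_cancel₀ hr, one_smul]

/-- The Borel subgroup. -/
def Bor (F : Type*) [Field F] [CharP F 2] : Subgroup (Sp F) := Pt F ⊓ (Pt F).comap tau

theorem mem_Bor {g : Sp F} : g ∈ Bor F ↔ g ∈ Pt F ∧ g.val 2 1 = 0 := by
  constructor
  · rintro ⟨h1, h2⟩
    exact ⟨h1, (line_of_tau h2.1 h2.2.1 h2.2.2).2.2.1⟩
  · rintro ⟨h1, h2⟩
    exact ⟨h1, tau_of_line h1.2.1 h1.2.2 h2 (pt_entries h1.1 h1.2.1 h1.2.2).2.1⟩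

theorem U_le_Bor : U F ≤ Bor F := by rintro _ ⟨u, v, c, d, rfl⟩; exact mem_Bor.mpr ⟨Um_mem_Pt .., rfl⟩

theorem mem_U_iff {g : Sp F} : g ∈ U F ↔ g ∈ Bor F ∧ g.val 0 0 = 1 ∧ g.val 1 1 = 1 := by
  constructor
  · rintro ⟨u, v, c, d, rfl⟩; exact ⟨U_le_Bor (Um_mem_U ..), rfl, rfl⟩
  · rintro ⟨h, h0, h1⟩
    obtain ⟨h2, h3⟩ := mem_Bor.mp h
    refine ⟨_, _, _, _, mem_U_of (u := g.val 0 1) ?_ ?_⟩
    · rw [smul_of_point h2, h0, one_smul]
    · rw [Sp.smul_e1, h1, h3, (pt_entries h2.1 h2.2.1 h2.2.2).2.1]; apply vec4_ext <;> simp [e0, e1]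

theorem bor_mul {g h : Sp F} (hg : g ∈ Bor F) (hh : h ∈ Bor F) :
    (g * h).val 0 0 = g.val 0 0 * h.val 0 0 ∧ (g * h).val 1 1 = g.val 1 1 * h.val 1 1 := by
  obtain ⟨⟨a1, a2, a3⟩, a4⟩ := mem_Bor.mp hg
  obtain ⟨⟨b1, b2, b3⟩, b4⟩ := mem_Bor.mp hh
  simp [val_mul_apply, a1, b1, b2, b3, b4, (pt_entries b1 b2 b3).2.1, -Sp.val_mul]

theorem bor_pow {g : Sp F} (hg : g ∈ Bor F) (k : ℕ) :
    (g ^ k).val 0 0 = g.val 0 0 ^ k ∧ (g ^ k).val 1 1 = g.val 1 1 ^ k := by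
  induction k with
  | zero => simp
  | succ k ih =>
    have := bor_mul ((Bor F).pow_mem hg k) hg
    rw [pow_succ, this.1, this.2, ih.1, ih.2, pow_succ, pow_succ]; exact ⟨rfl, rfl⟩

theorem eq_one_of_pow {a : F} {k : ℕ} (h : a ^ 2 ^ k = 1) : a = 1 := by
  induction k with
  | zero => simpa using h
  | succ k ih =>
    apply ih
    apply CharTwo.sq_injective
    show _ ^ 2 = _ ^ 2
    rw [← pow_mul, ← pow_succ, h, one_pow]

theorem mem_U_of_two {g : Sp F} (hg : g ∈ Bor F) (h : Two g) : g ∈ U F := by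
  obtain ⟨k, hk⟩ := h
  have := bor_pow hg (2 ^ k)
  rw [hk] at this
  exact mem_U_iff.mpr ⟨hg, eq_one_of_pow this.1.symm, eq_one_of_pow this.2.symm⟩

theorem tau_mem_U {g : Sp F} (hg : g ∈ U F) : tau g ∈ U F := by
  obtain ⟨u, v, c, d, rfl⟩ := hg; exact ⟨_, _, _, _, tau_Um ..⟩

theorem tau_mem_Bor {g : Sp F} : tau g ∈ Bor F ↔ g ∈ Bor F := by
  have : tau (tau g) ∈ Pt F ↔ g ∈ Pt F := by simp only [mem_Pt, tau_tau_val, pow_eq_zero_iff two_ne_zero]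
  simp only [Bor, Subgroup.mem_inf, Subgroup.mem_comap, this, and_comm]

theorem two_of_tau {g : Sp F} (h : Two (tau g)) : Two g := by
  obtain ⟨k, hk⟩ := h
  exact ⟨k, tau_injective (by rw [map_pow, hk, map_one])⟩

theorem mem_U_of_tau {g : Sp F} (hg : tau g ∈ U F) : g ∈ U F :=
  mem_U_of_two (tau_mem_Bor.mp (U_le_Bor hg)) (two_of_tau (two_of_mem_U hg))

theorem tau_zz : tau (zz : Sp F) = zz := by rw [zz, tau_Um]; apply Um_congr <;> ring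

theorem mem_Bor_of_conj [Finite F] {g : Sp F} {c d c' d' : F} (hc : c ≠ 0) (hd : d ≠ 0)
    (h : g * Um 0 0 c d * g⁻¹ = Um 0 0 c' d') : g ∈ Bor F := by
  refine ⟨mem_Pt_of_conj hd h, ?_⟩
  have := congrArg tau h
  rw [map_mul, map_mul, map_inv, tau_Um, tau_Um, zero_pow two_ne_zero] at this
  exact mem_Pt_of_conj (by simpa using hc) this

/-- The elements with entries in a subfield. -/
def Rat (F₀ : Subfield F) : Subgroup (Sp F) where
  carrier := {g | ∀ i j, g.val i j ∈ F₀}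
  mul_mem' := fun {a b} ha hb i j => by
    rw [val_mul_apply]
    exact F₀.add_mem (F₀.add_mem (F₀.add_mem (F₀.mul_mem (ha _ _) (hb _ _)) (F₀.mul_mem (ha _ _) (hb _ _)))
      (F₀.mul_mem (ha _ _) (hb _ _))) (F₀.mul_mem (ha _ _) (hb _ _))
  one_mem' := fun i j => by
    rw [Sp.val_one, Matrix.one_apply]; split_ifs
    · exact F₀.one_mem
    · exact F₀.zero_mem
  inv_mem' := fun {a} ha i j => by
    rw [Sp.val_inv_eq]
    fin_cases i <;> fin_cases j <;> exact ha _ _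

theorem Um_mem_Rat {F₀ : Subfield F} {u v c d : F} (hu : u ∈ F₀) (hv : v ∈ F₀) (hc : c ∈ F₀) (hd : d ∈ F₀) :
    Um u v c d ∈ Rat F₀ := by
  intro i j
  have h1 := F₀.one_mem; have h0 := F₀.zero_mem
  have h2 := F₀.add_mem hc (F₀.mul_mem hu hv)
  fin_cases i <;> fin_cases j <;> assumption

theorem Hyp.not_le_Rat {P : Subgroup (Sp F)} (h : Hyp P) {F₀ : Subfield F} (H : P ≤ Rat F₀) : F₀ = ⊤ :=
  h.nosub F₀ 1 fun g hg => by rw [one_mul, inv_one, mul_one]; exact H hg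

theorem isSyl_map {G H : Type*} [Group G] [Group H] {P S : Subgroup G} (h : IsSyl P S) (φ : G →* H)
    (hφ : Function.Injective φ) : IsSyl (P.map φ) (S.map φ) where
  le := Subgroup.map_mono h.le
  two := by
    rintro _ ⟨x, hx, rfl⟩
    obtain ⟨k, hk⟩ := h.two x hx
    exact ⟨k, by rw [← map_pow, hk, map_one]⟩
  max T hT h2 hle := by
    have := h.max (T.comap φ ⊓ P) inf_le_right (fun x hx => by
      obtain ⟨k, hk⟩ := h2 _ hx.1
      exact ⟨k, hφ (by rw [map_pow, hk, map_one])⟩) (fun x hx => ⟨hle ⟨x, hx, rfl⟩, h.le hx⟩)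
    refine le_antisymm (fun y hy => ?_) hle
    obtain ⟨x, hx, rfl⟩ := hT hy
    exact ⟨x, this ▸ ⟨hy, hx⟩, rfl⟩

theorem isSyl_inf_U {P S : Subgroup (Sp F)} (h : IsSyl P S) (hS : S ≤ U F) : IsSyl P (P ⊓ U F) := by
  rw [h.max (P ⊓ U F) inf_le_left (fun x hx => two_of_mem_U hx.2) (le_inf h.le hS)]; exact h

theorem IsSyl.mono {G : Type*} [Group G] {P S M : Subgroup G} (h : IsSyl P S) (h1 : S ≤ M) (h2 : M ≤ P) :
    IsSyl M S :=
  ⟨h1, h.two, fun T hT => h.max T (hT.trans h2)⟩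

/-- Standard position. -/
structure Std (P : Subgroup (Sp F)) : Prop where
  hyp : Hyp2 P
  z : zz ∈ P
  syl : IsSyl P (P ⊓ U F)

theorem Hyp2.exists_std [Finite F] {P : Subgroup (Sp F)} (h : Hyp2 P) : ∃ B, Std (Sp4E.cj B P) := by
  obtain ⟨S, hS⟩ := exists_isSyl P
  have hne : S ≠ ⊥ := by
    intro e
    obtain ⟨Q, hQ, h1, -⟩ := exists_Q_of_odd (hS.odd_card e) isQ_Q0
    exact h.h1.noQ Q hQ h1
  obtain ⟨z, hz, hi, hc⟩ := hS.exists_central hne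
  obtain ⟨g, rfl⟩ := h.nt.nf (hS.le hz) hi
  refine ⟨g⁻¹, h.cj _, by rw [mem_cj, inv_inv]; exact hS.le hz, ?_⟩
  refine isSyl_inf_U (isSyl_map hS _ (MulAut.conj g⁻¹).injective) ?_
  rintro _ ⟨x, hx, rfl⟩
  refine mem_U_of_commute one_ne_zero one_ne_zero ?_
  have := (hc x hx).eq
  show g⁻¹ * x * g⁻¹⁻¹ * zz = zz * (g⁻¹ * x * g⁻¹⁻¹)
  calc g⁻¹ * x * g⁻¹⁻¹ * zz = g⁻¹ * (x * (g * zz * g⁻¹)) * g := by group
    _ = _ := by rw [this]; group

namespace Std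
variable [Finite F] {P : Subgroup (Sp F)} (h : Std P)
include h

theorem tau : Std (P.map Sp4E.tau) :=
  ⟨h.hyp.tau, ⟨_, h.z, tau_zz⟩, isSyl_inf_U (isSyl_map h.syl _ tau_injective) (by
    rintro _ ⟨x, hx, rfl⟩; exact tau_mem_U hx.2)⟩

theorem cj {B : Sp F} (hB : B ∈ U F) : Std (Sp4E.cj B P) := by
  refine ⟨h.hyp.cj B, ?_, isSyl_inf_U (isSyl_map h.syl _ (MulAut.conj B).injective) ?_⟩
  · have := conj_mem_cj (B := B) h.z
    obtain ⟨u, v, c, d, rfl⟩ := hB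
    rwa [zz, (Z_commute ..).eq, mul_inv_cancel_right] at this
  · rintro _ ⟨x, hx, rfl⟩
    exact (U F).mul_mem ((U F).mul_mem hB hx.2) ((U F).inv_mem hB)

theorem cit : ∀ t ∈ P, ∀ x ∈ P, Grp.Inv t → Commute x t → Two x :=
  fun _ ht _ _ hi hx => h.hyp.nt.cit ht hi hx

theorem conj_cent {w : Sp F} (hw : w ∈ P) (hi : Grp.Inv w) :
    ∃ k ∈ P, ∀ x ∈ P, Commute x w → k * x * k⁻¹ ∈ U F := by
  obtain ⟨k, hk, H⟩ := h.syl.conj (T := P ⊓ Subgroup.centralizer {w}) inf_le_left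
    (fun x hx => h.cit w hw x hx.1 hi (Subgroup.mem_centralizer_singleton_iff.mp hx.2))
  exact ⟨k, hk, fun x hx hc => (H x ⟨hx, Subgroup.mem_centralizer_singleton_iff.mpr hc⟩).2⟩

theorem Z_eq {c d d' : F} (h1 : Um 0 0 c d ∈ P) (h2 : Um 0 0 c d' ∈ P) : d = d' := by
  have := P.mul_mem h1 h2
  rw [Um_mul] at this
  simp only [add_zero, zero_mul, mul_zero, CharTwo.add_self_eq_zero] at this
  have := h.hyp.nt.B_det this (by ring)
  exact CharTwo.add_eq_zero.mp (Um_eq_one.mp this).2.2.2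

theorem Z_eq' {c c' d : F} (h1 : Um 0 0 c d ∈ P) (h2 : Um 0 0 c' d ∈ P) : c = c' := by
  have := P.mul_mem h1 h2
  rw [Um_mul] at this
  simp only [add_zero, zero_mul, mul_zero, CharTwo.add_self_eq_zero] at this
  have := h.hyp.nt.A_d this
  exact CharTwo.add_eq_zero.mp (Um_eq_one.mp this).2.2.1

/-- Either all involutions of the Sylow subgroup are central in `U`, or a conjugate of `zz` is not. -/
theorem ti_or : (∀ u v c d, Um u v c d ∈ P → u * v = 0 → u = 0 ∧ v = 0) ∨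
    ∃ u v c d, ¬ (u = 0 ∧ v = 0) ∧ ∃ k ∈ P, k * zz * k⁻¹ = Um u v c d := by
  by_contra hh
  push Not at hh
  obtain ⟨⟨u, v, c, d, ht, huv, hne⟩, H⟩ := hh
  have h1 : Um u v c d ≠ 1 := fun e => hne (Um_eq_one.mp e).1 (Um_eq_one.mp e).2.1
  have hi := inv_Um huv h1
  refine h1 (eq_one_of_central h.hyp.h1.simple h.hyp.h1.nonab ht fun g hg => ?_)
  refine Subgroup.mem_centralizer_singleton_iff.mp
    (le_of_conj (K := Subgroup.centralizer {Um u v c d}) h.hyp.h1.simple h.z inv_zz.1 (fun g hg => ?_) hg)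
  rw [Subgroup.mem_centralizer_singleton_iff]
  have hz : g * zz * g⁻¹ ∈ P := P.mul_mem (P.mul_mem hg h.z) (P.inv_mem hg)
  rcases dihedral (inv_zz.conj g).2 hi.2 with ⟨k, hk⟩ | ⟨k, h2, h3, h4⟩
  · refine absurd ?_ (H u v c d hne _ (P.mul_mem (P.pow_mem (P.mul_mem hz ht) k) hg))
    generalize (g * zz * g⁻¹ * Um u v c d) ^ k = r at hk
    rw [← hk]; group
  · obtain ⟨l, hl, H2⟩ := h.conj_cent (P.pow_mem (P.mul_mem hz ht) k) h2
    obtain ⟨u1, v1, c1, d1, e1⟩ := H2 _ hz h3.symm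
    obtain ⟨u2, v2, c2, d2, e2⟩ := H2 _ ht h4.symm
    have : u1 = 0 ∧ v1 = 0 := by
      by_contra hn
      refine H u1 v1 c1 d1 (fun a b => hn ⟨a, b⟩) _ (P.mul_mem hl hg) ?_
      rw [← e1]; group
    obtain ⟨rfl, rfl⟩ := this
    have := (Z_commute u2 v2 c2 d2 c1 d1).eq
    rw [← e1, ← e2] at this
    generalize g * zz * g⁻¹ = z' at this ⊢
    apply (MulAut.conj l).injective
    simpa only [map_mul, MulAut.conj_apply] using this.symm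

end Std

end Cfsg.Agent.Sp4E
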