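import Cfsg.Agent.Sp4E.TI

/-!
The trivial intersection case: identification with the Suzuki group.
-/

set_option autoImplicit false
set_option linter.unusedSectionVars false
set_option linter.unusedSimpArgs false
set_option linter.style.haveILetI false

namespace Cfsg.Agent.Sp4E
open Matrix Cfsg.Agent.H9 Cfsg.Lie Grp

variable {F : Type*} [Field F] [CharP F 2]

theorem wJ_inv : (wJ : Sp F)⁻¹ = wJ := inv_eq_of_mul_eq_one_right wJ_sq

theorem wJ_conj_val (g : Sp F) : (wJ * g * wJ⁻¹).val =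
    !![g.val 3 3, g.val 3 2, g.val 3 1, g.val 3 0; g.val 2 3, g.val 2 2, g.val 2 1, g.val 2 0;
      g.val 1 3, g.val 1 2, g.val 1 1, g.val 1 0; g.val 0 3, g.val 0 2, g.val 0 1, g.val 0 0] := by
  rw [wJ_inv, Sp.val_mul, Sp.val_mul, wJ_val]
  conv_lhs => rw [eta4 g.val]
  rw [mul4, mul4]; apply mat4_congr <;> ring

theorem wJ_not_mem : (wJ : Sp F) ∉ Pt F := fun h => one_ne_zero h.2.2

theorem inv_wJ : Grp.Inv (wJ : Sp F) := ⟨fun e => wJ_not_mem (e ▸ (Pt F).one_mem), wJ_sq⟩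

theorem eq_Dg {g : Sp F} (h1 : g ∈ Bor F) (h2 : wJ * g * wJ⁻¹ ∈ Bor F) : ∃ a b, g = Dg a b := by
  obtain ⟨⟨a1, a2, a3⟩, a4⟩ := mem_Bor.mp h1
  obtain ⟨⟨b1, b2, b3⟩, b4⟩ := mem_Bor.mp h2
  obtain ⟨p1, p2, p3, p4⟩ := pt_entries a1 a2 a3
  obtain ⟨-, q2, q3, -⟩ := pt_entries b1 b2 b3
  rw [wJ_conj_val] at b1 b2 b3 b4 q2 q3
  replace b1 : g.val 2 3 = 0 := b1
  replace b2 : g.val 1 3 = 0 := b2
  replace b3 : g.val 0 3 = 0 := b3
  replace b4 : g.val 1 2 = 0 := b4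
  replace q2 : g.val 0 2 = 0 := q2
  replace q3 : g.val 0 1 = 0 := q3
  rw [b4, mul_zero, add_zero] at p4
  refine ⟨Units.mk0 _ (left_ne_zero_of_mul_eq_one p1), Units.mk0 _ (left_ne_zero_of_mul_eq_one p4), Sp.ext ?_⟩
  rw [Dg_val]
  conv_lhs => rw [eta4 g.val]
  apply mat4_congr <;> first | assumption | rfl | exact eq_inv_of_mul_eq_one_right p1 | exact eq_inv_of_mul_eq_one_right p4

theorem Dg_pow (a b : Fˣ) (k : ℕ) : Dg a b ^ k = Dg (a ^ k) (b ^ k) := by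
  induction k with
  | zero => simp [Dg_one]
  | succ k ih => rw [pow_succ, ih, Dg_mul, pow_succ, pow_succ]

theorem Dg_conj_Z (a b : Fˣ) (c d : F) : Dg a b * Um 0 0 c d * (Dg a b)⁻¹ = Um 0 0 (a * b * c) (a ^ 2 * d) := by
  rw [Dg_conj_Um, mul_zero, mul_zero]

theorem bruhat_col {c d u v c' d' : F} {m : Sp F} (hm : m ∈ Pt F)
    (e : wJ * Um 0 0 c d * wJ⁻¹ = Um u v c' d' * wJ * m) : u * d = c ∧ c' = 0 ∧ d' * d = 1 := by
  have h1 : (Um u v c' d' * wJ * m) • (e0 : V F) = m.val 0 0 • Um u v c' d' • e3 := by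
    rw [mul_smul, mul_smul, smul_of_point hm, Sp.smul_smul', Sp.smul_smul', Sp.smul_e0]; rfl
  rw [← e, Sp.smul_e0, wJ_conj_val, Um_smul] at h1
  have a0 := congrFun h1 0; have a1 := congrFun h1 1; have a2 := congrFun h1 2; have a3 := congrFun h1 3
  simp [Um_val, e3, -mul_eq_zero, -zero_eq_mul] at a0 a1 a2 a3
  refine ⟨?_, ?_, ?_⟩ <;> grobner

namespace TI
variable [Finite F] {P : Subgroup (Sp F)} (h : TI P) (hw : wJ ∈ P)
include h

theorem Z_eq {c d d' : F} (h1 : Um 0 0 c d ∈ P) (h2 : Um 0 0 c d' ∈ P) : d = d' := by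
  have := P.mul_mem h1 h2
  rw [Z_mul, CharTwo.add_self_eq_zero] at this
  have := h.hyp.nt.B_det this (by ring)
  exact CharTwo.add_eq_zero.mp (Um_eq_one.mp this).2.2.2

theorem Z_eq' {c c' d : F} (h1 : Um 0 0 c d ∈ P) (h2 : Um 0 0 c' d ∈ P) : c = c' := by
  have := P.mul_mem h1 h2
  rw [Z_mul, CharTwo.add_self_eq_zero] at this
  have := h.hyp.nt.A_d this
  exact CharTwo.add_eq_zero.mp (Um_eq_one.mp this).2.2.1

theorem Z_zero : Um (0 : F) 0 0 0 ∈ P := Um_zero (F := F) ▸ P.one_mem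

theorem c_ne {c d : F} (h1 : Um 0 0 c d ∈ P) (hd : d ≠ 0) : c ≠ 0 := by
  rintro rfl; exact hd (h.Z_eq h1 h.Z_zero)

theorem v_eq {u v c d v' c' d' : F} (h1 : Um u v c d ∈ P) (h2 : Um u v' c' d' ∈ P) : v = v' := by
  have := P.mul_mem h1 h2
  rw [Um_mul, CharTwo.add_self_eq_zero] at this
  exact CharTwo.add_eq_zero.mp (h.ti _ _ _ _ this (zero_mul _)).2

include hw

theorem not_mem : wJ ∉ P ⊓ Bor F := fun e => wJ_not_mem e.2.1

theorem trans {c d c' d' : F} (h1 : Um 0 0 c d ∈ P) (hd : d ≠ 0) (h2 : Um 0 0 c' d' ∈ P) (hd' : d' ≠ 0) :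
    ∃ a b : Fˣ, Dg a b ∈ P ∧ c' = a * b * c ∧ d' = a ^ 2 * d := by
  obtain ⟨k, k1, k2, e⟩ := h.se.trans hw inv_wJ (h.not_mem hw) ⟨h1, U_le_Bor (Um_mem_U ..)⟩
    (inv_Um (mul_zero _) fun e => hd (Um_eq_one.mp e).2.2.2) ⟨h2, U_le_Bor (Um_mem_U ..)⟩
    (inv_Um (mul_zero _) fun e => hd' (Um_eq_one.mp e).2.2.2)
  obtain ⟨a, b, rfl⟩ := eq_Dg k1.2 k2.2
  rw [Dg_conj_Z] at e
  exact ⟨a, b, k1.1, (Um_inj e).2.2.1.symm, (Um_inj e).2.2.2.symm⟩

theorem s_mem {c d : F} (h1 : Um 0 0 c d ∈ P) (hd : d ≠ 0) : Um (c * d⁻¹) (d * c⁻¹ ^ 2) 0 d⁻¹ ∈ P := by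
  have hc := h.c_ne h1 hd
  obtain ⟨_, ⟨hs, u, v, c', d', rfl⟩, m, hm, e⟩ := h.bruhat hw inv_wJ (h.not_mem hw)
    (P.mul_mem (P.mul_mem hw h1) (P.inv_mem hw)) (fun e => hd (by
      have := e.2.1.2.2
      rwa [wJ_conj_val] at this))
  obtain ⟨a1, rfl, a3⟩ := bruhat_col hm.2.1 e
  have e' := congrArg Sp4E.tau e
  rw [map_mul, map_mul, map_mul, map_mul, map_inv, tau_wJ, tau_Um, tau_Um, zero_pow two_ne_zero] at e'
  obtain ⟨a4, -, -⟩ := bruhat_col hm.2.2 e'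
  have e1 : c * d⁻¹ = u := by rw [← a1]; field_simp
  have e2 : d * c⁻¹ ^ 2 = v := by field_simp; linear_combination -a4
  rw [e1, e2, ← eq_inv_of_mul_eq_one_left a3]
  exact hs

theorem Z_inv {c d : F} (h1 : Um 0 0 c d ∈ P) : Um 0 0 c⁻¹ d⁻¹ ∈ P := by
  by_cases hd : d = 0
  · subst hd
    rw [h.Z_eq' h1 h.Z_zero, _root_.inv_zero]; exact h.Z_zero
  have hc := h.c_ne h1 hd
  have := P.mul_mem (h.s_mem hw h1 hd) (h.s_mem hw h1 hd)
  rw [Um_sq] at this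
  convert this using 2 <;> field_simp

theorem Dg_sqrt {a b : Fˣ} (h1 : Dg a b ∈ P) : ∃ a' b' : Fˣ, Dg a' b' ∈ P ∧ a' * a' = a ∧ b' * b' = b := by
  have hB : ∀ a b : Fˣ, Dg a b ∈ Bor F := fun a b => mem_Bor.mpr ⟨⟨rfl, rfl, rfl⟩, rfl⟩
  obtain ⟨k, hk⟩ := h.se.exists_sqrt hw (h.not_mem hw) ⟨h1, hB a b⟩
    ⟨P.mul_mem (P.mul_mem hw h1) (P.inv_mem hw), mem_Bor.mpr (by rw [mem_Pt, wJ_conj_val]; exact ⟨⟨rfl, rfl, rfl⟩, rfl⟩)⟩
  have := P.pow_mem h1 k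
  rw [Dg_pow] at hk this
  rw [Dg_mul] at hk
  exact ⟨_, _, this, Dg_inj hk⟩

theorem Z_one : Um (0 : F) 0 1 1 ∈ P := by
  obtain ⟨c, d, -, -, h1, -, h2, -⟩ := h.two
  obtain ⟨hc, hd⟩ := h.hyp.nt.Z h1 h2
  obtain ⟨a, b, h3, e1, e2⟩ := h.trans hw h1 hd (h.Z_inv hw h1) (inv_ne_zero hd)
  obtain ⟨a, b, h4, rfl, rfl⟩ := h.Dg_sqrt hw h3
  have := P.mul_mem (P.mul_mem h4 h1) (P.inv_mem h4)
  rw [Dg_conj_Z] at this
  have i1 := mul_inv_cancel₀ hc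
  have i2 := mul_inv_cancel₀ hd
  rw [e1] at i1
  rw [e2] at i2
  push_cast at i1 i2
  convert this using 2 <;> apply CharTwo.sq_injective
  · linear_combination -i1
  · linear_combination -i2

theorem Z_mul' {c d c' d' : F} (h1 : Um 0 0 c d ∈ P) (h2 : Um 0 0 c' d' ∈ P) : Um 0 0 (c * c') (d * d') ∈ P := by
  by_cases hd : d = 0
  · subst hd
    rw [h.Z_eq' h1 h.Z_zero, zero_mul, zero_mul]; exact h.Z_zero
  obtain ⟨a, b, h3, rfl, rfl⟩ := h.trans hw (h.Z_one hw) one_ne_zero h1 hd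
  have := P.mul_mem (P.mul_mem h3 h2) (P.inv_mem h3)
  rw [Dg_conj_Z] at this
  rwa [mul_one, mul_one]

/-- The field of definition. -/
def F0 : Subfield F where
  carrier := {d | ∃ c, Um 0 0 c d ∈ P}
  mul_mem' := fun ⟨_, h1⟩ ⟨_, h2⟩ => ⟨_, h.Z_mul' hw h1 h2⟩
  one_mem' := ⟨_, h.Z_one hw⟩
  add_mem' := fun ⟨_, h1⟩ ⟨_, h2⟩ => ⟨_, Z_mul (F := F) .. ▸ P.mul_mem h1 h2⟩
  zero_mem' := ⟨_, h.Z_zero⟩
  neg_mem' := fun {a} ha => by rw [CharTwo.neg_eq]; exact ha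
  inv_mem' := fun _ ⟨_, h1⟩ => ⟨_, h.Z_inv hw h1⟩

theorem c_mem {c d : F} (h1 : Um 0 0 c d ∈ P) : c ∈ h.F0 hw := by
  have sp : ∀ x : h.F0 hw, Um 0 0 x.2.choose x ∈ P := fun x => x.2.choose_spec
  let σ : h.F0 hw →+* F :=
    { toFun := fun x => x.2.choose
      map_one' := h.Z_eq' (sp 1) (h.Z_one hw)
      map_mul' := fun x y => h.Z_eq' (sp (x * y)) (h.Z_mul' hw (sp x) (sp y))
      map_zero' := h.Z_eq' (sp 0) h.Z_zero
      map_add' := fun x y => h.Z_eq' (sp (x + y)) (Z_mul (F := F) .. ▸ P.mul_mem (sp x) (sp y)) }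
  have := map_mem_self σ ⟨d, c, h1⟩
  exact h.Z_eq' (sp ⟨d, c, h1⟩) h1 ▸ this

theorem U_cases {u v c d : F} (h1 : Um u v c d ∈ P) (hu : u ≠ 0) : ∃ c0 d0, Um 0 0 c0 d0 ∈ P ∧ d0 ≠ 0 ∧
    u = c0 * d0⁻¹ ∧ v = d0 * c0⁻¹ ^ 2 := by
  have hv : v ≠ 0 := by rintro rfl; exact hu (h.ti _ _ _ _ h1 (mul_zero _)).1
  have h2 := P.mul_mem h1 h1
  rw [Um_sq] at h2
  refine ⟨_, _, h.Z_inv hw h2, inv_ne_zero (mul_ne_zero (pow_ne_zero _ hu) hv), ?_, ?_⟩ <;> field_simp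

theorem le_of {K : Subgroup (Sp F)} (hZ : ∀ c d, Um 0 0 c d ∈ P → Um 0 0 c d ∈ K)
    (hs : ∀ c d, Um 0 0 c d ∈ P → d ≠ 0 → Um (c * d⁻¹) (d * c⁻¹ ^ 2) 0 d⁻¹ ∈ K)
    (hD : ∀ a b, Dg a b ∈ P → Dg a b ∈ K) (hJ : wJ ∈ K) : P ≤ K := by
  have hS : P ⊓ U F ≤ K := by
    rintro _ ⟨h1, u, v, c, d, rfl⟩
    by_cases hu : u = 0
    · subst hu
      obtain rfl := (h.ti _ _ _ _ h1 (zero_mul _)).2
      exact hZ _ _ h1
    · obtain ⟨c0, d0, h2, h3, rfl, rfl⟩ := h.U_cases hw h1 hu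
      have h4 := P.mul_mem h1 (h.s_mem hw h2 h3)
      rw [← K.mul_mem_cancel_right (hs _ _ h2 h3)]
      rw [Um_mul, CharTwo.add_self_eq_zero, CharTwo.add_self_eq_zero] at h4 ⊢
      exact hZ _ _ h4
  have hM : P ⊓ Bor F ≤ K := by
    intro m hm
    obtain ⟨k, k1, k2, s, hs, rfl⟩ := h.se.decomp (S := P ⊓ U F) (fun x hx h2 => ⟨hx.1, mem_U_of_two hx.2 h2⟩)
      hw inv_wJ (h.not_mem hw) hm
    obtain ⟨a, b, rfl⟩ := eq_Dg k1.2 k2.2
    exact K.mul_mem (hD _ _ k1.1) (hS hs)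
  intro g hg
  by_cases hg' : g ∈ P ⊓ Bor F
  · exact hM hg'
  · obtain ⟨s, hs, m, hm, rfl⟩ := h.bruhat hw inv_wJ (h.not_mem hw) hg hg'
    exact K.mul_mem (K.mul_mem (hS hs) hJ) (hM hm)

theorem Dg_Z {a b : Fˣ} (h1 : Dg a b ∈ P) : Um 0 0 (a * b : F) (a ^ 2) ∈ P := by
  have := P.mul_mem (P.mul_mem h1 (h.Z_one hw)) (P.inv_mem h1)
  rwa [Dg_conj_Z, mul_one, mul_one] at this

theorem F0_eq_top : h.F0 hw = ⊤ := by
  have o1 := (h.F0 hw).one_mem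
  have o0 := (h.F0 hw).zero_mem
  refine h.hyp.h1.not_le_Rat (h.le_of hw (fun c d h1 => Um_mem_Rat o0 o0 (h.c_mem hw h1) ⟨c, h1⟩)
    (fun c d h1 _ => ?_) (fun a b h1 => ?_) ?_)
  · have hc := h.c_mem hw h1
    have hd : d ∈ h.F0 hw := ⟨c, h1⟩
    exact Um_mem_Rat (mul_mem hc (inv_mem hd)) (mul_mem hd (pow_mem (inv_mem hc) 2)) o0 (inv_mem hd)
  · have h2 := h.Dg_Z hw h1
    have ha : (a : F) ∈ h.F0 hw := mem_of_sq_mem _ ⟨_, h2⟩
    have hb : (b : F) ∈ h.F0 hw := by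
      have := mul_mem (inv_mem ha) (h.c_mem hw h2)
      rwa [← mul_assoc, inv_mul_cancel₀ a.ne_zero, one_mul] at this
    have ha' := inv_mem ha
    have hb' := inv_mem hb
    intro i j
    fin_cases i <;> fin_cases j <;> assumption
  · intro i j
    fin_cases i <;> fin_cases j <;> assumption

theorem exists_sigma : ∃ σ : F →+* F, ∀ x, Um 0 0 (σ x) x ∈ P := by
  have ex : ∀ x : F, ∃ c, Um 0 0 c x ∈ P := fun x => (h.F0_eq_top hw ▸ Subfield.mem_top x : x ∈ h.F0 hw)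
  choose s hs using ex
  exact ⟨{ toFun := s
           map_one' := h.Z_eq' (hs 1) (h.Z_one hw)
           map_mul' := fun x y => h.Z_eq' (hs (x * y)) (h.Z_mul' hw (hs x) (hs y))
           map_zero' := h.Z_eq' (hs 0) h.Z_zero
           map_add' := fun x y => h.Z_eq' (hs (x + y)) (Z_mul (F := F) .. ▸ P.mul_mem (hs x) (hs y)) }, hs⟩

theorem exists_u (u : F) : ∃ v c d, Um u v c d ∈ P := by
  obtain ⟨σ, hσ⟩ := h.exists_sigma hw
  have inj : Function.Injective fun x => σ x * x⁻¹ := by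
    have z : ∀ x, σ x * x⁻¹ = 0 → x = 0 := fun x e => by simpa using e
    intro x y e
    by_cases hx : x = 0
    · subst hx
      exact (z y (by simpa using e.symm)).symm
    have hy : y ≠ 0 := by rintro rfl; exact hx (z x (by simpa using e))
    have h1 := h.s_mem hw (hσ x) hx
    have h2 := h.s_mem hw (hσ y) hy
    replace e : σ x * x⁻¹ = σ y * y⁻¹ := e
    have h3 := h.v_eq h1 (e ▸ h2)
    have e1 : x⁻¹ = (σ x * x⁻¹) ^ 2 * (x * (σ x)⁻¹ ^ 2) := by have := (map_ne_zero σ).mpr hx; field_simp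
    have e2 : y⁻¹ = (σ y * y⁻¹) ^ 2 * (y * (σ y)⁻¹ ^ 2) := by have := (map_ne_zero σ).mpr hy; field_simp
    rw [e, h3, ← e2] at e1
    exact inv_injective e1
  obtain ⟨x, rfl⟩ := Finite.surjective_of_injective inj u
  by_cases hx : x = 0
  · subst hx; exact ⟨0, 0, 0, by simpa using h.Z_zero⟩
  · exact ⟨_, _, _, h.s_mem hw (hσ x) hx⟩

theorem exists_rho : ∃ ρ : F →+* F, ∀ u v c d, Um u v c d ∈ P → v = ρ u := by
  obtain ⟨σ, hσ⟩ := h.exists_sigma hw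
  choose r c d hr using h.exists_u hw
  have r0 : r 0 = 0 := h.v_eq (hr 0) h.Z_zero
  refine ⟨{ toFun := r
            map_one' := ?_
            map_mul' := fun x y => ?_
            map_zero' := r0
            map_add' := fun x y => h.v_eq (hr (x + y)) (Um_mul (F := F) .. ▸ P.mul_mem (hr x) (hr y)) },
    fun u v c d h1 => h.v_eq h1 (hr u)⟩
  · have := h.s_mem hw (h.Z_one hw) one_ne_zero
    simp only [inv_one, mul_one, one_pow] at this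
    exact h.v_eq (hr 1) this
  · by_cases hx : x = 0
    · simp [hx, r0]
    by_cases hy : y = 0
    · simp [hy, r0]
    obtain ⟨c1, d1, a1, a2, a3, a4⟩ := h.U_cases hw (hr x) hx
    obtain ⟨c2, d2, b1, b2, b3, b4⟩ := h.U_cases hw (hr y) hy
    have := h.s_mem hw (h.Z_mul' hw a1 b1) (mul_ne_zero a2 b2)
    rw [show c1 * c2 * (d1 * d2)⁻¹ = x * y by rw [a3, b3]; field_simp] at this
    rw [h.v_eq (hr _) this, a4, b4]; ring

theorem exists_twist (h4 : (⊥ : Subfield F) ≠ ⊤) : ∃ ρ : F →+* F, (∀ x, ρ (ρ x) = x ^ 2) ∧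
    (∀ c d, Um 0 0 c d ∈ P ↔ d = ρ c) := by
  obtain ⟨σ, hσ⟩ := h.exists_sigma hw
  obtain ⟨ρ, hρ⟩ := h.exists_rho hw
  have key : ∀ x, ρ x * RingHom.id F x = (ρ.comp σ) x * ((frobenius F 2).comp σ) x := by
    intro x
    by_cases hx : x = 0
    · simp [hx]
    have := hρ _ _ _ _ (h.s_mem hw (hσ x) hx)
    have h1 := (map_ne_zero σ).mpr hx
    have h2 := (map_ne_zero ρ).mpr hx
    simp only [map_mul, map_inv₀] at this
    simp only [RingHom.id_apply, RingHom.comp_apply, frobenius_def]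
    field_simp at this
    linear_combination this
  rcases dedekind _ _ _ _ key with ⟨e1, e2⟩ | ⟨e1, e2⟩
  · exfalso
    apply h4
    rw [eq_top_iff]; intro x _
    have a : x = σ x := ρ.injective (DFunLike.congr_fun e1 x)
    have b : x = σ x ^ 2 := DFunLike.congr_fun e2 x
    have : x * (x - 1) = 0 := by rw [← a] at b; linear_combination -b
    rcases mul_eq_zero.mp this with e | e
    · rw [e]; exact zero_mem _
    · rw [sub_eq_zero.mp e]; exact one_mem _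
  · have a : ∀ x, ρ x = σ x ^ 2 := fun x => DFunLike.congr_fun e1 x
    have b : ∀ x, x = ρ (σ x) := fun x => DFunLike.congr_fun e2 x
    refine ⟨ρ, fun x => by rw [a x, map_pow, ← b], fun c d => ⟨fun h1 => ?_, ?_⟩⟩
    · rw [h.Z_eq' h1 (hσ d), ← b]
    · rintro rfl
      have := hσ (ρ c)
      rwa [← ρ.injective (b (ρ c))] at this

theorem eq_suz (h4 : (⊥ : Subfield F) ≠ ⊤) : ∃ ρ : F →+* F, (∀ x, ρ (ρ x) = x ^ 2) ∧
    ∀ g, g ∈ P ↔ star4 g.val = g.val.map ρ := by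
  obtain ⟨ρ, h1, h2⟩ := h.exists_twist hw h4
  refine ⟨ρ, h1, ?_⟩
  have mU : ∀ u v c d : F, mapSp ρ (Um u v c d) = Um (ρ u) (ρ v) (ρ c) (ρ d) := fun u v c d => by
    apply Sp.ext; rw [mapSp_val, Um_val, Um_val, map4]; simp
  have hDa : ∀ a b : Fˣ, Dg a b ∈ P → ρ a = a * b := fun a b h3 => by
    apply CharTwo.sq_injective
    show _ ^ 2 = _ ^ 2
    rw [← map_pow, (h2 _ _).mp (h.Dg_Z hw h3), h1]
  have hle : P ≤ Sp4E.tau.eqLocus (mapSp ρ) := by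
    refine h.le_of hw (fun c d h3 => ?_) (fun c d h3 hd => ?_) (fun a b h3 => ?_) ?_
    · obtain rfl := (h2 _ _).mp h3
      show _ = _
      rw [tau_Um, mU, h1, map_zero]; apply Um_congr <;> ring
    · have hc := h.c_ne h3 hd
      obtain rfl := (h2 _ _).mp h3
      show _ = _
      rw [tau_Um, mU]
      simp only [map_mul, map_inv₀, map_pow, h1, map_zero]
      apply Um_congr <;> field_simp
      · grobner
      · ring
    · have e1 := hDa a b h3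
      have e2 : ρ b = a * (b : F)⁻¹ := by
        have := (h2 _ _).mp (h.Dg_Z hw h3)
        rw [map_mul, e1] at this
        field_simp
        exact mul_left_cancel₀ a.ne_zero (by linear_combination -this)
      show _ = _
      rw [tau_Dg]
      apply Sp.ext
      rw [mapSp_val, Dg_val, Dg_val, map4]
      simp [e1, e2]
    · show _ = _
      rw [tau_wJ]; apply Sp.ext; rw [mapSp_val, wJ_val, map4]; simp
  intro g
  refine ⟨fun hg => congrArg Sp.val (hle hg), fun hg => ?_⟩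
  letI : Suz.Tw2 F := ⟨ρ, h1⟩
  have hX : ∀ a b : F, ∃ x ∈ P, x.val = Suz.Xm a b := by
    intro a b
    obtain ⟨v, c, d, h3⟩ := h.exists_u hw a
    have e : Sp4E.tau (Um a v c d) = mapSp ρ (Um a v c d) := hle h3
    rw [tau_Um, mU] at e
    obtain ⟨rfl, -, e3, -⟩ := Um_inj e
    refine ⟨_, P.mul_mem h3 ((h2 (b + a * ρ a + c) _).mpr rfl), ?_⟩
    rw [Um_mul, Um_val, Suz.Xm]
    simp only [map_add, map_mul, h1]
    change _ = !![1, a, b, a * b + a ^ 2 * ρ a + ρ b; 0, 1, ρ a, b + a * ρ a; 0, 0, 1, a; 0, 0, 0, 1]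
    apply mat4_congr <;> grobner
  have hH : ∀ k : F, k ≠ 0 → ∃ x ∈ P, x.val = Suz.Hm k := by
    intro k hk
    have hk' := (map_ne_zero ρ).mpr hk
    obtain ⟨a, b, h3, e1, e2⟩ := h.trans hw (h.Z_one hw) one_ne_zero ((h2 (ρ (k * ρ k)) _).mpr rfl)
      (by simp [hk])
    rw [h1, mul_one] at e2
    have ea : (a : F) = k * ρ k := (CharTwo.sq_injective e2).symm
    have eb : (b : F) = k := by
      rw [mul_one, ea, map_mul, h1] at e1
      exact mul_left_cancel₀ (mul_ne_zero hk hk') (by linear_combination -e1)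
    refine ⟨_, h3, ?_⟩
    rw [Dg_val, ea, eb, Suz.Hm, _root_.mul_inv_rev]; rfl
  have hB : ∀ g : Sp F, Suz.IsSz g.val → g.val 3 0 = 0 → g ∈ P := by
    intro g hg h3
    obtain ⟨k, hk, a, b, e⟩ := hg.borel h3
    obtain ⟨x, hx, ex⟩ := hX a b
    obtain ⟨y, hy, ey⟩ := hH k hk
    have : g = x * y := Sp.ext (by rw [e, Sp.val_mul, ex, ey])
    exact this ▸ P.mul_mem hx hy
  have hs : Suz.IsSz g.val := ⟨g.form, hg⟩
  by_cases h3 : g.val 3 0 = 0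
  · exact hB g hs h3
  · obtain ⟨a, b, e⟩ := hs.bruhat h3
    obtain ⟨x, hx, ex⟩ := hX a b
    have := hB (wJ * (x * g)) (by
      rw [Sp.val_mul, Sp.val_mul, ex]; exact Suz.isSz_Jm.mul ((Suz.isSz_Xm a b).mul hs))
      (by rw [Sp.val_mul, Sp.val_mul, ex]; exact e)
    rwa [P.mul_mem_cancel_left hw, P.mul_mem_cancel_left hx] at this

end TI

theorem Hyp2.suz [Fintype F] {P : Subgroup (Sp F)} (h : Hyp2 P) (h4 : 4 ≤ Fintype.card F) :
    ∃ (B : Sp F) (m : ℕ), 1 ≤ m ∧ Fintype.card F = 2 ^ (2 * m + 1) ∧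
      ∀ g, g ∈ Sp4E.cj B P ↔ star4 g.val = g.val.map fun x => x ^ 2 ^ (m + 1) := by
  obtain ⟨B, hB⟩ := h.exists_std
  obtain ⟨C, hC, hw⟩ := (hB.toTI (bot_ne_top h4)).exists_wJ
  obtain ⟨ρ, h1, h2⟩ := hC.eq_suz hw (bot_ne_top h4)
  obtain ⟨m, h3, h5, h6⟩ := exists_exponent h4 ρ h1
  refine ⟨C * B, m, h3, h5, fun g => ?_⟩
  rw [← cj_cj, h2, show (ρ : F → F) = fun x => x ^ 2 ^ (m + 1) from funext h6]

end Cfsg.Agent.Sp4E
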