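import Cfsg.Agent.Sp4E.FA3
import Cfsg.Agent.Sp4E.Fld

/-!
The trivial intersection case: reduction to a normalised configuration.
-/

set_option autoImplicit false
set_option linter.unusedSectionVars false
set_option linter.unusedSimpArgs false

namespace Cfsg.Agent.Sp4E
open Matrix Cfsg.Agent.H9 Cfsg.Lie Grp

variable {F : Type*} [Field F] [CharP F 2]

theorem Z_mul (c d c' d' : F) : Um 0 0 c d * Um 0 0 c' d' = Um 0 0 (c + c') (d + d') := by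
  rw [Um_mul]; apply Um_congr <;> ring

structure TI (P : Subgroup (Sp F)) : Prop where
  hyp : Hyp2 P
  ti : ∀ u v c d, Um u v c d ∈ P → u * v = 0 → u = 0 ∧ v = 0
  two : ∃ c d c' d', Um 0 0 c d ∈ P ∧ Um 0 0 c' d' ∈ P ∧ Um 0 0 c d ≠ 1 ∧ Um 0 0 c' d' ≠ 1 ∧
    Um 0 0 c d ≠ Um 0 0 c' d'

theorem Std.toTI [Finite F] {P : Subgroup (Sp F)} (h : Std P) (h4 : (⊥ : Subfield F) ≠ ⊤) : TI P := by
  have ti := h.ti h4
  refine ⟨h.hyp, ti, ?_⟩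
  by_contra hh
  have hZ : ∀ c d, Um 0 0 c d ∈ P → Um 0 0 c d = 1 ∨ Um 0 0 c d = zz := by
    intro c d h1
    by_contra h2
    push Not at h2
    exact hh ⟨c, d, 1, 1, h1, h.z, h2.1, inv_zz.1, h2.2⟩
  have huv : ∀ u v c d, Um u v c d ∈ P → u ≠ 0 → u = 1 ∧ v = 1 := by
    intro u v c d h1 hu
    have h2 := P.mul_mem h1 h1
    rw [Um_sq] at h2
    rcases hZ _ _ h2 with e | e
    · exact absurd (ti _ _ _ _ h1 (Um_eq_one.mp e).2.2.1).1 hu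
    · obtain ⟨-, -, a, b⟩ := Um_inj e
      constructor <;> grobner
  have hne : P ⊓ U F ≠ ⊥ := fun e => inv_zz.1 (Subgroup.mem_bot.mp (e.le ⟨h.z, Um_mem_U ..⟩))
  have hZ' : ∀ (x : Sp F), zz ∈ Subgroup.zpowers x → ∀ v c d, Um 0 v c d ∈ P → Um 0 v c d ∈ Subgroup.zpowers x := by
    intro x hx v c d h1
    obtain rfl := (ti _ _ _ _ h1 (zero_mul _)).2
    rcases hZ _ _ h1 with e | e <;> rw [e]
    · exact one_mem _
    · exact hx
  by_cases hs : ∃ u v c d, Um u v c d ∈ P ∧ u ≠ 0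
  · obtain ⟨u, v, c, d, h1, hu⟩ := hs
    obtain ⟨rfl, rfl⟩ := huv _ _ _ _ h1 hu
    have hx : zz ∈ Subgroup.zpowers (Um 1 1 c d) := by
      have := (Subgroup.zpowers (Um 1 1 c d)).mul_mem (Subgroup.mem_zpowers _) (Subgroup.mem_zpowers _)
      rw [Um_sq] at this
      simpa [zz] using this
    refine hne (h.syl.eq_bot_of_cyclic h.hyp.h1.perfect (x := Um 1 1 c d) ?_)
    rintro _ ⟨h2, u', v', c', d', rfl⟩
    by_cases hu' : u' = 0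
    · subst hu'; exact hZ' _ hx _ _ _ h2
    · obtain ⟨rfl, rfl⟩ := huv _ _ _ _ h2 hu'
      have h3 := P.mul_mem h2 h1
      rw [← (Subgroup.zpowers (Um 1 1 c d)).mul_mem_cancel_right (Subgroup.mem_zpowers _)]
      rw [Um_mul, CharTwo.add_self_eq_zero] at h3 ⊢
      exact hZ' _ hx _ _ _ h3
  · push Not at hs
    refine hne (h.syl.eq_bot_of_cyclic h.hyp.h1.perfect (x := zz) ?_)
    rintro _ ⟨h2, u', v', c', d', rfl⟩
    obtain rfl := hs _ _ _ _ h2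
    exact hZ' _ (Subgroup.mem_zpowers _) _ _ _ h2

theorem exists_antidiag [Finite F] {n : Sp F} (hn : n * n = 1) (h1 : n.val 3 0 ≠ 0) (h2 : (tau n).val 3 0 ≠ 0) :
    ∃ B ∈ U F, ∃ a b : Fˣ, Dg a b * (B * n * B⁻¹) * (Dg a b)⁻¹ = wJ := by
  -- first step
  obtain ⟨B1, hB1, e1⟩ : ∃ B ∈ U F, (B * n * B⁻¹) • (e0 : V F) = n.val 3 0 • e3 := by
    refine ⟨Um (n.val 2 0 / n.val 3 0) 0 (n.val 1 0 / n.val 3 0)
      ((n.val 0 0 + n.val 2 0 / n.val 3 0 * n.val 1 0 + n.val 1 0 / n.val 3 0 * n.val 2 0) / n.val 3 0),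
      Um_mem_U .., ?_⟩
    rw [mul_smul, mul_smul, Um_inv, Um_e0, Sp.smul_e0, Um_smul]
    apply vec4_ext <;> simp [e3, div_mul_cancel₀ _ h1] <;> grobner
  have h2' : (tau (B1 * n * B1⁻¹)).val 3 0 ≠ 0 := by
    obtain ⟨u, v, c, d, e⟩ := tau_mem_U hB1
    have : tau (B1 * n * B1⁻¹) • (e0 : V F) = Um u v c d • tau n • e0 := by
      rw [map_mul, map_mul, map_inv, e, mul_smul, mul_smul, Um_inv, Um_e0]
    have := congrFun this 3
    rw [Sp.smul_e0, Um_smul, Sp.smul_e0] at this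
    exact fun e => h2 (this.symm.trans e)
  have hn1 : (B1 * n * B1⁻¹) * (B1 * n * B1⁻¹) = 1 := by
    calc _ = B1 * (n * n) * B1⁻¹ := by group
      _ = 1 := by rw [hn]; group
  generalize hm : B1 * n * B1⁻¹ = m at e1 h2' hn1
  generalize n.val 3 0 = l at h1 e1
  have e3' : m • (e3 : V F) = l⁻¹ • e0 := by
    have := smul_smul_inv hn1 (e0 : V F)
    rw [e1, Sp.smul_smul'] at this
    rw [← this, smul_smul, inv_mul_cancel₀ h1, one_smul]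
  rw [Sp.smul_e0] at e1
  rw [Sp.smul_e3] at e3'
  have a0 : m.val 0 0 = 0 := by simpa [e3] using congrFun e1 0
  have a1 : m.val 1 0 = 0 := by simpa [e3] using congrFun e1 1
  have a2 : m.val 2 0 = 0 := by simpa [e3] using congrFun e1 2
  have a3 : m.val 3 0 = l := by simpa [e3] using congrFun e1 3
  have b0 : m.val 0 3 = l⁻¹ := by simpa [e0] using congrFun e3' 0
  have b1 : m.val 1 3 = 0 := by simpa [e0] using congrFun e3' 1
  have b2 : m.val 2 3 = 0 := by simpa [e0] using congrFun e3' 2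
  have b3 : m.val 3 3 = 0 := by simpa [e0] using congrFun e3' 3
  have h01 : m.val 0 0 * m.val 3 1 + m.val 1 0 * m.val 2 1 + m.val 2 0 * m.val 1 1 + m.val 3 0 * m.val 0 1 = 0 :=
    m.col 0 1
  have h02 : m.val 0 0 * m.val 3 2 + m.val 1 0 * m.val 2 2 + m.val 2 0 * m.val 1 2 + m.val 3 0 * m.val 0 2 = 0 :=
    m.col 0 2
  have h12 : m.val 0 1 * m.val 3 2 + m.val 1 1 * m.val 2 2 + m.val 2 1 * m.val 1 2 + m.val 3 1 * m.val 0 2 = 1 :=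
    m.col 1 2
  have h13 : m.val 0 1 * m.val 3 3 + m.val 1 1 * m.val 2 3 + m.val 2 1 * m.val 1 3 + m.val 3 1 * m.val 0 3 = 0 :=
    m.col 1 3
  have h23 : m.val 0 2 * m.val 3 3 + m.val 1 2 * m.val 2 3 + m.val 2 2 * m.val 1 3 + m.val 3 2 * m.val 0 3 = 0 :=
    m.col 2 3
  have hl : l * l⁻¹ = 1 := mul_inv_cancel₀ h1
  have q : (m * m).val 2 1 = 0 := by rw [hn1]; rfl
  rw [val_mul_apply] at q
  have hb : m.val 2 1 ≠ 0 := by
    intro e; apply h2'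
    show m.val 2 0 * m.val 3 1 - m.val 3 0 * m.val 2 1 = 0
    rw [a2, e]; ring
  have hb' : m.val 2 1 * (m.val 2 1)⁻¹ = 1 := mul_inv_cancel₀ hb
  have ev : m.val = !![0, 0, 0, l⁻¹; 0, m.val 1 1, (1 + m.val 1 1 ^ 2) * (m.val 2 1)⁻¹, 0;
      0, m.val 2 1, m.val 1 1, 0; l, 0, 0, 0] := by
    conv_lhs => rw [eta4 m.val]
    generalize (m.val 2 1)⁻¹ = bi at *
    generalize l⁻¹ = li at *
    apply mat4_congr <;> grobner
  generalize m.val 2 1 = β at ev hb hb'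
  generalize m.val 1 1 = α at ev
  obtain ⟨a, ha⟩ := exists_sqrt l
  obtain ⟨b, hb2⟩ := exists_sqrt β
  have ha0 : a ≠ 0 := fun e => h1 (by rw [← ha, e]; ring)
  have hb0 : b ≠ 0 := fun e => hb (by rw [← hb2, e]; ring)
  refine ⟨Um 0 (α * β⁻¹) 0 0 * B1, (U F).mul_mem (Um_mem_U ..) hB1, Units.mk0 a ha0, Units.mk0 b hb0, ?_⟩
  have : Um 0 (α * β⁻¹) 0 0 * B1 * n * (Um 0 (α * β⁻¹) 0 0 * B1)⁻¹ =
      Um 0 (α * β⁻¹) 0 0 * m * (Um 0 (α * β⁻¹) 0 0)⁻¹ := by rw [← hm]; group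
  rw [this, Um_inv, mul_inv_eq_iff_eq_mul]
  apply Sp.ext
  simp only [Sp.val_mul, Um_val, ev, Dg_val, wJ_val, mul4, Units.val_mk0]
  have i1 : a * a⁻¹ = 1 := mul_inv_cancel₀ ha0
  have i2 : b * b⁻¹ = 1 := mul_inv_cancel₀ hb0
  generalize β⁻¹ = bi at *
  generalize l⁻¹ = li at *
  generalize a⁻¹ = ai at *
  generalize b⁻¹ = bj at *
  clear h01 h02 h12 h13 h23 q a0 a1 a2 a3 b0 b1 b2 b3 e1 e3' ev this
  apply mat4_congr <;> grobner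

namespace TI
variable [Finite F] {P : Subgroup (Sp F)} (h : TI P)
include h

theorem cj_U {B : Sp F} (hB : B ∈ U F) : TI (Sp4E.cj B P) := by
  refine ⟨h.hyp.cj B, fun u v c d h1 => ?_, ?_⟩
  · rw [mem_cj, ← inv_inv B, inv_inv B⁻¹] at h1
    obtain ⟨a, b, g, e, hB'⟩ := (U F).inv_mem hB
    rw [hB', conj_Um] at h1
    exact h.ti _ _ _ _ h1
  · obtain ⟨c, d, c', d', h1, h2, h3⟩ := h.two
    exact ⟨c, d, c', d', conj_zz_U hB c d ▸ conj_mem_cj h1, conj_zz_U hB c' d' ▸ conj_mem_cj h2, h3⟩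

theorem cj_Dg (a b : Fˣ) : TI (Sp4E.cj (Dg a b) P) := by
  refine ⟨h.hyp.cj _, fun u v c d h1 huv => ?_, ?_⟩
  · rw [mem_cj, ← inv_inv (Dg a b), inv_inv (Dg a b)⁻¹, Dg_inv, Dg_conj_Um] at h1
    have := h.ti _ _ _ _ h1 (by linear_combination ((a⁻¹ : Fˣ) * ((b⁻¹ : Fˣ) : F)⁻¹ * (b⁻¹ : Fˣ) ^ 2) * huv)
    simpa using this
  · obtain ⟨c, d, c', d', h1, h2, h3, h4, h5⟩ := h.two
    have e : ∀ c d : F, Dg a b * Um 0 0 c d * (Dg a b)⁻¹ = Um 0 0 (a * b * c) (a ^ 2 * d) := fun c d => by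
      rw [Dg_conj_Um, mul_zero, mul_zero]
    refine ⟨_, _, _, _, e c d ▸ conj_mem_cj h1, e c' d' ▸ conj_mem_cj h2, ?_, ?_, ?_⟩
    · rw [← e]; simpa using h3
    · rw [← e]; simpa using h4
    · rw [← e, ← e]; simpa using h5

theorem inv_Z {t : Sp F} (ht : t ∈ P ⊓ Bor F) (hi : Grp.Inv t) : ∃ c d, t = Um 0 0 c d ∧ c ≠ 0 ∧ d ≠ 0 := by
  obtain ⟨u, v, c, d, rfl⟩ := mem_U_of_two ht.2 hi.two
  have := hi.2
  rw [Um_sq] at this
  obtain ⟨rfl, rfl⟩ := h.ti _ _ _ _ ht.1 (Um_eq_one.mp this).2.2.1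
  exact ⟨c, d, rfl, h.hyp.nt.Z ht.1 hi.1⟩

theorem se : SE' P (P ⊓ Bor F) := by
  refine ⟨inf_le_left, fun g hg t ht hi hgt => ⟨hg, ?_⟩, fun t ht x _ hi hx => h.hyp.nt.cit ht hi hx,
    fun e => ?_, ?_⟩
  · obtain ⟨c, d, rfl, hc, hd⟩ := h.inv_Z ht hi
    obtain ⟨c', d', e, -⟩ := h.inv_Z hgt (hi.conj g)
    exact mem_Bor_of_conj hc hd e
  · exact h.hyp.h1.not_point fun g hg => (e.ge hg).2.1
  · obtain ⟨c, d, -, -, h1, -, h2, -⟩ := h.two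
    exact ⟨_, ⟨h1, U_le_Bor (Um_mem_U ..)⟩, inv_Um (mul_zero _) h2⟩

theorem bruhat {n : Sp F} (hP : n ∈ P) (hn : Grp.Inv n) (hm : n ∉ P ⊓ Bor F) {g : Sp F} (hg : g ∈ P)
    (hg' : g ∉ P ⊓ Bor F) : ∃ s ∈ P ⊓ U F, ∃ m ∈ P ⊓ Bor F, g = s * n * m := by
  obtain ⟨c, d, c', d', h1, h2, h3, h4, h5⟩ := h.two
  exact h.se.bruhat (inf_le_inf_left _ U_le_Bor) (fun x hx => two_of_mem_U hx.2)
    (fun x hx h2 => ⟨hx.1, mem_U_of_two hx.2 h2⟩) ⟨_, ⟨h1, U_le_Bor (Um_mem_U ..)⟩, _, ⟨h2, U_le_Bor (Um_mem_U ..)⟩,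
      inv_Um (mul_zero _) h3, inv_Um (mul_zero _) h4, h5⟩ hP hn hm hg hg'

omit h [Finite F] in
theorem three_zero {s n m : Sp F} (hs : s ∈ U F) (hm : m ∈ Pt F) (h0 : n.val 3 0 = 0) : (s * n * m).val 3 0 = 0 := by
  obtain ⟨u, v, c, d, rfl⟩ := hs
  have : (Um u v c d * n * m) • (e0 : V F) = m.val 0 0 • Um u v c d • n • e0 := by
    rw [mul_smul, mul_smul, smul_of_point hm, Sp.smul_smul', Sp.smul_smul']
  have := congrFun this 3
  rw [Sp.smul_e0, Um_smul, Sp.smul_e0] at this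
  simpa [h0] using this

theorem exists_wJ : ∃ B, TI (Sp4E.cj B P) ∧ wJ ∈ Sp4E.cj B P := by
  obtain ⟨n, hP, hn, hm⟩ := h.se.exists_not_mem
  obtain ⟨B, hB, a, b, e⟩ := exists_antidiag hn.2 (fun e => h.hyp.h1.not_perp fun g hg => by
    by_cases hg' : g ∈ P ⊓ Bor F
    · exact hg'.2.1.2.2
    · obtain ⟨s, hs, m, hm, rfl⟩ := h.bruhat hP hn hm hg hg'
      exact three_zero hs.2 hm.2.1 e) (fun e => h.hyp.h2.not_perp (by
    rintro _ ⟨g, hg, rfl⟩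
    by_cases hg' : g ∈ P ⊓ Bor F
    · exact hg'.2.2.2.2
    · obtain ⟨s, hs, m, hm, rfl⟩ := h.bruhat hP hn hm hg hg'
      rw [map_mul, map_mul]
      exact three_zero (tau_mem_U hs.2) hm.2.2 e))
  refine ⟨Dg a b * B, ?_, ?_⟩
  · rw [← cj_cj]; exact (h.cj_U hB).cj_Dg a b
  · rw [← cj_cj, ← e]; exact conj_mem_cj (conj_mem_cj hP)

end TI

end Cfsg.Agent.Sp4E
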