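import Cfsg.Agent.Sp4E.Inv
import Cfsg.Agent.Sp4E.Grp2

/-!
Subgroups of `Sp₄(q)`, `q` even, containing transvections: basic closure properties.
-/

set_option autoImplicit false
set_option linter.unusedSectionVars false

namespace Cfsg.Agent.Sp4E.Tv
open Grp

variable {F : Type*} [Field F] [CharP F 2]

theorem tv_inj {u v : V F} (h : tv u = tv v) : u = v := eq_of_f fun z => by
  have := congrArg (fun g : Sp F => f z (g • z)) h
  simp only [tv_smul, f_add_right, f_smul_right, f_self] at this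
  grind

theorem fix_of_comm {g : Sp F} {u : V F} (h : Commute g (tv u)) : g • u = u :=
  tv_inj (by rw [← conj_tv, h.eq, mul_inv_cancel_right])

theorem tv_fix {u x : V F} (h : f x u = 0) : tv u • x = x := by simp [tv_smul, h]

theorem tv_comm {u v : V F} (h : f u v = 0) : Commute (tv u) (tv v) := by
  have := conj_tv (tv u) v
  rw [tv_fix (f_comm u v ▸ h), mul_inv_eq_iff_eq_mul] at this
  exact this

theorem tv_add (a b : F) (u : V F) : tv (a • u) * tv (b • u) = tv ((a + b) • u) :=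
  Sp.ext_smul fun x => by
    simp only [mul_smul, tv_smul, f_add_left, f_smul_left, f_smul_right, f_self]
    ext i
    simp only [Pi.add_apply, Pi.smul_apply, smul_eq_mul]
    grind

theorem ext_perp {u v : V F} (h : f u v ≠ 0) {g g' : Sp F} (hu : g • u = g' • u)
    (hv : g • v = g' • v) (hx : ∀ x, f x u = 0 → f x v = 0 → g • x = g' • x) : g = g' :=
  Sp.ext_smul fun x => by
    have := hx (x + (f x v / f u v) • u + (f x u / f u v) • v)
      (by simp only [f_add_left, f_smul_left, f_self, f_comm v u]; field_simp; grind)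
      (by simp only [f_add_left, f_smul_left, f_self]; field_simp; grind)
    simpa [smul_add, Sp.smul_smul', hu, hv] using this

theorem tv_mid {u v : V F} {r : F} (h : f u v = r ^ 2) (h0 : r ≠ 0) :
    tv (r⁻¹ • (u + v)) • u = v := by
  simp only [tv_smul, f_add_right, f_smul_right, f_self, h, smul_smul]
  rw [show r⁻¹ * (0 + r ^ 2) * r⁻¹ = 1 by field_simp; ring, one_smul, ← add_assoc, add_self_vec,
    zero_add]

theorem tv_four {x y : V F} (h : f x y = 0) (s : F) :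
    tv x * tv y * tv (s • x + (1 + s) • y) = tv ((1 + s) • x + s • y) :=
  Sp.ext_smul fun z => by
    simp only [mul_smul, tv_smul, f_add_left, f_add_right, f_smul_left, f_smul_right, f_self, h,
      f_comm y x]
    ext i
    simp only [Pi.add_apply, Pi.smul_apply, smul_eq_mul]
    grind

theorem tv_not_sq {g : Sp F} {u : V F} (h : g * g = tv u) : u = 0 := eq_zero_of_f fun x => by
  have h1 : g • u = u := fix_of_comm (h ▸ (Commute.refl g).mul_right (Commute.refl g))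
  have h2 : g • g • x = x + f x u • u := by rw [← mul_smul, h, tv_smul]
  have h3 : f (g • x) u = f x u := by rw [← Sp.f_smul g x, h1]
  have h4 := Sp.f_smul g x (g • x)
  rw [h2, f_add_right, f_smul_right, h3, f_comm] at h4
  rw [f_comm]
  grind

theorem eq_tv [Finite F] {g : Sp F} (hg : g * g = 1) {u v : V F} (h : f u v ≠ 0) (hu : g • u = u)
    (hv : g • v = v) : ∃ z, g = tv z := by
  by_cases h1 : g = 1
  · exact ⟨0, h1.trans tv_zero.symm⟩
  obtain ⟨c, hc⟩ := exists_isC hg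
  by_contra h2
  obtain ⟨b, d, rfl⟩ : ∃ b d, g = b * Um 0 0 1 d * b⁻¹ := by
    by_cases c0 : c = 0
    · exact (nf_a2 ⟨h1, hg⟩ (c0 ▸ hc)).imp fun _ h => ⟨_, h⟩
    · exact (nf_c2 ⟨h1, hg⟩ hc c0 fun e => h2 ⟨c, e⟩).imp fun _ h => ⟨_, h⟩
  have k : ∀ x : V F, (b * Um 0 0 1 d * b⁻¹) • x = x → (b⁻¹ • x) 2 = 0 ∧ (b⁻¹ • x) 3 = 0 :=
    fun x e => by
      rw [mul_smul, mul_smul, ← eq_inv_smul_iff, Um_smul] at e
      have e0 := congrFun e 0
      have e1 := congrFun e 1
      simp at e0 e1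
      grind
  rw [← Sp.f_smul b⁻¹, f, (k u hu).1, (k u hu).2, (k v hv).1, (k v hv).2] at h
  simp at h

theorem perp_pair {u v : V F} (hv : v ≠ 0) (h : ∀ c : F, u ≠ c • v) (h0 : f u v = 0) {z : V F}
    (h1 : f z u = 0) (h2 : f z v = 0) : ∃ a b : F, z = a • u + b • v := by
  obtain ⟨g, rfl, rfl⟩ := witt_01 hv h h0
  rw [← Sp.f_smul g⁻¹, inv_smul_smul] at h1 h2
  rw [f_e0] at h1
  rw [f_e1] at h2
  refine ⟨(g⁻¹ • z) 0, (g⁻¹ • z) 1, ?_⟩
  rw [← Sp.smul_smul', ← Sp.smul_smul', ← smul_add, ← inv_smul_eq_iff]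
  conv_lhs => rw [basis_expand (g⁻¹ • z)]
  simp [h1, h2]

theorem eq_top_of [Finite F] {P : Subgroup (Sp F)} (h : ∀ u, tv u ∈ P) : P = ⊤ := by
  have k : ∀ (n : ℕ) (g : Sp F), Set.ncard {x : V F | g • x ≠ x} = n → g ∈ P := fun n => by
    induction n using Nat.strong_induction_on with
    | _ n ih =>
    have k1 : ∀ g : Sp F, Set.ncard {x : V F | g • x ≠ x} ≤ n → ∀ x : V F, f x (g • x) ≠ 0 → g ∈ P := by
      intro g hg x hx
      obtain ⟨r, hr⟩ := exists_sqrt (f (g • x) x)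
      have r0 : r ≠ 0 := fun e => hx (by rw [f_comm, ← hr, e]; simp)
      refine (P.mul_mem_cancel_left (h (r⁻¹ • (g • x + x)))).1 (ih _ (lt_of_lt_of_le ?_ hg) _ rfl)
      refine Set.ncard_lt_ncard ⟨fun y hy e => hy ?_, fun e => ?_⟩
      · have := Sp.f_smul g y x
        rw [mul_smul, e, tv_fix]
        rw [e] at this
        simp only [f_add_right, f_smul_right, this]
        grind
      · exact e (show g • x ≠ x from fun e => hx (by simp [e])) (by
          rw [mul_smul, tv_mid hr.symm r0])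
    rintro g rfl
    by_cases h1 : ∃ x : V F, f x (g • x) ≠ 0
    · exact h1.elim (k1 g le_rfl)
    push Not at h1
    by_cases h2 : g = 1
    · exact h2 ▸ P.one_mem
    obtain ⟨z, hz⟩ : ∃ z : V F, g • z + z ≠ 0 := by
      by_contra e
      push Not at e
      exact h2 (Sp.ext_smul fun z => (add_eq_zero_vec.1 (e z)).trans (one_smul _ z).symm)
    obtain ⟨x, hx⟩ := exists_f_one hz
    refine (P.mul_mem_cancel_left (h (g • z + z))).1 (k1 _ ?_ x ?_)
    · refine Set.ncard_le_ncard fun y hy e => hy ?_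
      have := Sp.f_smul g y z
      rw [mul_smul, e, tv_fix]
      rw [e] at this
      simp only [f_add_right, this]
      grind
    · have e1 := h1 (x + z)
      have e2 := Sp.f_smul g x z
      have e3 := h1 (g • x + z)
      have e4 := h1 (g • x + g • z)
      rw [f_comm] at hx
      simp only [mul_smul, tv_smul, smul_add, f_add_left, f_add_right, f_smul_right, h1, Sp.f_smul,
        f_comm z (g • x)] at *
      grind
  exact top_le_iff.1 fun g _ => k _ g rfl

variable [Finite F] {P : Subgroup (Sp F)}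

theorem act {g : Sp F} (hg : g ∈ P) {x : V F} (h : tv x ∈ P) : tv (g • x) ∈ P :=
  conj_tv g x ▸ P.mul_mem (P.mul_mem hg h) (P.inv_mem hg)

theorem step {x y : V F} (hx : tv x ∈ P) (hy : tv y ∈ P) : tv (y + f y x • x) ∈ P :=
  tv_smul x y ▸ act hx hy

theorem mid {u v : V F} (hu : tv u ∈ P) (hv : tv v ∈ P) {r : F} (h : f u v = r ^ 2) (h0 : r ≠ 0) :
    tv (r⁻¹ • (u + v)) ∈ P := by
  have h1 : f u v ≠ 0 := h ▸ pow_ne_zero 2 h0
  have h2 : ∀ (k : ℕ) (x : V F), f x u = 0 → f x v = 0 → (tv u * tv v) ^ k • x = x :=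
    fun k x e e' => MulAction.mem_stabilizer_iff.1 (pow_mem (MulAction.mem_stabilizer_iff.2
      (by rw [mul_smul, tv_fix e', tv_fix e])) k)
  rcases dihedral (tv_sq u) (tv_sq v) with ⟨k, e⟩ | ⟨k, e, e1, e2⟩
  · rw [conj_tv] at e
    have e1 : ((tv u * tv v) ^ k * tv u) • u = v := by rw [mul_smul, tv_fix (f_self u), tv_inj e]
    have e2 := inv_conj_pow (tv_sq u) (r := tv u * tv v) (by
      rw [← mul_assoc, tv_sq, one_mul, mul_inv_rev, tv_inv, tv_inv]) k
    have e3 : ((tv u * tv v) ^ k * tv u) • v = u := by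
      conv_lhs => arg 2; rw [← e1]
      rw [← mul_smul, mul_assoc, ← mul_assoc (tv u), e2]
      simp
    rw [← ext_perp h1 (e1.trans (tv_mid h h0).symm)
      (e3.trans (by rw [add_comm, tv_mid ((f_comm _ _).trans h) h0])) fun x a b => by
        rw [mul_smul, tv_fix a, h2 k x a b, tv_fix (by simp [f_smul_right, f_add_right, a, b])]]
    exact P.mul_mem (pow_mem (P.mul_mem hu hv) k) hu
  · exact (e.1 (ext_perp h1 (by simp [fix_of_comm e1]) (by simp [fix_of_comm e2])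
      fun x a b => by simp [h2 k x a b])).elim

theorem mid' {u v : V F} (hu : tv u ∈ P) (hv : tv v ∈ P) (h : f u v ≠ 0) :
    ∃ r : F, r ≠ 0 ∧ f u v = r ^ 2 ∧ tv (r⁻¹ • (u + v)) ∈ P := by
  obtain ⟨r, hr⟩ := exists_sqrt (f u v)
  have r0 : r ≠ 0 := fun e => h (by rw [← hr, e]; simp)
  exact ⟨r, r0, hr.symm, mid hu hv hr.symm r0⟩

variable (h : Hyp P)
include h

theorem orb {u : V F} (u0 : u ≠ 0) {z : V F} (z0 : z ≠ 0) : ∃ g ∈ P, f (g • u) z ≠ 0 := by
  by_contra k
  push Not at k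
  let W : Submodule F (V F) :=
    { carrier := {z | ∀ g ∈ P, f (g • u) z = 0}
      add_mem' := fun ha hb g hg => by rw [f_add_right, ha g hg, hb g hg, add_zero]
      zero_mem' := fun _ _ => f_zero_right _
      smul_mem' := fun c _ ha g hg => by rw [f_smul_right, ha g hg, mul_zero] }
  rcases h.irr W fun g hg w hw g' hg' => by
    rw [← Sp.f_smul g⁻¹, inv_smul_smul, ← mul_smul]
    exact hw _ (P.mul_mem (P.inv_mem hg) hg') with e | e
  · exact z0 ((Submodule.mem_bot F).1 (e ▸ (k : z ∈ W)))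
  · exact u0 (eq_zero_of_f fun y => by
      simpa using (e ▸ Submodule.mem_top : y ∈ W) 1 P.one_mem)

theorem trans {x y : V F} (hx : tv x ∈ P) (hy : tv y ∈ P) (x0 : x ≠ 0) (y0 : y ≠ 0) :
    ∃ g ∈ P, g • x = y := by
  obtain ⟨g, hg, e⟩ := orb h x0 y0
  obtain ⟨r, r0, e1, e2⟩ := mid' (act hg hx) hy e
  exact ⟨_, P.mul_mem e2 hg, by rw [mul_smul, tv_mid e1 r0]⟩

variable {u : V F} (hu : tv u ∈ P) (u0 : u ≠ 0)
include hu u0

theorem exists_ne {z : V F} (z0 : z ≠ 0) : ∃ y, tv y ∈ P ∧ f y z ≠ 0 :=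
  let ⟨_, hg, e⟩ := orb h u0 z0
  ⟨_, act hg hu, e⟩

theorem le_of {K : Subgroup (Sp F)} (hK : ∀ x, tv x ∈ P → tv x ∈ K) : P ≤ K :=
  le_of_conj h.simple hu (tv_ne_one u0) fun g hg => conj_tv g u ▸ hK _ (act hg hu)

theorem sub_top {F₀ : Subfield F} (H : ∀ x y, tv x ∈ P → tv y ∈ P → f x y ∈ F₀) : F₀ = ⊤ := by
  let N : V F → Prop := fun x => ∀ y, (∀ z, tv z ∈ P → f y z ∈ F₀) → f x y ∈ F₀
  have n1 : ∀ x, tv x ∈ P → N x := fun x hx y hy => f_comm x y ▸ hy x hx
  have n2 : ∀ x y, N x → N y → f x y ∈ F₀ := fun x y hx hy =>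
    hx y fun z hz => hy z fun w hw => H z w hz hw
  have n3 : ∀ x y, N x → N y → N (x + y) := fun x y hx hy z hz =>
    f_add_left x y z ▸ F₀.add_mem (hx z hz) (hy z hz)
  have n4 : ∀ c ∈ F₀, ∀ x, N x → N (c • x) := fun c hc x hx z hz =>
    f_smul_left c x z ▸ F₀.mul_mem hc (hx z hz)
  have n5 : ∀ g ∈ P, ∀ x, N x → N (g • x) := fun g hg x hx z hz => by
    rw [Sp.f_smul_left']
    exact hx _ fun w hw => by rw [Sp.f_smul_left', inv_inv]; exact hz _ (act hg hw)
  obtain ⟨x3, h3, h03⟩ : ∃ x3, N x3 ∧ f u x3 = 1 := by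
    obtain ⟨y, hy, e⟩ := exists_ne h hu u0 u0
    exact ⟨_, n4 _ (F₀.inv_mem (H _ _ hy hu)) _ (n1 y hy), by
      rw [f_smul_right, f_comm u, inv_mul_cancel₀ e]⟩
  have k : ∀ z, z ≠ 0 → f z u = 0 → f z x3 = 0 → ∃ x, N x ∧ f u x = 0 ∧ f x x3 = 0 ∧ f z x ≠ 0 :=
    fun z z0 a b => by
      obtain ⟨y, hy, e⟩ := exists_ne h hu u0 z0
      refine ⟨y + f y x3 • u + f y u • x3, n3 _ _ (n3 _ _ (n1 y hy) (n4 _ (n2 _ _ (n1 y hy) h3) _
        (n1 u hu))) (n4 _ (H _ _ hy hu) _ h3), ?_, ?_, ?_⟩ <;>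
      simp only [f_add_left, f_add_right, f_smul_left, f_smul_right, f_self, h03, a, b,
        f_comm u y, f_comm z y] <;> grind
  obtain ⟨z, z0, a, b⟩ := exists_perp_ne u x3 h03
  obtain ⟨x1, h1, h01, h13, e⟩ := k z z0 (f_comm u z ▸ a) b
  obtain ⟨x, h2, h02, h23, e'⟩ := k x1 (fun e' => e (by simp [e'])) (f_comm u x1 ▸ h01) h13
  obtain ⟨B, e0, e1, e2, e3⟩ := exists_ofBasis (x2 := (f x1 x)⁻¹ • x) h01
    (by simp [f_smul_right, h02]) h03 (by simp [f_smul_right, e']) h13 (by simp [f_smul_left, h23])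
  have n6 : ∀ j, N (B • Pi.single j (1 : F)) := fun j => by
    have := n4 _ (F₀.inv_mem (n2 _ _ h1 h2)) _ h2
    fin_cases j
    · convert n1 u hu; rw [← e0]; congr 1; apply vec4_ext <;> rfl
    · convert h1; rw [← e1]; congr 1; apply vec4_ext <;> rfl
    · convert this; rw [← e2]; congr 1; apply vec4_ext <;> rfl
    · convert h3; rw [← e3]; congr 1; apply vec4_ext <;> rfl
  refine h.nosub F₀ B⁻¹ fun g hg i j => ?_
  have := n2 _ _ (n5 g hg _ (n6 j)) (n6 (Fin.rev i))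
  rw [← Sp.f_smul B⁻¹, inv_smul_smul, ← mul_smul, ← mul_smul] at this
  rw [inv_inv]
  generalize B⁻¹ * g * B = A at this
  fin_cases i <;> simpa [f, Sp.smul_def, Fin.rev] using this

end Cfsg.Agent.Sp4E.Tv
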