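import Cfsg.Agent.Sp4E.TvA

/-!
Subgroups of `Sp₄(q)`, `q` even, containing transvections: one transvection per point.
-/

set_option autoImplicit false
set_option linter.unusedSectionVars false

namespace Cfsg.Agent.Sp4E.Tv
open Grp

variable {F : Type*} [Field F] [CharP F 2] [Finite F] {P : Subgroup (Sp F)}

theorem four {x y : V F} (hx : tv x ∈ P) (hy : tv y ∈ P) (h : f x y = 0) {s : F}
    (H : tv (s • x + (1 + s) • y) ∈ P) : tv ((1 + s) • x + s • y) ∈ P :=
  tv_four h s ▸ P.mul_mem (P.mul_mem hx hy) H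

theorem ker_mem {y x z : V F} (hy : tv y ∈ P) (hx : tv x ∈ P) (hz : tv z ∈ P) (h : f x z = 0)
    (h1 : f y x ≠ f y z) : tv ((f y x + f y z)⁻¹ • (f y z • x + f y x • z)) ∈ P := by
  have r0 : f y x + f y z ≠ 0 := by grind
  have := mid (step hx hy) (step hz hy) (r := f y x + f y z) (by
    simp only [f_add_left, f_add_right, f_smul_left, f_smul_right, f_self, h, f_comm x y]
    grind) r0
  convert four hx hz h (s := (f y x + f y z)⁻¹ * f y x) (by
    convert this using 2
    ext i
    simp only [Pi.add_apply, Pi.smul_apply, smul_eq_mul]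
    grind) using 2
  ext i
  simp only [Pi.add_apply, Pi.smul_apply, smul_eq_mul]
  grind

section
variable (h : Hyp P) {u : V F} (hu : tv u ∈ P) (u0 : u ≠ 0)
include h hu u0

theorem irr_tv (W : Submodule F (V F)) (H : ∀ y, tv y ∈ P → ∀ w ∈ W, tv y • w ∈ W) :
    W = ⊥ ∨ W = ⊤ := by
  let K : Subgroup (Sp F) :=
    { carrier := {g | ∀ w, w ∈ W ↔ g • w ∈ W}
      mul_mem' := fun ha hb w => by rw [mul_smul, ← ha, ← hb]
      one_mem' := fun w => by rw [one_smul]
      inv_mem' := fun {g} ha w => by rw [ha (g⁻¹ • w), smul_inv_smul] }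
  have : P ≤ K := le_of h hu u0 fun y hy w => ⟨H y hy w, fun e => by
    simpa [← mul_smul, tv_sq] using H y hy _ e⟩
  exact h.irr W fun g hg w hw => (this hg w).1 hw

theorem lam {c : F} (hc : tv (c • u) ∈ P) {x : V F} (hx : tv x ∈ P) : tv (c • x) ∈ P := by
  by_cases x0 : x = 0
  · rwa [x0, smul_zero, ← x0]
  obtain ⟨g, hg, rfl⟩ := trans h hu hx u0 x0
  exact Sp.smul_smul' g c u ▸ act hg hc

theorem all_smul {α : F} (hα : tv (α • u) ∈ P) (h0 : α ≠ 0) (h1 : α ≠ 1) (c : F) :
    tv (c • u) ∈ P := by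
  let K : Subfield F :=
    { carrier := {c | tv (c • u) ∈ P}
      mul_mem' := fun ha hb => by simpa [mul_smul] using lam h hu u0 ha hb
      one_mem' := by simpa using hu
      add_mem' := fun ha hb => by simpa [tv_add] using P.mul_mem ha hb
      zero_mem' := by simp [tv_zero]
      neg_mem' := fun ha => by rwa [CharTwo.neg_eq]
      inv_mem' := fun c ha => by
        by_cases c0 : c = 0
        · simp [tv_zero, c0]
        exact lam h ha (smul_ne_zero c0 u0) (by simpa [c0] using hu) hu }
  have k : ∀ {c x}, c ∈ K → tv x ∈ P → tv (c • x) ∈ P := fun hc hx => lam h hu u0 hc hx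
  have a1 : 1 + α ≠ 0 := by grind
  have : K = ⊤ := sub_top h hu u0 fun x y hx hy => by
    by_cases e : f x y = 0
    · exact e ▸ K.zero_mem
    obtain ⟨r, r0, e1, e2⟩ := mid' hx hy e
    have e3 := k hα (mid (k hα (k hα hx)) hy (r := α * r) (by
      simp only [f_smul_left, e1]; ring) (mul_ne_zero h0 r0))
    have e4 := mid e2 e3 (r := 1 + α) (by
      simp only [f_add_left, f_add_right, f_smul_left, f_smul_right, f_self, f_comm y x, e1]
      grind) a1
    have e5 : tv ((r⁻¹ * (1 + α)) • x) ∈ P := by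
      convert e4 using 2
      ext i
      simp only [Pi.add_apply, Pi.smul_apply, smul_eq_mul]
      grind
    have e6 : r⁻¹ * (1 + α) ∈ K := lam h hx (fun e' => e (by simp [e'])) e5 hu
    have e7 := K.inv_mem (K.mul_mem e6 (K.inv_mem (K.add_mem K.one_mem hα)))
    rw [mul_inv_cancel_right₀ a1, inv_inv] at e7
    exact e1 ▸ K.pow_mem e7 2
  exact (this ▸ Subfield.mem_top c : c ∈ K)

theorem caseA {α : F} (hα : tv (α • u) ∈ P) (h0 : α ≠ 0) (h1 : α ≠ 1) : False := by
  have k : ∀ (c : F) {x : V F}, tv x ∈ P → tv (c • x) ∈ P := fun c _ hx =>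
    lam h hu u0 (all_smul h hu u0 hα h0 h1 c) hx
  have k1 : ∀ {x y : V F}, tv x ∈ P → tv y ∈ P → f x y ≠ 0 → tv (x + y) ∈ P := fun hx hy e => by
    obtain ⟨r, r0, -, e2⟩ := mid' hx hy e
    simpa [r0] using k r e2
  have k2 : ∀ {x y : V F}, tv x ∈ P → tv y ∈ P → tv (x + y) ∈ P := fun {x y} hx hy => by
    by_contra e
    have e0 : f x y = 0 := by_contra fun e' => e (k1 hx hy e')
    have x0 : x ≠ 0 := fun e' => e (by simpa [e'] using hy)
    have y0 : y ≠ 0 := fun e' => e (by simpa [e'] using hx)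
    have e1 : ∀ w, tv w ∈ P → f w x ≠ 0 → f w y = 0 := fun w hw a => by_contra fun b => e <| by
      obtain ⟨t, ht⟩ := exists_sqrt (α * f w y / f w x)
      have t0 : t ≠ 0 := by clear * - ht h0 a b; grind
      have e2 := k1 (k1 (k1 hw (k (t ^ 2) hx) (by simp [f_smul_right, a, t0])) hy (by
        simpa [f_add_left, f_smul_left, e0] using b)) hw (by
        simp only [f_add_left, f_smul_left, f_self, f_comm x w, f_comm y w]
        clear * - ht h1 a b; grind)
      by_cases t1 : 1 + t = 0
      · convert e2 using 2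
        ext i
        simp only [Pi.add_apply, Pi.smul_apply, smul_eq_mul]
        clear * - t1; grind
      convert k t⁻¹ (four (k (t * (1 + t)) hx) (k (1 + t) hy) (s := t / (1 + t))
        (by simp [f_smul_left, f_smul_right, e0]) (by
          convert e2 using 2
          ext i
          simp only [Pi.add_apply, Pi.smul_apply, smul_eq_mul]
          clear * - t1; grind)) using 2
      ext i
      simp only [Pi.add_apply, Pi.smul_apply, smul_eq_mul]
      clear * - t1 t0; grind
    let W : Submodule F (V F) :=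
      { carrier := {z | ∀ w, tv w ∈ P → f w x ≠ 0 → f w z = 0}
        add_mem' := fun ha hb w hw a => by rw [f_add_right, ha w hw a, hb w hw a, add_zero]
        zero_mem' := fun _ _ _ => f_zero_right _
        smul_mem' := fun c _ ha w hw a => by rw [f_smul_right, ha w hw a, mul_zero] }
    rcases irr_tv h hu u0 W (fun v hv z hz w hw a => by
      have e2 := hz v hv
      have e3 := hz _ (step hv hw)
      have e4 := hz w hw a
      simp only [tv_smul, f_add_left, f_add_right, f_smul_left, f_smul_right, f_comm z v] at e3 ⊢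
      clear * - e2 e3 e4 a
      by_cases b : f v x = 0 <;> grind) with e2 | e2
    · exact y0 ((Submodule.mem_bot F).1 (e2 ▸ (e1 : y ∈ W)))
    · obtain ⟨w, hw, a⟩ := exists_ne h hu u0 x0
      exact a ((e2 ▸ Submodule.mem_top : x ∈ W) w hw a)
  let W : Submodule F (V F) :=
    { carrier := {z | tv z ∈ P}
      add_mem' := k2
      zero_mem' := by simp [tv_zero]
      smul_mem' := fun c _ ha => k c ha }
  rcases h.irr W fun g hg w hw => act hg hw with e | e
  · exact u0 ((Submodule.mem_bot F).1 (e ▸ (hu : u ∈ W)))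
  · exact h.proper (eq_top_of fun z => (e ▸ Submodule.mem_top : z ∈ W))

end

theorem one_per (h : Hyp P) {n : V F} {s t : F} (n0 : n ≠ 0) (hs : tv (s • n) ∈ P)
    (ht : tv (t • n) ∈ P) (s0 : s ≠ 0) (t0 : t ≠ 0) : s = t := by_contra fun e =>
  caseA h hs (smul_ne_zero s0 n0) (α := t / s) (by rwa [smul_smul, div_mul_cancel₀ _ s0])
    (div_ne_zero t0 s0) (by grind)

theorem tri (h : Hyp P) {u v y : V F} {a b : F} (hu : tv u ∈ P) (hv : tv v ∈ P)
    (hw : tv (a • u + b • v) ∈ P) (e : f u v = 0)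
    (li : ∀ s t : F, s • u + t • v = 0 → s = 0 ∧ t = 0) (a0 : a ≠ 0) (b0 : b ≠ 0) (ab : a + b ≠ 1)
    (hy : tv y ∈ P) : (f y u = 0 ∧ f y v = 0) ∨ (f y u = 0 ∧ b = 1) ∨ (f y v = 0 ∧ a = 1) ∨
      (a * f y u + b * f y v = 0 ∧ a = b) := by
  have k1 := ker_mem hy hu hv e
  have k2 := ker_mem hy hu hw (by simp [f_add_right, f_smul_right, f_self, e])
  have k3 := ker_mem hy hv hw (by simp [f_add_right, f_smul_right, f_self, f_comm v u, e])
  simp only [f_add_right, f_smul_right] at k2 k3
  generalize f y u = α at *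
  generalize f y v = β at *
  by_cases z : α = 0 ∧ β = 0
  · exact .inl z
  have H : ∀ {s t : F} {x z : V F}, tv x ∈ P → tv z ∈ P → x = s • (β • u + α • v) →
      z = t • (β • u + α • v) → s ≠ 0 → t ≠ 0 → s = t := fun hx hz e1 e2 =>
    one_per h (fun e => z (li _ _ e).symm) (e1 ▸ hx) (e2 ▸ hz)
  have c2 : (α + (a * α + b * β))⁻¹ • ((a * α + b * β) • u + α • (a • u + b • v)) =
      ((α + (a * α + b * β))⁻¹ * b) • (β • u + α • v) := by
    rw [mul_smul]; congr 1; ext i
    simp only [Pi.add_apply, Pi.smul_apply, smul_eq_mul]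
    grind
  have c3 : (β + (a * α + b * β))⁻¹ • ((a * α + b * β) • v + β • (a • u + b • v)) =
      ((β + (a * α + b * β))⁻¹ * a) • (β • u + α • v) := by
    rw [mul_smul]; congr 1; ext i
    simp only [Pi.add_apply, Pi.smul_apply, smul_eq_mul]
    grind
  have n : ∀ {x z : F}, x ≠ z → x + z ≠ 0 := fun d => by clear * - d; grind
  by_cases α0 : α = 0
  · have β0 : β ≠ 0 := fun e => z ⟨α0, e⟩
    refine .inr (.inl ⟨α0, by_contra fun d => ?_⟩)
    have d' : β ≠ a * α + b * β := by clear * - α0 β0 d; grind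
    have := H hu (k3 d') (s := β⁻¹) (by simp [α0, β0]) c3 (by simpa) (by simp [n d', a0])
    clear * - this α0 β0 d ab; grind
  by_cases β0 : β = 0
  · refine .inr (.inr (.inl ⟨β0, by_contra fun d => ?_⟩))
    have d' : α ≠ a * α + b * β := by clear * - α0 β0 d; grind
    have := H hv (k2 d') (s := α⁻¹) (by simp [α0, β0]) c2 (by simpa) (by simp [n d', b0])
    clear * - this α0 β0 d ab; grind
  by_cases γ0 : a * α + b * β = 0
  · refine .inr (.inr (.inr ⟨γ0, by_contra fun d => ?_⟩))
    have d' : α ≠ β := by clear * - α0 β0 γ0 d; grind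
    have := H hw (k1 d') (s := a / β) (by
      ext i
      simp only [Pi.add_apply, Pi.smul_apply, smul_eq_mul]
      clear * - β0 γ0; grind) rfl (by simp [a0, β0]) (by simp [n d'])
    clear * - this α0 β0 γ0 d' ab; grind
  have h1 := fun d d' => H (k1 d) (k2 d') rfl c2 (by simp [n d]) (by simp [n d', b0])
  have h2 := fun d d' => H (k1 d) (k3 d') rfl c3 (by simp [n d]) (by simp [n d', a0])
  have h3 := fun d d' => H (k2 d) (k3 d') c2 c3 (by simp [n d, b0]) (by simp [n d', a0])
  exfalso
  clear * - h1 h2 h3 α0 β0 γ0 ab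
  by_cases d : α = β
  · have := h3 (by grind) (by grind)
    grind
  by_cases d' : α = a * α + b * β
  · have := h2 d (by grind)
    grind
  · have := h1 d d'
    grind

end Cfsg.Agent.Sp4E.Tv
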